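import Mathlib
import Cfsg.Prelude.Def_LocalEven
import Cfsg.Agent.Helper9.Offender
import Cfsg.Agent.Helper4.Dih

set_option autoImplicit false

namespace Cfsg.Agent.Helper9

open Subgroup
open scoped commutatorElement

universe u

variable {G : Type u} [Group G]

/-- Fixed-point congruence for conjugation by an element of prime order `r` on a subgroup. -/
theorem card_modEq_fix9 [Finite G] {r : ℕ} [Fact r.Prime] (W : Subgroup G) (y : G)
    (hy : y ^ r = 1) (hyW : ∀ w ∈ W, y * w * y⁻¹ ∈ W) :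
    Nat.card W ≡ Nat.card ↥(W ⊓ centralizer ({y} : Set G)) [MOD r] := by
  classical
  haveI : Fintype ↥W := Fintype.ofFinite _
  obtain ⟨f, hf⟩ : ∃ f : Function.End ↥W, f = fun w => ⟨y * (w : G) * y⁻¹, hyW w w.2⟩ :=
    ⟨_, rfl⟩
  have hfa : ∀ w : ↥W, ((f w : ↥W) : G) = y * (w : G) * y⁻¹ := by
    intro w; rw [hf]
  have hfpow : ∀ (n : ℕ) (w : ↥W), (((f ^ n) w : ↥W) : G) = y ^ n * (w : G) * (y ^ n)⁻¹ := by
    intro n
    induction n with
    | zero =>
      intro w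
      rw [pow_zero, pow_zero]
      show ((w : ↥W) : G) = 1 * (w : G) * 1⁻¹
      group
    | succ n ih =>
      intro w
      have e : (f ^ (n + 1)) w = (f ^ n) (f w) := by rw [pow_succ]; rfl
      rw [e, ih, hfa, pow_succ]
      group
  have hfr : f ^ r ^ 1 = 1 := by
    rw [pow_one]
    refine funext fun w => Subtype.ext ?_
    have h := hfpow r w
    rw [hy] at h
    rw [h]
    show 1 * (w : G) * 1⁻¹ = (w : G)
    group
  have h1 := Equiv.Perm.card_fixedPoints_modEq (f := f) (p := r) (n := 1) hfr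
  rw [Fintype.card_eq_nat_card, Fintype.card_eq_nat_card] at h1
  have key1 : ∀ w : ↥W, f w = w → y * (w : G) = (w : G) * y := by
    intro w hw
    have h := congrArg Subtype.val hw
    rw [hfa] at h
    exact mul_inv_eq_iff_eq_mul.mp h
  have key2 : ∀ w : ↥W, y * (w : G) = (w : G) * y → f w = w := by
    intro w hw
    apply Subtype.ext
    rw [hfa]
    exact mul_inv_eq_iff_eq_mul.mpr hw
  have h2 : Nat.card ↥(Function.fixedPoints f) = Nat.card ↥(W ⊓ centralizer ({y} : Set G)) := by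
    exact Nat.card_congr
      { toFun := fun w => ⟨(w.1 : G), Subgroup.mem_inf.mpr ⟨w.1.2,
          Subgroup.mem_centralizer_iff.mpr fun h hh => by
            rw [Set.mem_singleton_iff.mp hh]; exact key1 w.1 w.2⟩⟩
        invFun := fun u => ⟨⟨u.1, (Subgroup.mem_inf.mp u.2).1⟩,
          key2 _ (Subgroup.mem_centralizer_iff.mp (Subgroup.mem_inf.mp u.2).2 y
            (Set.mem_singleton y))⟩
        left_inv := fun w => Subtype.ext (Subtype.ext rfl)
        right_inv := fun u => Subtype.ext rfl }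
  rw [h2] at h1
  exact h1

/-- The inductive step for `p = 2`: either an element of order `3` is inverted, or the fixed
points drop by a factor at least `4`. -/
theorem step2_9 [Finite G] {V Q A₀ : Subgroup G} {x : G}
    (hVp : IsPGroup 2 ↥V) (hQV : Q ≤ normalizer (V : Set G)) (hQp : (Nat.card Q).Coprime 2)
    (hQf : Q ⊓ centralizer (V : Set G) = ⊥)
    (hA₀p : IsPGroup 2 ↥A₀) (hA₀V : A₀ ≤ normalizer (V : Set G))
    (hxV : x ∈ normalizer (V : Set G)) (hxQ : x ∈ normalizer (Q : Set G))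
    (hx2 : x * x = 1) (hxA : ∀ b ∈ A₀, x * b = b * x)
    (hxk : ¬ ∀ k ∈ Q ⊓ centralizer (A₀ : Set G), x * k = k * x) :
    (∃ y ∈ Q, orderOf y = 3 ∧ x * y * x⁻¹ = y⁻¹) ∨
      4 * Nat.card ↥(V ⊓ centralizer (A₀ : Set G) ⊓ centralizer ({x} : Set G)) ≤
        Nat.card ↥(V ⊓ centralizer (A₀ : Set G)) := by
  haveI : Fact (Nat.Prime 2) := ⟨Nat.prime_two⟩
  obtain ⟨k, hk0⟩ := not_forall.mp hxk
  obtain ⟨hkK, hkx⟩ := Classical.not_imp.mp hk0
  obtain ⟨hkQ, hkA⟩ := Subgroup.mem_inf.mp hkK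
  have hkA' : ∀ b ∈ A₀, k * b = b * k :=
    fun b hb => (Subgroup.mem_centralizer_iff.mp hkA b hb).symm
  have hxi : x⁻¹ = x := inv_eq_of_mul_eq_one_left hx2
  obtain ⟨z, hz⟩ : ∃ z : G, z = k * x * k⁻¹ * x⁻¹ := ⟨_, rfl⟩
  have hz1 : z ≠ 1 := by
    intro h1
    apply hkx
    rw [h1] at hz
    calc x * k = (k * x * k⁻¹ * x⁻¹)⁻¹ * (k * x) := by group
      _ = k * x := by rw [← hz, inv_one, one_mul]
  have hzQ : z ∈ Q := by
    rw [hz]
    have h1 : x * k⁻¹ * x⁻¹ ∈ Q := (Subgroup.mem_normalizer_iff.mp hxQ _).mp (Q.inv_mem hkQ)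
    have e : k * x * k⁻¹ * x⁻¹ = k * (x * k⁻¹ * x⁻¹) := by group
    rw [e]; exact Q.mul_mem hkQ h1
  have hzA : ∀ b ∈ A₀, z * b = b * z := by
    intro b hb
    have h1 : Commute k b := hkA' b hb
    have h2 : Commute x b := hxA b hb
    rw [hz]
    exact (((h1.mul_left h2).mul_left h1.inv_left).mul_left h2.inv_left).eq
  have hzinv : x * z * x⁻¹ = z⁻¹ := by
    have e : (k * x * k⁻¹ * x⁻¹)⁻¹ = x * k * x⁻¹ * k⁻¹ := by group
    rw [hz, e, hxi]
    calc x * (k * x * k⁻¹ * x) * x = x * k * x * k⁻¹ * (x * x) := by simp only [mul_assoc]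
      _ = x * k * x * k⁻¹ := by rw [hx2, mul_one]
  have hn1 : orderOf z ≠ 1 := fun h => hz1 (orderOf_eq_one_iff.mp h)
  obtain ⟨r, hr, hrn⟩ := Nat.exists_prime_and_dvd hn1
  haveI : Fact r.Prime := ⟨hr⟩
  obtain ⟨y, hy⟩ : ∃ y : G, y = z ^ (orderOf z / r) := ⟨_, rfl⟩
  have hyord : orderOf y = r := by
    rw [hy]; exact orderOf_pow_orderOf_div (orderOf_pos z).ne' hrn
  have hyr : y ^ r = 1 := by rw [← hyord]; exact pow_orderOf_eq_one y
  have hyQ : y ∈ Q := by rw [hy]; exact Q.pow_mem hzQ _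
  have hyA : ∀ b ∈ A₀, y * b = b * y := by
    intro b hb
    rw [hy]
    exact ((show Commute z b from hzA b hb).pow_left _).eq
  have hyinv : x * y * x⁻¹ = y⁻¹ := by
    rw [hy, ← conj_pow, hzinv, inv_pow]
  have hr2 : r ≠ 2 := by
    intro h2
    have h3 : (2 : ℕ) ∣ Nat.card Q := by
      rw [← h2]; exact dvd_trans hrn (Q.orderOf_dvd_natCard hzQ)
    have h4 : (2 : ℕ) ∣ 1 := by
      have h5 := Nat.dvd_gcd h3 (dvd_refl 2)
      rwa [Nat.Coprime.gcd_eq_one hQp] at h5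
    exact absurd h4 (by norm_num)
  by_cases hr3 : r = 3
  · left
    exact ⟨y, hyQ, by rw [hyord, hr3], hyinv⟩
  right
  obtain ⟨W, hW⟩ : ∃ W : Subgroup G, W = V ⊓ centralizer (A₀ : Set G) := ⟨_, rfl⟩
  rw [← hW]
  obtain ⟨C, hC⟩ : ∃ C : Subgroup G, C = W ⊓ centralizer ({x} : Set G) := ⟨_, rfl⟩
  rw [← hC]
  by_contra hcon
  have hcon' : Nat.card W < 4 * Nat.card C := not_le.mp hcon
  have hWV : W ≤ V := by rw [hW]; exact inf_le_left
  have hWp : IsPGroup 2 ↥W := hVp.to_le hWV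
  have hCW : C ≤ W := by rw [hC]; exact inf_le_left
  -- (g1)
  have hCltW : C < W := by
    refine lt_of_le_of_ne hCW ?_
    intro heq
    apply hxk
    apply cent_fix_imp_cent9 hVp hQV hQp hQf hA₀p hA₀V hxV hxQ hxA
    intro w hw
    have hw' : w ∈ C := by rw [heq, hW]; exact hw
    rw [hC] at hw'
    exact Subgroup.mem_centralizer_iff.mp (Subgroup.mem_inf.mp hw').2 x (Set.mem_singleton x)
  obtain ⟨mW, hmW⟩ := IsPGroup.iff_card.mp hWp
  obtain ⟨mC, hmC⟩ := IsPGroup.iff_card.mp (hWp.to_le hCW)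
  have hW2C : Nat.card W = 2 * Nat.card C := by
    have h1 : Nat.card C < Nat.card W := card_lt_of_lt hCltW
    rw [hmW, hmC] at h1 hcon' ⊢
    have h2 : mC < mW := (Nat.pow_lt_pow_iff_right (by norm_num)).mp h1
    have h3 : (2 : ℕ) ^ mW < 2 ^ (mC + 2) := by
      have e : (2 : ℕ) ^ (mC + 2) = 4 * 2 ^ mC := by ring
      rw [e]; exact hcon'
    have h4 : mW < mC + 2 := (Nat.pow_lt_pow_iff_right (by norm_num)).mp h3
    have h5 : mW = mC + 1 := by omega
    rw [h5]; ring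
  -- y normalizes W
  have hyW : ∀ w ∈ W, y * w * y⁻¹ ∈ W := by
    intro w hw
    rw [hW] at hw ⊢
    obtain ⟨hwV, hwA⟩ := Subgroup.mem_inf.mp hw
    refine Subgroup.mem_inf.mpr ⟨(Subgroup.mem_normalizer_iff.mp (hQV hyQ) w).mp hwV, ?_⟩
    refine Subgroup.mem_centralizer_iff.mpr fun b hb => ?_
    have h1 : Commute b y := (hyA b hb).symm
    have h2 : Commute b w := Subgroup.mem_centralizer_iff.mp hwA b hb
    exact ((h1.mul_right h2).mul_right h1.inv_right).eq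
  obtain ⟨C', hC'⟩ : ∃ C' : Subgroup G, C' = W ⊓ centralizer ({y * x * y⁻¹} : Set G) :=
    ⟨_, rfl⟩
  obtain ⟨F, hF⟩ : ∃ F : Subgroup G, F = W ⊓ centralizer ({y} : Set G) := ⟨_, rfl⟩
  have hC'W : C' ≤ W := by rw [hC']; exact inf_le_left
  have hFW : F ≤ W := by rw [hF]; exact inf_le_left
  -- (g2)
  have hCC' : Nat.card C ≤ Nat.card C' := by
    have hmap : C.map (MulAut.conj y).toMonoidHom ≤ C' := by
      rintro _ ⟨w, hw, rfl⟩
      have hw' : w ∈ W ⊓ centralizer ({x} : Set G) := by rw [← hC]; exact hw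
      obtain ⟨hwW, hwx⟩ := Subgroup.mem_inf.mp hw'
      have hxw : x * w = w * x :=
        Subgroup.mem_centralizer_iff.mp hwx x (Set.mem_singleton x)
      show y * w * y⁻¹ ∈ C'
      rw [hC']
      refine Subgroup.mem_inf.mpr ⟨hyW w hwW, ?_⟩
      refine Subgroup.mem_centralizer_iff.mpr fun h hh => ?_
      rw [Set.mem_singleton_iff.mp hh]
      calc y * x * y⁻¹ * (y * w * y⁻¹) = y * (x * w) * y⁻¹ := by group
        _ = y * (w * x) * y⁻¹ := by rw [hxw]
        _ = y * w * y⁻¹ * (y * x * y⁻¹) := by group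
    have h1 := Subgroup.card_le_of_le hmap
    rwa [Subgroup.card_map_of_injective (MulAut.conj y).injective] at h1
  -- (g3)
  obtain ⟨s, hs⟩ := hr.odd_of_ne_two hr2
  have hyy : y * y = y * x * y⁻¹ * x⁻¹ := by
    have e1 : x * y⁻¹ * x⁻¹ = y := by
      have e2 : x * y⁻¹ * x⁻¹ = (x * y * x⁻¹)⁻¹ := by group
      rw [e2, hyinv, inv_inv]
    calc y * y = y * (x * y⁻¹ * x⁻¹) := by rw [e1]
      _ = y * x * y⁻¹ * x⁻¹ := by group
  have hypow : y = (y * y) ^ (s + 1) := by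
    rw [← pow_two, ← pow_mul, show 2 * (s + 1) = r + 1 by omega, pow_succ, hyr, one_mul]
  have hinfF : C ⊓ C' ≤ F := by
    intro w hw
    obtain ⟨hwC, hwC'⟩ := Subgroup.mem_inf.mp hw
    rw [hC] at hwC
    rw [hC'] at hwC'
    obtain ⟨hwW, hwx⟩ := Subgroup.mem_inf.mp hwC
    have hxw : Commute x w := Subgroup.mem_centralizer_iff.mp hwx x (Set.mem_singleton x)
    have hxw' : Commute (y * x * y⁻¹) w :=
      Subgroup.mem_centralizer_iff.mp (Subgroup.mem_inf.mp hwC').2 _ (Set.mem_singleton _)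
    have h1 : Commute (y * y) w := by
      rw [hyy]; exact hxw'.mul_left hxw.inv_left
    have h2 : Commute y w := by
      rw [hypow]; exact h1.pow_left _
    rw [hF]
    refine Subgroup.mem_inf.mpr ⟨hwW, Subgroup.mem_centralizer_iff.mpr fun h hh => ?_⟩
    rw [Set.mem_singleton_iff.mp hh]
    exact h2.eq
  -- (g4)
  have hW4F : Nat.card W ≤ 4 * Nat.card F := by
    have h1 := card_mul_card_le9 C C'
    have h2 : Nat.card ↥(C ⊔ C') ≤ Nat.card W := Subgroup.card_le_of_le (sup_le hCW hC'W)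
    have h3 : Nat.card ↥(C ⊓ C') ≤ Nat.card F := Subgroup.card_le_of_le hinfF
    have hCpos : 0 < Nat.card C := Nat.card_pos
    have h4 : Nat.card C * Nat.card C ≤ Nat.card C * (2 * Nat.card F) := by
      calc Nat.card C * Nat.card C ≤ Nat.card C * Nat.card C' := Nat.mul_le_mul_left _ hCC'
        _ ≤ Nat.card ↥(C ⊔ C') * Nat.card ↥(C ⊓ C') := h1
        _ ≤ Nat.card W * Nat.card F := Nat.mul_le_mul h2 h3
        _ = Nat.card C * (2 * Nat.card F) := by rw [hW2C]; ring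
    have h5 : Nat.card C ≤ 2 * Nat.card F := Nat.le_of_mul_le_mul_left h4 hCpos
    rw [hW2C]
    omega
  -- (g5)
  have hFltW : F < W := by
    refine lt_of_le_of_ne hFW ?_
    intro heq
    have hyc : ∀ w ∈ V ⊓ centralizer (A₀ : Set G), y * w = w * y := by
      intro w hw
      have hw' : w ∈ F := by rw [heq, hW]; exact hw
      rw [hF] at hw'
      exact Subgroup.mem_centralizer_iff.mp (Subgroup.mem_inf.mp hw').2 y (Set.mem_singleton y)
    have hyord2 : (orderOf y).Coprime 2 := by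
      rw [hyord]; exact (Nat.coprime_primes hr Nat.prime_two).mpr hr2
    have hyV := thompson_AxB_elt 2 y hyord2 A₀ V hA₀p hVp hyA hA₀V (hQV hyQ) hyc
    have hy1 : y ∈ Q ⊓ centralizer (V : Set G) :=
      Subgroup.mem_inf.mpr ⟨hyQ, Subgroup.mem_centralizer_iff.mpr fun v hv => (hyV v hv).symm⟩
    rw [hQf, Subgroup.mem_bot] at hy1
    rw [hy1, orderOf_one] at hyord
    exact hr.one_lt.ne hyord
  -- (g6), (g7)
  have hmod : Nat.card W ≡ Nat.card F [MOD r] := by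
    rw [hF]; exact card_modEq_fix9 W y hyr hyW
  have hltFW : Nat.card F < Nat.card W := card_lt_of_lt hFltW
  have hdvd : r ∣ Nat.card W - Nat.card F := (Nat.modEq_iff_dvd' hltFW.le).mp hmod.symm
  obtain ⟨mF, hmF⟩ := IsPGroup.iff_card.mp (hWp.to_le hFW)
  have hr_not_dvd : ¬ r ∣ 2 ^ mF := by
    intro h
    exact hr2 ((Nat.prime_dvd_prime_iff_eq hr Nat.prime_two).mp (hr.dvd_of_dvd_pow h))
  rw [hmW, hmF] at hltFW hW4F hdvd
  have h2 : mF < mW := (Nat.pow_lt_pow_iff_right (by norm_num)).mp hltFW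
  have h3 : mW ≤ mF + 2 := by
    have e : (4 : ℕ) * 2 ^ mF = 2 ^ (mF + 2) := by ring
    rw [e] at hW4F
    exact (Nat.pow_le_pow_iff_right (by norm_num)).mp hW4F
  have h4 : mW = mF + 1 ∨ mW = mF + 2 := by omega
  rcases h4 with h4 | h4
  · rw [h4] at hdvd
    have e : (2 : ℕ) ^ (mF + 1) - 2 ^ mF = 2 ^ mF := by
      have e' : (2 : ℕ) ^ (mF + 1) = 2 ^ mF + 2 ^ mF := by ring
      rw [e']; exact Nat.add_sub_cancel (2 ^ mF) (2 ^ mF)
    rw [e] at hdvd
    exact hr_not_dvd hdvd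
  · rw [h4] at hdvd
    have e : (2 : ℕ) ^ (mF + 2) - 2 ^ mF = 2 ^ mF * 3 := by
      have e' : (2 : ℕ) ^ (mF + 2) = 2 ^ mF * 3 + 2 ^ mF := by ring
      rw [e']; exact Nat.add_sub_cancel (2 ^ mF * 3) (2 ^ mF)
    rw [e] at hdvd
    rcases (Nat.Prime.dvd_mul hr).mp hdvd with h5 | h5
    · exact hr_not_dvd h5
    · exact hr3 ((Nat.prime_dvd_prime_iff_eq hr Nat.prime_three).mp h5)

theorem offender_bound2_9 [Finite G] {V Q : Subgroup G}
    (hVp : IsPGroup 2 ↥V) (hQV : Q ≤ normalizer (V : Set G)) (hQp : (Nat.card Q).Coprime 2)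
    (hQf : Q ⊓ centralizer (V : Set G) = ⊥) :
    ∀ (n : ℕ) (A : Subgroup G), Nat.card A = n →
      (∀ a ∈ A, ∀ b ∈ A, a * b = b * a) → (∀ a ∈ A, a ^ 2 = 1) →
      A ≤ normalizer (V : Set G) → A ≤ normalizer (Q : Set G) →
      A ⊓ centralizer (Q : Set G) = ⊥ →
      (∃ a ∈ A, ∃ y ∈ Q, orderOf y = 3 ∧ a * a = 1 ∧ a * y * a⁻¹ = y⁻¹) ∨
        Nat.card A ^ 2 * Nat.card ↥(V ⊓ centralizer (A : Set G)) ≤ Nat.card V := by
  haveI : Fact (Nat.Prime 2) := ⟨Nat.prime_two⟩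
  intro n
  induction n using Nat.strong_induction_on with
  | _ n ih =>
  intro A hn hAc hAp hAV hAQ hAf
  by_cases hA1 : A = ⊥
  · right
    rw [hA1, Subgroup.card_bot, one_pow, one_mul]
    exact Subgroup.card_le_of_le inf_le_left
  have hnc : ¬ A ≤ centralizer (Q : Set G) := by
    intro hle
    apply hA1
    rw [← hAf]
    exact (inf_eq_left.mpr hle).symm
  obtain ⟨A₀, hA₀A, x, hxA, hxA₀, hAeq, hxk⟩ := exists_hyperplane9 hQp hAc hAp hAQ hnc
  have hlt : A₀ < A := lt_of_le_of_ne hA₀A (fun h => hxA₀ (by rw [h]; exact hxA))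
  have hcardlt : Nat.card A₀ < n := by rw [← hn]; exact card_lt_of_lt hlt
  have hA₀f : A₀ ⊓ centralizer (Q : Set G) = ⊥ := by
    rw [eq_bot_iff, ← hAf]; exact inf_le_inf_right _ hA₀A
  have ih0 := ih (Nat.card A₀) hcardlt A₀ rfl (fun a ha b hb => hAc a (hA₀A ha) b (hA₀A hb))
    (fun a ha => hAp a (hA₀A ha)) (hA₀A.trans hAV) (hA₀A.trans hAQ) hA₀f
  rcases ih0 with ⟨a, ha, y, hy, h3, h4, h5⟩ | ih0
  · left; exact ⟨a, hA₀A ha, y, hy, h3, h4, h5⟩
  have hA₀p : IsPGroup 2 ↥A₀ := isPGroup_of_exp9 (fun a ha => hAp a (hA₀A ha))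
  have hx2 : x * x = 1 := by rw [← pow_two]; exact hAp x hxA
  rcases step2_9 hVp hQV hQp hQf hA₀p (hA₀A.trans hAV) (hAV hxA) (hAQ hxA) hx2
    (fun b hb => hAc x hxA b (hA₀A hb)) hxk with ⟨y, hy, h3, h5⟩ | hstep
  · left; exact ⟨x, hxA, y, hy, h3, hx2, h5⟩
  right
  have hCeq : V ⊓ centralizer (A : Set G) =
      V ⊓ centralizer (A₀ : Set G) ⊓ centralizer ({x} : Set G) := by
    have e1 : centralizer (A : Set G) =
        centralizer (A₀ : Set G) ⊓ centralizer ({x} : Set G) := by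
      have e2 : centralizer ((A₀ ⊔ zpowers x : Subgroup G) : Set G) =
          centralizer (A₀ : Set G) ⊓ centralizer ({x} : Set G) := by
        rw [centralizer_sup9, Subgroup.zpowers_eq_closure, centralizer_closure9]
      rw [← hAeq] at e2
      exact e2
    rw [e1, inf_assoc]
  rw [← hCeq] at hstep
  have hcardA : Nat.card A ≤ 2 * Nat.card A₀ := by
    have h1 := card_sup_zpowers_le9 (p := 2) (A₀ := A₀) (hAp x hxA)
      (fun a ha => hAc a (hA₀A ha) x hxA)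
    rw [← hAeq] at h1
    exact h1
  calc Nat.card A ^ 2 * Nat.card ↥(V ⊓ centralizer (A : Set G))
      ≤ (2 * Nat.card A₀) ^ 2 * Nat.card ↥(V ⊓ centralizer (A : Set G)) :=
        Nat.mul_le_mul_right _ (Nat.pow_le_pow_left hcardA 2)
    _ = Nat.card A₀ ^ 2 * (4 * Nat.card ↥(V ⊓ centralizer (A : Set G))) := by ring
    _ ≤ Nat.card A₀ ^ 2 * Nat.card ↥(V ⊓ centralizer (A₀ : Set G)) :=
        Nat.mul_le_mul_left _ hstep
    _ ≤ Nat.card V := ih0

theorem involves_of_iso9 {M : Type*} {H : Type*} [Group M] [Group H] (K : Subgroup M)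
    (e : ↥K ≃* H) : Cfsg.Involves H M := by
  have hn : ((⊥ : Subgroup M).subgroupOf K).Normal := by
    rw [Subgroup.bot_subgroupOf]; infer_instance
  exact ⟨K, ⊥, hn, ⟨((QuotientGroup.quotientMulEquivOfEq (Subgroup.bot_subgroupOf K)).trans
    QuotientGroup.quotientBot).trans e⟩⟩

theorem s3_of_inverting9 {M : Type*} [Group M] (a y : M) (ha2 : a * a = 1)
    (hy3 : orderOf y = 3) (hinv : a * y * a⁻¹ = y⁻¹) :
    Nonempty (↥(Subgroup.closure ({a, a * y} : Set M)) ≃* Equiv.Perm (Fin 3)) := by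
  have hyy : y * y ≠ 1 := by
    intro h
    have h1 : orderOf y ∣ 2 := orderOf_dvd_of_pow_eq_one (by rw [pow_two]; exact h)
    rw [hy3] at h1
    exact absurd h1 (by norm_num)
  have he2 : a * y * (a * y) = 1 := by
    calc a * y * (a * y) = (a * y * a⁻¹) * (a * a) * y := by group
      _ = y⁻¹ * 1 * y := by rw [hinv, ha2]
      _ = 1 := by group
  have hd1 : a ≠ 1 := by
    intro h
    rw [h] at hinv
    apply hyy
    have h1 : y = y⁻¹ := by simpa using hinv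
    calc y * y = y * y⁻¹ := by rw [← h1]
      _ = 1 := mul_inv_cancel y
  have he1 : a * y ≠ 1 := by
    intro h
    apply hyy
    have h1 : y = a⁻¹ := eq_inv_of_mul_eq_one_right h
    rw [h1, ← mul_inv_rev, ha2, inv_one]
  have hne : a ≠ a * y := by
    intro h
    have h1 : y = 1 := by
      have := mul_left_cancel (a := a) (b := 1) (c := y) (by rw [mul_one]; exact h)
      exact this.symm
    rw [h1, orderOf_one] at hy3
    exact absurd hy3 (by norm_num)
  have hprod : a * (a * y) = y := by rw [← mul_assoc, ha2, one_mul]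
  obtain ⟨φ⟩ := Cfsg.Agent.Helper4.closure_pair_mulEquiv_dihedral a (a * y) ha2 he2 hd1 he1 hne
  rw [hprod, hy3] at φ
  have h01 : (0 : Fin 3) ≠ 1 := by decide
  have h12 : (1 : Fin 3) ≠ 2 := by decide
  have h02 : (0 : Fin 3) ≠ 2 := by decide
  have hx2 : Equiv.swap (1 : Fin 3) 0 * Equiv.swap (1 : Fin 3) 0 = 1 := Equiv.swap_mul_self _ _
  have hy2 : Equiv.swap (1 : Fin 3) 2 * Equiv.swap (1 : Fin 3) 2 = 1 := Equiv.swap_mul_self _ _
  have hx1 : Equiv.swap (1 : Fin 3) 0 ≠ 1 := by decide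
  have hy1 : Equiv.swap (1 : Fin 3) 2 ≠ 1 := by decide
  have hxy : Equiv.swap (1 : Fin 3) 0 ≠ Equiv.swap (1 : Fin 3) 2 := by decide
  have hord' : orderOf (Equiv.swap (1 : Fin 3) 0 * Equiv.swap (1 : Fin 3) 2) = 3 :=
    (Equiv.Perm.isThreeCycle_swap_mul_swap_same h01.symm h12 h02).orderOf
  obtain ⟨ψ⟩ := Cfsg.Agent.Helper4.closure_pair_mulEquiv_dihedral
    (Equiv.swap (1 : Fin 3) 0) (Equiv.swap (1 : Fin 3) 2) hx2 hy2 hx1 hy1 hxy
  rw [hord'] at ψ
  have htop : Subgroup.closure ({Equiv.swap (1 : Fin 3) 0, Equiv.swap (1 : Fin 3) 2} :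
      Set (Equiv.Perm (Fin 3))) = ⊤ := by
    apply Subgroup.eq_top_of_card_eq
    rw [Nat.card_congr ψ.toEquiv, DihedralGroup.nat_card, Nat.card_eq_fintype_card,
      Fintype.card_perm, Fintype.card_fin]
    rfl
  exact ⟨φ.trans (ψ.symm.trans ((MulEquiv.subgroupCongr htop).trans Subgroup.topEquiv))⟩

theorem s3_involved9 {X : Type u} [Group X] [Finite X] (M V : Subgroup X)
    (hV : Cfsg.IsElementaryAbelian 2 V) (hMV : M ≤ normalizer (V : Set X))
    (hfaith : M ⊓ centralizer (V : Set X) = ⊥)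
    (hcon : centralizer (Cfsg.pPrimeCore 2 ↥M : Set ↥M) ≤ Cfsg.pPrimeCore 2 ↥M)
    (A : Subgroup X) (hAM : A ≤ M) (hA : Cfsg.IsElementaryAbelian 2 A)
    (hsmall : (V ⊓ centralizer (A : Set X)).relIndex V < Nat.card A ^ 2) :
    Cfsg.Involves (Equiv.Perm (Fin 3)) ↥M := by
  haveI : Fact (Nat.Prime 2) := ⟨Nat.prime_two⟩
  have hVp : IsPGroup 2 ↥V := isPGroup_of_exp9 hV.2
  have hAc : ∀ a ∈ A, ∀ b ∈ A, a * b = b * a := by
    intro a ha b hb
    have h := hA.1.is_comm.comm ⟨a, ha⟩ ⟨b, hb⟩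
    exact congrArg Subtype.val h
  obtain ⟨Q, hQM, hQp, hMQ, hQf, hQA⟩ := pprime_core_setup9 V M hMV hfaith hcon
  rcases offender_bound2_9 hVp (hQM.trans hMV) hQp hQf (Nat.card A) A rfl hAc hA.2
    (hAM.trans hMV) (hAM.trans hMQ) (hQA A hAM hA.2) with ⟨a, ha, y, hy, h3, h4, h5⟩ | hbig
  · obtain ⟨φ⟩ := s3_of_inverting9 (⟨a, hAM ha⟩ : ↥M) ⟨y, hQM hy⟩ (Subtype.ext h4)
      (by rw [Subgroup.orderOf_mk]; exact h3) (Subtype.ext h5)
    exact involves_of_iso9 _ φ
  · exfalso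
    have h1 : Nat.card ↥(V ⊓ centralizer (A : Set X)) *
        (V ⊓ centralizer (A : Set X)).relIndex V = Nat.card V := by
      have h0 := Subgroup.relIndex_mul_relIndex (⊥ : Subgroup X)
        (V ⊓ centralizer (A : Set X)) V bot_le inf_le_left
      rwa [Subgroup.relIndex_bot_left, Subgroup.relIndex_bot_left] at h0
    have hpos : 0 < Nat.card ↥(V ⊓ centralizer (A : Set X)) := Nat.card_pos
    have h2 := Nat.mul_lt_mul_of_pos_left hsmall hpos
    rw [h1] at h2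
    have h3 : Nat.card ↥(V ⊓ centralizer (A : Set X)) * Nat.card A ^ 2 ≤ Nat.card V := by
      rw [mul_comm]; exact hbig
    exact absurd h3 (not_le.mpr h2)

end Cfsg.Agent.Helper9
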