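import Cfsg.Agent.Helper9.Balance2

set_option autoImplicit false
open Subgroup

namespace Cfsg.Agent.Helper9

/-- an element of odd order of `H⟨t⟩` (`t² = 1` normalizing `H`) lies in `H` -/
theorem odd_mem_of_sup_zpowers {G : Type*} [Group G] (H : Subgroup G) (t : G) (ht2 : t ^ 2 = 1)
    (htH : t ∈ normalizer (H : Set G)) (o : G) (ho : o ∈ H ⊔ zpowers t)
    (hodd : (orderOf o).Coprime 2) : o ∈ H := by
  have hZN : zpowers t ≤ normalizer (H : Set G) := by rw [Subgroup.zpowers_le]; exact htH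
  obtain ⟨h, hh, s, hs, rfl⟩ := exists_mul_of_mem_sup_normalizer hZN ho
  have hs2 : s ^ 2 = 1 := by
    obtain ⟨k, rfl⟩ := Subgroup.mem_zpowers_iff.mp hs
    rw [← zpow_natCast, ← zpow_mul, mul_comm, zpow_mul, zpow_natCast, ht2, one_zpow]
  have h1 : (h * s) ^ 2 ∈ H := by
    have e : (h * s) ^ 2 = h * (s * h * s⁻¹) * s ^ 2 := by rw [pow_two, pow_two]; group
    rw [e, hs2, mul_one]
    exact H.mul_mem hh ((Subgroup.mem_normalizer_iff.mp (hZN hs) h).mp hh)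
  apply mem_of_pow_mem_coprime (H := zpowers (h * s)) (n := 2) ?_ (Subgroup.mem_zpowers _) h1
  rw [Nat.card_zpowers]
  exact hodd

/-- commutators of elements of `H⟨t⟩` lie in `H` -/
theorem comm_mem_of_sup_zpowers {G : Type*} [Group G] (H : Subgroup G) (t : G)
    (htH : t ∈ normalizer (H : Set G)) (a b : G) (ha : a ∈ H ⊔ zpowers t)
    (hb : b ∈ H ⊔ zpowers t) : a * b * a⁻¹ * b⁻¹ ∈ H := by
  have hZN : zpowers t ≤ normalizer (H : Set G) := by rw [Subgroup.zpowers_le]; exact htH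
  obtain ⟨h, hh, s, hs, rfl⟩ := exists_mul_of_mem_sup_normalizer hZN ha
  obtain ⟨h', hh', s', hs', rfl⟩ := exists_mul_of_mem_sup_normalizer hZN hb
  have hss : s * s' = s' * s := by
    obtain ⟨k, rfl⟩ := Subgroup.mem_zpowers_iff.mp hs
    obtain ⟨k', rfl⟩ := Subgroup.mem_zpowers_iff.mp hs'
    rw [← zpow_add, ← zpow_add, add_comm]
  have e : h * s * (h' * s') * (h * s)⁻¹ * (h' * s')⁻¹ =
      h * (s * h' * s⁻¹) * (s * s' * s⁻¹ * s'⁻¹) * (s' * h⁻¹ * s'⁻¹) * h'⁻¹ := by group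
  have e2 : s * s' * s⁻¹ * s'⁻¹ = 1 := by rw [hss]; group
  rw [e, e2, mul_one]
  have h1 : s * h' * s⁻¹ ∈ H := (Subgroup.mem_normalizer_iff.mp (hZN hs) h').mp hh'
  have h2 : s' * h⁻¹ * s'⁻¹ ∈ H :=
    (Subgroup.mem_normalizer_iff.mp (hZN hs') h⁻¹).mp (H.inv_mem hh)
  exact H.mul_mem (H.mul_mem (H.mul_mem hh h1) h2) (H.inv_mem hh')

theorem pPrimeCore_sup_zpowers_eq_bot {G : Type*} [Group G] [Finite G] (H : Subgroup G) (t : G)
    (ht2 : t ^ 2 = 1) (htH : t ∈ normalizer (H : Set G)) (hO : Cfsg.pPrimeCore 2 ↥H = ⊥)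
    (G₁ : Subgroup G) (hG₁ : G₁ = H ⊔ zpowers t) :
    Cfsg.pPrimeCore 2 ↥G₁ = ⊥ := by
  have hHG : H ≤ G₁ := by rw [hG₁]; exact le_sup_left
  have hcop := ppcOf_coprime 2 G₁
  have hle : (Cfsg.pPrimeCore 2 ↥G₁).map G₁.subtype ≤ H := by
    intro o ho
    apply odd_mem_of_sup_zpowers H t ht2 htH o
    · rw [← hG₁]; exact Subgroup.map_subtype_le _ ho
    · exact Nat.Coprime.coprime_dvd_left (Subgroup.orderOf_dvd_natCard _ ho) hcop
  have hn : H ≤ normalizer (((Cfsg.pPrimeCore 2 ↥G₁).map G₁.subtype : Subgroup G) : Set G) :=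
    hHG.trans (Subgroup.le_normalizer.trans (char_map_normalizer G₁ (Cfsg.pPrimeCore 2 ↥G₁)))
  have h1 := le_ppcOf hle hn hcop
  rw [hO, Subgroup.map_bot, le_bot_iff] at h1
  exact (Subgroup.map_eq_bot_iff_of_injective _ G₁.subtype_injective).mp h1

theorem component_comap_inclusion {G : Type*} [Group G] (H G₁ : Subgroup G) (hHG : H ≤ G₁)
    (K : Subgroup ↥G₁) (hK : Cfsg.IsComponent K) (hKH : K.map G₁.subtype ≤ H) :
    Cfsg.IsComponent (K.comap (Subgroup.inclusion hHG)) ∧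
      (K.comap (Subgroup.inclusion hHG)).map H.subtype = K.map G₁.subtype := by
  have hmap : (K.comap (Subgroup.inclusion hHG)).map H.subtype = K.map G₁.subtype := by
    ext g
    constructor
    · rintro ⟨h, hh, rfl⟩
      exact ⟨Subgroup.inclusion hHG h, hh, rfl⟩
    · rintro ⟨k, hk, rfl⟩
      have hkH : (k : G) ∈ H := hKH ⟨k, hk, rfl⟩
      refine ⟨⟨(k : G), hkH⟩, ?_, rfl⟩
      show Subgroup.inclusion hHG ⟨(k : G), hkH⟩ ∈ K
      have e : Subgroup.inclusion hHG ⟨(k : G), hkH⟩ = k := Subtype.ext rfl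
      rw [e]; exact hk
  refine ⟨⟨hK.1.comap _, ?_⟩, hmap⟩
  rw [← quasi_map_subtype_iff H (K.comap (Subgroup.inclusion hHG)), hmap,
    quasi_map_subtype_iff G₁ K]
  exact hK.2

theorem coe_mem_normalizer_map_subtype {G : Type*} [Group G] (G₁ : Subgroup G)
    (K : Subgroup ↥G₁) (a : ↥G₁) (ha : a ∈ normalizer (K : Set ↥G₁)) :
    (a : G) ∈ normalizer ((K.map G₁.subtype : Subgroup G) : Set G) := by
  apply mem_normalizer_of_conj_mem
  · rintro _ ⟨k, hk, rfl⟩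
    exact ⟨a * k * a⁻¹, (Subgroup.mem_normalizer_iff.mp ha k).mp hk, rfl⟩
  · rintro _ ⟨k, hk, rfl⟩
    refine ⟨a⁻¹ * k * a, ?_, rfl⟩
    have := (Subgroup.mem_normalizer_iff.mp (Subgroup.inv_mem _ ha) k).mp hk
    rwa [inv_inv] at this

end Cfsg.Agent.Helper9
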