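import Cfsg.Agent.Helper13.Codeg
import Cfsg.Agent.Helper2.CharInner
import Cfsg.Agent.Helper2.CharDecomp
import Cfsg.Agent.Helper2.CharNat
import Cfsg.Agent.Helper2.CharConstituent
import Cfsg.Agent.Helper2.CharLinear
import Cfsg.Agent.Helper24.ClassSum

set_option autoImplicit false

namespace Cfsg.Agent.Helper9

open Cfsg
open scoped ComplexConjugate

/-- expansion of a character with natural coefficients, evaluated pointwise -/
theorem ft_expand9 {K : Type*} [Group K] [Fintype K] [Fintype (IrrCharacter K)] {Θ : K → ℂ}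
    (hΘ : IsCharacter K Θ) :
    ∃ m : IrrCharacter K → ℕ, (∀ ψ : IrrCharacter K, classInner Θ (ψ : K → ℂ) = (m ψ : ℂ)) ∧
      ∀ k : K, Θ k = ∑ ψ : IrrCharacter K, (m ψ : ℂ) * (ψ : K → ℂ) k := by
  have hm : ∀ ψ : IrrCharacter K, ∃ m : ℕ, classInner Θ (ψ : K → ℂ) = (m : ℂ) :=
    fun ψ => Helper2.classInner_char_nat hΘ (Helper24.isCharacter_of_irr ψ.2)
  choose m hm using hm
  refine ⟨m, hm, fun k => ?_⟩
  have h := congrFun (Helper2.class_fn_expansion (Helper2.IsCharacter.isClassFunction hΘ)) k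
  rw [Finset.sum_apply] at h
  rw [h]
  refine Finset.sum_congr rfl fun ψ _ => ?_
  rw [Pi.smul_apply, smul_eq_mul, hm]

/-- Part 2 of the Feit–Thompson abelian subgroup degree bound, as a reduction to part 1. -/
theorem ft_part2 {G : Type*} [Group G] [Fintype G] (H : Subgroup G) [Fintype H]
    (hab : ∀ a ∈ H, ∀ b ∈ H, a * b = b * a)
    (part1 : ∀ ψ : G → ℂ, Cfsg.IsIrrCharacter G ψ → (∃ h ∈ H, ψ h ≠ ψ 1) →
      (ψ 1).re ^ 2 > (Nat.card H : ℝ) * (Cfsg.classInner (fun h : H => ψ h) (fun _ => 1)).re ^ 2)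
    (χ : G → ℂ) (hχ : Cfsg.IsIrrCharacter G χ) :
    χ 1 ≠ 1 → (∀ M : Subgroup G, M.Normal → H ≤ M → M = ⊤) →
      (1 + (χ 1).re) ^ 2 > (Nat.card H : ℝ) := by
  classical
  intro hχ1 hgen
  haveI := Helper24.finite_irrCharacter (G := G)
  letI := Fintype.ofFinite (IrrCharacter G)
  haveI := Helper24.finite_irrCharacter (G := H)
  letI := Fintype.ofFinite (IrrCharacter H)
  have hχc := Helper24.isCharacter_of_irr hχ
  have hΘc : IsCharacter G (χ * fun g => conj (χ g)) :=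
    Helper2.IsCharacter.mul hχc (Helper2.isCharacter_conj hχc)
  obtain ⟨m, hm, hexp⟩ := ft_expand9 hΘc
  have hdeg : ∀ ψ : IrrCharacter G, ∃ d : ℕ, (ψ : G → ℂ) 1 = (d : ℂ) := fun ψ =>
    ⟨_, Helper24.charDegree_spec (Helper24.isCharacter_of_irr ψ.2)⟩
  choose d hdeg using hdeg
  have hc : ∀ ψ : IrrCharacter G, ∃ c : ℕ,
      classInner (fun h : H => (ψ : G → ℂ) h) (fun _ => (1:ℂ)) = (c : ℂ) := fun ψ =>
    Helper2.classInner_char_nat (Helper24.isCharacter_restrict H (Helper24.isCharacter_of_irr ψ.2))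
      Helper2.isCharacter_one
  choose c hc using hc
  obtain ⟨f, hχ1'⟩ : ∃ f : ℕ, χ 1 = (f : ℂ) := ⟨_, Helper24.charDegree_spec hχc⟩
  have hf0 : f ≠ 0 := by
    intro h0; apply Helper24.irr_one_ne_zero hχ; rw [hχ1', h0]; simp
  have hf1 : f ≠ 1 := by
    intro h1; apply hχ1; rw [hχ1', h1]; simp
  have hf2 : 2 ≤ f := by omega
  obtain ⟨one, hone⟩ : ∃ o : IrrCharacter G, (o : G → ℂ) = fun _ => (1:ℂ) :=
    ⟨⟨_, Helper2.isIrrCharacter_one_fun⟩, rfl⟩
  have hneG : (Nat.card G : ℂ) ≠ 0 := by exact_mod_cast Nat.card_pos.ne'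
  have hneH : (Nat.card H : ℂ) ≠ 0 := by exact_mod_cast Nat.card_pos.ne'
  have hm1 : m one = 1 := by
    have h1 := hm one
    have h2 : classInner (χ * fun g => conj (χ g)) (one : G → ℂ) = classInner χ χ := by
      unfold classInner
      congr 1
      refine Finset.sum_congr rfl fun g _ => ?_
      simp [hone]
    rw [h2, Helper2.classInner_irr hχ hχ, if_pos rfl] at h1
    exact_mod_cast h1.symm
  have hd1 : d one = 1 := by
    have h := hdeg one
    rw [hone] at h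
    have h' : (1:ℂ) = (d one : ℂ) := h
    exact_mod_cast h'.symm
  have hc1 : c one = 1 := by
    have h1 := hc one
    have h2 : classInner (fun h : H => (one : G → ℂ) h) (fun _ => (1:ℂ)) = 1 := by
      unfold classInner
      simp only [hone, map_one, mul_one, Finset.sum_const, Finset.card_univ, nsmul_eq_mul]
      rw [← Nat.card_eq_fintype_card]; exact inv_mul_cancel₀ hneH
    rw [h2] at h1
    exact_mod_cast h1.symm
  have hΘ1 : (χ * fun g => conj (χ g)) 1 = (f:ℂ) * (f:ℂ) := by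
    show χ 1 * conj (χ 1) = _
    rw [hχ1', Complex.conj_natCast]
  have hsum1 : (f:ℂ) * (f:ℂ) = ∑ ψ : IrrCharacter G, (m ψ : ℂ) * (d ψ : ℂ) := by
    rw [← hΘ1, hexp 1]
    exact Finset.sum_congr rfl fun ψ _ => by rw [hdeg]
  have hsum1' : f * f = ∑ ψ : IrrCharacter G, m ψ * d ψ := by exact_mod_cast hsum1
  have hs : classInner (fun h : H => (χ * fun g => conj (χ g)) h) (fun _ => (1:ℂ))
      = ∑ ψ : IrrCharacter G, (m ψ : ℂ) * (c ψ : ℂ) := by
    have h1 : (fun h : H => (χ * fun g => conj (χ g)) h)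
        = ∑ ψ : IrrCharacter G, (m ψ : ℂ) • (fun h : H => (ψ : G → ℂ) h) := by
      funext h
      rw [hexp, Finset.sum_apply]
      exact Finset.sum_congr rfl fun ψ _ => by rw [Pi.smul_apply, smul_eq_mul]
    rw [h1, Helper2.classInner_sum_left]
    refine Finset.sum_congr rfl fun ψ _ => ?_
    rw [Helper2.classInner_smul_left, hc]
  have hs2 : classInner (fun h : H => (χ * fun g => conj (χ g)) h) (fun _ => (1:ℂ))
      = classInner (fun h : H => χ h) (fun h : H => χ h) := by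
    unfold classInner
    congr 1
    refine Finset.sum_congr rfl fun h _ => ?_
    simp
  have hresc : IsCharacter H (fun h : H => χ h) := Helper24.isCharacter_restrict H hχc
  obtain ⟨a, ha, haexp⟩ := ft_expand9 hresc
  have habH : ∀ x y : H, x * y = y * x := fun x y => Subtype.ext (hab x x.2 y y.2)
  have hfa : f = ∑ lam : IrrCharacter H, a lam := by
    have h : χ 1 = ∑ lam : IrrCharacter H, (a lam : ℂ) * (lam : H → ℂ) 1 := haexp 1
    rw [hχ1'] at h
    have h'' : (f:ℂ) = ∑ lam : IrrCharacter H, (a lam : ℂ) := by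
      rw [h]
      exact Finset.sum_congr rfl fun lam _ => by
        rw [Helper2.irr_abelian_linear habH lam.2, mul_one]
    exact_mod_cast h''
  have hsa : classInner (fun h : H => χ h) (fun h : H => χ h)
      = ∑ lam : IrrCharacter H, (a lam : ℂ) * (a lam : ℂ) := by
    have h1 : (fun h : H => χ h) = ∑ lam : IrrCharacter H, (a lam : ℂ) • (lam : H → ℂ) := by
      funext h
      rw [haexp h, Finset.sum_apply]
      exact Finset.sum_congr rfl fun ψ _ => by rw [Pi.smul_apply, smul_eq_mul]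
    have h2 : classInner (fun h : H => χ h) (fun h : H => χ h)
        = classInner (∑ lam : IrrCharacter H, (a lam : ℂ) • (lam : H → ℂ)) (fun h : H => χ h) := by
      rw [← h1]
    rw [h2, Helper2.classInner_sum_left]
    refine Finset.sum_congr rfl fun lam _ => ?_
    rw [Helper2.classInner_smul_left, ← Helper2.classInner_conj_symm, ha, Complex.conj_natCast]
  have hsN : (∑ lam : IrrCharacter H, a lam * a lam) = ∑ ψ : IrrCharacter G, m ψ * c ψ := by
    have h : (∑ lam : IrrCharacter H, (a lam : ℂ) * (a lam : ℂ))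
        = ∑ ψ : IrrCharacter G, (m ψ : ℂ) * (c ψ : ℂ) := by
      rw [← hsa, ← hs2, hs]
    exact_mod_cast h
  have hfs : f ≤ ∑ lam : IrrCharacter H, a lam * a lam := by
    rw [hfa]
    exact Finset.sum_le_sum fun lam _ => Nat.le_mul_self _
  have hnt : ∀ ψ : IrrCharacter G, ψ ≠ one → ∃ h ∈ H, (ψ : G → ℂ) h ≠ (ψ : G → ℂ) 1 := by
    intro ψ hψ
    by_contra hcon
    push_neg at hcon
    have hle : H ≤ Helper13.cker ψ.2 := fun h hh => (Helper13.mem_cker ψ.2 h).2 (hcon h hh)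
    have htop := hgen _ (Helper13.cker_normal ψ.2) hle
    have hall : ∀ g : G, (ψ : G → ℂ) g = (ψ : G → ℂ) 1 := fun g =>
      (Helper13.mem_cker ψ.2 g).1 (by rw [htop]; exact Subgroup.mem_top g)
    have h1 := Helper2.classInner_irr ψ.2 one.2
    have h2 : classInner (ψ : G → ℂ) (one : G → ℂ) = (ψ : G → ℂ) 1 := by
      unfold classInner
      simp only [hone, map_one, mul_one]
      rw [Finset.sum_congr rfl (fun g _ => hall g), Finset.sum_const, Finset.card_univ,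
        nsmul_eq_mul, ← Nat.card_eq_fintype_card, ← mul_assoc, inv_mul_cancel₀ hneG, one_mul]
    rw [h2] at h1
    by_cases he : (ψ : G → ℂ) = (one : G → ℂ)
    · exact hψ (Subtype.ext he)
    · rw [if_neg he] at h1
      exact Helper24.irr_one_ne_zero ψ.2 h1
  -- the real estimate
  have hn0 : (0:ℝ) ≤ (Nat.card H : ℝ) := Nat.cast_nonneg _
  obtain ⟨r, hr0, hrr⟩ : ∃ r : ℝ, 0 ≤ r ∧ r * r = (Nat.card H : ℝ) :=
    ⟨Real.sqrt (Nat.card H : ℝ), Real.sqrt_nonneg _, Real.mul_self_sqrt hn0⟩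
  have hlt : ∀ ψ : IrrCharacter G, ψ ≠ one → r * (c ψ : ℝ) < (d ψ : ℝ) := by
    intro ψ hψ
    have h1 := part1 ψ ψ.2 (hnt ψ hψ)
    rw [hdeg ψ, hc ψ] at h1
    simp only [Complex.natCast_re] at h1
    have h2 : (r * (c ψ : ℝ))^2 < (d ψ : ℝ)^2 := by
      have : (r * (c ψ : ℝ))^2 = (Nat.card H : ℝ) * (c ψ:ℝ)^2 := by rw [mul_pow, pow_two r, hrr]
      rw [this]; exact h1
    exact lt_of_pow_lt_pow_left₀ 2 (Nat.cast_nonneg _) h2
  have hR1 : (f:ℝ) * (f:ℝ) = ∑ ψ : IrrCharacter G, (m ψ : ℝ) * (d ψ : ℝ) := by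
    exact_mod_cast hsum1'
  obtain ⟨sN, hsNdef⟩ : ∃ sN : ℕ, sN = ∑ lam : IrrCharacter H, a lam * a lam := ⟨_, rfl⟩
  rw [← hsNdef] at hsN hfs
  have hR2 : (sN : ℝ) = ∑ ψ : IrrCharacter G, (m ψ : ℝ) * (c ψ : ℝ) := by exact_mod_cast hsN
  have hmem : one ∈ (Finset.univ : Finset (IrrCharacter G)) := Finset.mem_univ _
  have hR1' := Finset.add_sum_erase Finset.univ
    (fun ψ : IrrCharacter G => (m ψ : ℝ) * (d ψ : ℝ)) hmem
  have hR2' := Finset.add_sum_erase Finset.univ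
    (fun ψ : IrrCharacter G => (m ψ : ℝ) * (c ψ : ℝ)) hmem
  simp only [hm1, hd1, hc1, Nat.cast_one, mul_one] at hR1' hR2'
  have hf2' : (2:ℝ) ≤ f := by exact_mod_cast hf2
  have hfs' : (f:ℝ) ≤ (sN:ℝ) := by exact_mod_cast hfs
  have hpos : 0 < ∑ ψ ∈ Finset.univ.erase one, (m ψ : ℝ) * ((d ψ : ℝ) - r * (c ψ : ℝ)) := by
    apply Finset.sum_pos'
    · intro ψ hψ
      have := hlt ψ (Finset.ne_of_mem_erase hψ)
      exact mul_nonneg (Nat.cast_nonneg _) (by linarith)
    · by_contra hcon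
      push_neg at hcon
      have hz : ∀ ψ ∈ Finset.univ.erase one, (m ψ : ℝ) * (d ψ : ℝ) = 0 := by
        intro ψ hψ
        have h1 := hcon ψ hψ
        have h2 := hlt ψ (Finset.ne_of_mem_erase hψ)
        have h3 : (m ψ : ℝ) = 0 := by
          by_contra h4
          have h5 : 0 < (m ψ : ℝ) := lt_of_le_of_ne (Nat.cast_nonneg _) (Ne.symm h4)
          have : 0 < (m ψ : ℝ) * ((d ψ : ℝ) - r * (c ψ : ℝ)) := mul_pos h5 (by linarith)
          linarith
        rw [h3, zero_mul]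
      rw [Finset.sum_eq_zero hz, add_zero] at hR1'
      have : (f:ℝ) * (f:ℝ) = 1 := by rw [hR1, ← hR1']
      nlinarith
  have hsplit : ∑ ψ ∈ Finset.univ.erase one, (m ψ : ℝ) * ((d ψ : ℝ) - r * (c ψ : ℝ))
      = (∑ ψ ∈ Finset.univ.erase one, (m ψ : ℝ) * (d ψ : ℝ))
        - r * ∑ ψ ∈ Finset.univ.erase one, (m ψ : ℝ) * (c ψ : ℝ) := by
    rw [Finset.mul_sum, ← Finset.sum_sub_distrib]
    exact Finset.sum_congr rfl fun ψ _ => by ring
  have key : r * ((sN:ℝ) - 1) < (f:ℝ) * (f:ℝ) - 1 := by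
    rw [hsplit] at hpos
    have e1 : ∑ ψ ∈ Finset.univ.erase one, (m ψ : ℝ) * (d ψ : ℝ) = (f:ℝ) * (f:ℝ) - 1 := by
      rw [hR1, ← hR1']; ring
    have e2 : ∑ ψ ∈ Finset.univ.erase one, (m ψ : ℝ) * (c ψ : ℝ) = (sN:ℝ) - 1 := by
      rw [hR2, ← hR2']; ring
    rw [e1, e2] at hpos
    linarith
  have hrf : r < (f:ℝ) + 1 := by
    by_contra hcon
    push_neg at hcon
    have : ((f:ℝ) + 1) * ((f:ℝ) - 1) ≤ r * ((sN:ℝ) - 1) := by
      apply mul_le_mul hcon (by linarith) (by linarith) hr0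
    nlinarith
  have hfin : (Nat.card H : ℝ) < (1 + (f:ℝ))^2 := by
    rw [← hrr]; nlinarith
  rw [hχ1']
  simp only [Complex.natCast_re]
  exact hfin

end Cfsg.Agent.Helper9
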