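import Cfsg.Agent.Helper9.PConstr2

set_option autoImplicit false
open Subgroup

namespace Cfsg.Agent.Helper9

/-- S1246, normal case: if `V ⊴ U` are `p`-groups and `F*(C(V))` is a `p`-group, so is
`F*(C(U))` -/
theorem genFitting_centralizer_isPGroup_of_normal {G : Type*} [Group G] [Finite G] (p : ℕ)
    [Fact p.Prime] (U V : Subgroup G) (hVU : V ≤ U) (hn : U ≤ normalizer (V : Set G))
    (hU : IsPGroup p ↥U)
    (hV : IsPGroup p ↥(Cfsg.generalizedFittingSubgroup ↥(centralizer (V : Set G)))) :
    IsPGroup p ↥(Cfsg.generalizedFittingSubgroup ↥(centralizer (U : Set G))) := by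
  obtain ⟨H, hH⟩ : ∃ H : Subgroup G, H = centralizer (V : Set G) := ⟨_, rfl⟩
  rw [← hH] at hV
  obtain ⟨Q, hQ⟩ : ∃ Q : Subgroup G, Q = (Cfsg.pCore p ↥H).map H.subtype := ⟨_, rfl⟩
  have hQp : IsPGroup p ↥Q := by rw [hQ]; exact (pCore_isPGroup p).map _
  have hFQ : Cfsg.generalizedFittingSubgroup ↥H ≤ Cfsg.pCore p ↥H :=
    le_pCore genFitting_normal hV
  have hcent : centralizer (Cfsg.pCore p ↥H : Set ↥H) ≤ Cfsg.pCore p ↥H :=
    (Subgroup.centralizer_le hFQ).trans (centralizer_genFitting_le.trans hFQ)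
  have hUH : U ≤ normalizer (H : Set G) := by
    rw [hH]; exact hn.trans (normalizer_le_normalizer_centralizer V)
  have hHQ : H ≤ normalizer (Q : Set G) := by
    rw [hQ]; exact Subgroup.le_normalizer.trans (char_map_normalizer H (Cfsg.pCore p ↥H))
  have hUQ : U ≤ normalizer (Q : Set G) := by
    rw [hQ]; exact hUH.trans (char_map_normalizer H (Cfsg.pCore p ↥H))
  have hCH : centralizer (U : Set G) ≤ H := by
    rw [hH]; exact Subgroup.centralizer_le hVU
  have hC : centralizer (Q : Set G) ⊓ centralizer (U : Set G) ≤ Q := by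
    rintro x ⟨hxQ, hxU⟩
    have hxH : x ∈ H := hCH hxU
    rw [hQ]
    refine ⟨⟨x, hxH⟩, hcent ?_, rfl⟩
    rw [Subgroup.mem_centralizer_iff]
    intro y hy
    apply Subtype.ext
    exact Subgroup.mem_centralizer_iff.mp hxQ (y : G)
      (by rw [hQ]; exact Subgroup.mem_map_of_mem _ hy)
  have hAB := pPrimeCore_layer_eq_bot_of_AxB' p Q U (centralizer (U : Set G)) hQp hU
    (hCH.trans hHQ) hUQ le_rfl inf_le_right hC
  rw [genFitting_eq_pCore_of_bot p hAB.1 hAB.2]
  exact pCore_isPGroup p

/-- S1246: if `V ≤ U` are `p`-groups and `F*(C(V))` is a `p`-group, so is `F*(C(U))` -/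
theorem genFitting_centralizer_isPGroup {G : Type*} [Group G] [Finite G] (p : ℕ) [Fact p.Prime]
    (U : Subgroup G) (hU : IsPGroup p ↥U) :
    ∀ (n : ℕ) (V : Subgroup G), V ≤ U → Nat.card ↥U - Nat.card ↥V = n →
      IsPGroup p ↥(Cfsg.generalizedFittingSubgroup ↥(centralizer (V : Set G))) →
      IsPGroup p ↥(Cfsg.generalizedFittingSubgroup ↥(centralizer (U : Set G))) := by
  intro n
  induction n using Nat.strong_induction_on with
  | _ n ih =>
    intro V hVU hn hV
    by_cases hVeq : V = U
    · rw [← hVeq]; exact hV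
    have hlt : V.subgroupOf U < ⊤ := by
      rw [lt_top_iff_ne_top]
      intro h
      apply hVeq
      exact le_antisymm hVU (Subgroup.subgroupOf_eq_top.mp h)
    haveI : Group.IsNilpotent ↥U := hU.isNilpotent
    have hnc := Group.normalizerCondition_of_isNilpotent (G := ↥U) (V.subgroupOf U) hlt
    obtain ⟨V₁, hV₁⟩ : ∃ V₁ : Subgroup G, V₁ =
        (normalizer ((V.subgroupOf U : Subgroup ↥U) : Set ↥U)).map U.subtype := ⟨_, rfl⟩
    have hV₁U : V₁ ≤ U := by rw [hV₁]; exact Subgroup.map_subtype_le _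
    have hVV₁ : V ≤ V₁ := by
      intro v hv
      rw [hV₁]
      exact ⟨⟨v, hVU hv⟩, Subgroup.le_normalizer (Subgroup.mem_subgroupOf.mpr hv), rfl⟩
    have hV₁n : V₁ ≤ normalizer (V : Set G) := by
      rw [hV₁]
      rintro _ ⟨u, hu, rfl⟩
      rw [Subgroup.mem_normalizer_iff]
      intro x
      have h1 := Subgroup.mem_normalizer_iff.mp hu
      constructor
      · intro hx
        have h2 := (h1 ⟨x, hVU hx⟩).mp (Subgroup.mem_subgroupOf.mpr hx)
        exact Subgroup.mem_subgroupOf.mp h2
      · intro hx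
        have hxU : x ∈ U := by
          have h3 : (u : G)⁻¹ * ((u : G) * x * (u : G)⁻¹) * (u : G) ∈ U :=
            U.mul_mem (U.mul_mem (U.inv_mem u.2) (hVU hx)) u.2
          have e : (u : G)⁻¹ * ((u : G) * x * (u : G)⁻¹) * (u : G) = x := by group
          rwa [e] at h3
        have h2 := (h1 ⟨x, hxU⟩).mpr (Subgroup.mem_subgroupOf.mpr hx)
        exact Subgroup.mem_subgroupOf.mp h2
    have hne : V₁ ≠ V := by
      intro h
      apply lt_irrefl (V.subgroupOf U)
      refine lt_of_lt_of_le hnc ?_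
      intro u hu
      rw [Subgroup.mem_subgroupOf, ← h, hV₁]
      exact ⟨u, hu, rfl⟩
    have hcardlt : Nat.card ↥V < Nat.card ↥V₁ :=
      card_lt_of_lt (lt_of_le_of_ne hVV₁ (Ne.symm hne))
    have hcardle : Nat.card ↥V₁ ≤ Nat.card ↥U := Subgroup.card_le_of_le hV₁U
    have hV₁p : IsPGroup p ↥V₁ := hU.to_le hV₁U
    have h1 := genFitting_centralizer_isPGroup_of_normal p V₁ V hVV₁ hV₁n hV₁p hV
    exact ih (Nat.card ↥U - Nat.card ↥V₁) (by omega) V₁ hV₁U rfl h1

/-- S3747 (1): the normal closure of a component with trivial centre is a minimal normal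
subgroup -/
theorem normalClosure_component_minimal {G : Type*} [Group G] [Finite G] (K : Subgroup G)
    (hK : Cfsg.IsComponent K) (hZ : center ↥K = ⊥) :
    normalClosure (K : Set G) ≠ ⊥ ∧ ∀ N : Subgroup G, N.Normal →
      N ≤ normalClosure (K : Set G) → N = ⊥ ∨ N = normalClosure (K : Set G) := by
  classical
  have hKne : K ≠ ⊥ := (Subgroup.nontrivial_iff_ne_bot K).mp (quasi_nontrivial hK.2)
  have hKM : K ≤ normalClosure (K : Set G) := Subgroup.le_normalClosure
  refine ⟨fun h => hKne (le_bot_iff.mp (by rw [← h]; exact hKM)), ?_⟩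
  intro N hN hNM
  haveI := hN
  rcases component_dichotomy K N hK hN.isSubnormal with h | h
  · right
    exact le_antisymm hNM (Subgroup.normalClosure_le_normal h)
  · left
    have hKC : K ≤ centralizer (N : Set G) :=
      Subgroup.commutator_eq_bot_iff_le_centralizer.mp h
    have hMC : normalClosure (K : Set G) ≤ centralizer (N : Set G) :=
      Subgroup.normalClosure_le_normal hKC
    have hNab : ∀ a ∈ N, ∀ b ∈ N, a * b = b * a := by
      intro a ha b hb
      exact (Subgroup.mem_centralizer_iff.mp (hMC (hNM ha)) b hb).symm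
    have hNF : N ≤ Cfsg.fittingSubgroup G := by
      apply le_fitting hN
      exact nilpotent_of_comm (fun a b => Subtype.ext (hNab a a.2 b b.2))
    obtain ⟨T, hT⟩ : ∃ T : Set (Subgroup G),
        T = {L | ∃ g : G, L = K.map (MulAut.conj g).toMonoidHom} := ⟨_, rfl⟩
    have hTc : ∀ L ∈ T, Cfsg.IsComponent L := by
      intro L hL
      rw [hT] at hL
      obtain ⟨g, rfl⟩ := hL
      exact component_map_equiv (MulAut.conj g) K hK
    have hMT : normalClosure (K : Set G) ≤ sSup T := by
      unfold Subgroup.normalClosure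
      rw [Subgroup.closure_le]
      intro x hx
      rw [Group.mem_conjugatesOfSet_iff] at hx
      obtain ⟨k, hk, hkx⟩ := hx
      obtain ⟨g, rfl⟩ := isConj_iff.mp hkx
      have hmem : K.map (MulAut.conj g).toMonoidHom ∈ T := by rw [hT]; exact ⟨g, rfl⟩
      exact (le_sSup hmem) ⟨k, hk, rfl⟩
    have hcenters : sSup ((fun L : Subgroup G => (center ↥L).map L.subtype) '' T) = ⊥ := by
      rw [eq_bot_iff]
      apply sSup_le
      rintro _ ⟨L, hL, rfl⟩
      rw [hT] at hL
      obtain ⟨g, rfl⟩ := hL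
      have e := K.equivMapOfInjective (MulAut.conj g).toMonoidHom (MulAut.conj g).injective
      have h1 := map_center_mulEquiv e
      rw [hZ, Subgroup.map_bot] at h1
      show (center ↥(K.map (MulAut.conj g).toMonoidHom)).map
        (K.map (MulAut.conj g).toMonoidHom).subtype ≤ ⊥
      exact le_of_eq (by rw [← h1, Subgroup.map_bot])
    rw [eq_bot_iff]
    intro z hz
    have h1 := center_layer_le_aux T hTc z (hMT (hNM hz)) (by
      intro e he
      exact (comm_eq_bot_iff _ _).mp layer_comm_fitting e he z (hNF hz))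
    rw [hcenters] at h1
    exact h1

/-- S3747 (2): with trivial Fitting subgroup, the layer is the socle -/
theorem sSup_minimal_normal_eq_layer {G : Type*} [Group G] [Finite G]
    (hF : Cfsg.fittingSubgroup G = ⊥) :
    sSup {N : Subgroup G | N ≠ ⊥ ∧ N.Normal ∧
      ∀ N' : Subgroup G, N'.Normal → N' ≤ N → N' = ⊥ ∨ N' = N} = Cfsg.layer G := by
  apply le_antisymm
  · apply sSup_le
    rintro N ⟨hNne, hNn, hNmin⟩
    haveI := hNn
    have hIn : (N ⊓ Cfsg.layer G).Normal := inferInstance
    rcases hNmin (N ⊓ Cfsg.layer G) hIn inf_le_left with h | h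
    · exfalso
      have hcomm : ⁅N, Cfsg.layer G⁆ = ⊥ := by
        rw [eq_bot_iff, ← h]
        exact Subgroup.commutator_le_inf N (Cfsg.layer G)
      have hNC : N ≤ centralizer (Cfsg.generalizedFittingSubgroup G : Set G) := by
        unfold Cfsg.generalizedFittingSubgroup
        rw [hF, sup_bot_eq]
        exact Subgroup.commutator_eq_bot_iff_le_centralizer.mp hcomm
      have hNE : N ≤ Cfsg.layer G := by
        have h2 := hNC.trans centralizer_genFitting_le
        unfold Cfsg.generalizedFittingSubgroup at h2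
        rwa [hF, sup_bot_eq] at h2
      apply hNne
      rw [eq_bot_iff, ← h]
      exact le_inf le_rfl hNE
    · rw [← h]; exact inf_le_right
  · apply sSup_le
    intro K hK
    have hZ : center ↥K = ⊥ := by
      have h1 := center_component_le hK
      rw [center_layer_eq, hF, bot_inf_eq, le_bot_iff] at h1
      exact (Subgroup.map_eq_bot_iff_of_injective _ K.subtype_injective).mp h1
    obtain ⟨hne, hmin⟩ := normalClosure_component_minimal K hK hZ
    exact Subgroup.le_normalClosure.trans (le_sSup ⟨hne, Subgroup.normalClosure_normal, hmin⟩)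

end Cfsg.Agent.Helper9
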