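import Cfsg.Agent.Helper9.Layer
import Cfsg.Agent.Helper9.Layer3
import Cfsg.Agent.Helper9.Fitting
import Cfsg.Prelude.Def_LocalEven

set_option autoImplicit false
open Subgroup

namespace Cfsg.Agent.Helper9

/-! ### maximal `p`-locals and primitive pairs -/

abbrev IsPLoc9 {G : Type*} [Group G] (p : ℕ) (M : Subgroup G) : Prop :=
  ∃ T : Subgroup G, IsPGroup p T ∧ T ≠ ⊥ ∧ M = normalizer (T : Set G)

abbrev IsMaxPLoc9 {G : Type*} [Group G] (p : ℕ) (M : Subgroup G) : Prop :=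
  IsPLoc9 p M ∧ ∀ L : Subgroup G, IsPLoc9 p L → M ≤ L → L = M

abbrev IsMaxPSub9 {G : Type*} [Group G] (p : ℕ) (T N : Subgroup G) : Prop :=
  T ≤ N ∧ IsPGroup p T ∧ ∀ R : Subgroup G, IsPGroup p R → T ≤ R → R ≤ N → R ≤ T

abbrev IsValidTriple9 {G : Type*} [Group G] (p : ℕ)
    (t : Subgroup G × Subgroup G × Subgroup G) : Prop :=
  IsMaxPLoc9 p t.1 ∧ IsMaxPLoc9 p t.2.1 ∧ t.1 ≠ t.2.1 ∧ IsPGroup p ↥t.2.2 ∧ t.2.2 ≤ t.1 ⊓ t.2.1

theorem maxPLoc_ne_top {G : Type*} [Group G] [Finite G] (p : ℕ) [Fact p.Prime]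
    (hOp : Cfsg.pCore p G = ⊥) (M : Subgroup G) (hM : IsPLoc9 p M) : M ≠ ⊤ := by
  obtain ⟨T, hT, hTne, rfl⟩ := hM
  intro h
  apply hTne
  rw [Subgroup.normalizer_eq_top_iff] at h
  rw [eq_bot_iff, ← hOp]
  exact le_pCore h hT

theorem pLoc_dvd_card {G : Type*} [Group G] [Finite G] (p : ℕ) [Fact p.Prime]
    (M : Subgroup G) (hM : IsPLoc9 p M) : p ∣ Nat.card ↥M := by
  obtain ⟨T, hT, hTne, rfl⟩ := hM
  obtain ⟨n, hn⟩ := (IsPGroup.iff_card).mp hT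
  have hn0 : n ≠ 0 := by
    rintro rfl
    apply hTne
    exact Subgroup.eq_bot_of_card_eq (H := T) (by rw [hn, pow_zero])
  have h1 : p ∣ Nat.card ↥T := by rw [hn]; exact dvd_pow_self p hn0
  exact h1.trans (Subgroup.card_dvd_of_le Subgroup.le_normalizer)

theorem pLoc_char_p {G : Type*} [Group G] (p : ℕ) (hloc : Cfsg.IsOfLocalCharacteristic p G)
    (M : Subgroup G) (hM : IsPLoc9 p M) :
    centralizer (Cfsg.pCore p ↥M : Set ↥M) ≤ Cfsg.pCore p ↥M := by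
  obtain ⟨T, hT, hTne, rfl⟩ := hM
  exact hloc.2 T hT hTne

theorem maxPLoc_primitive {G : Type*} [Group G] [Finite G] (p : ℕ) [Fact p.Prime]
    (hloc : Cfsg.IsOfLocalCharacteristic p G) (M : Subgroup G) (hM : IsMaxPLoc9 p M)
    (A : Subgroup G) (hA : A ≠ ⊥) (hAM : A ≤ M) (hn : M ≤ normalizer (A : Set G)) :
    normalizer (A : Set G) = M := by
  classical
  obtain ⟨Q, hQ⟩ : ∃ Q, Q = (Cfsg.pCore p ↥M).map M.subtype := ⟨_, rfl⟩
  have hQM : Q ≤ M := by rw [hQ]; exact Subgroup.map_subtype_le _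
  have hQn : M ≤ normalizer (Q : Set G) := by
    rw [hQ]; exact Subgroup.le_normalizer.trans (char_map_normalizer M (Cfsg.pCore p ↥M))
  have hQp : IsPGroup p ↥Q := by rw [hQ]; exact (pCore_isPGroup p).map _
  have hchar := pLoc_char_p p hloc M hM.1
  have hAQ : A ⊓ Q ≠ ⊥ := by
    intro hbot
    apply hA
    rw [eq_bot_iff]
    intro a ha
    have hcomm : ∀ q ∈ Q, q * a = a * q := by
      intro q hq
      have h1 : a * q * a⁻¹ * q⁻¹ ∈ A ⊓ Q := by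
        refine ⟨?_, ?_⟩
        · have h2 : q * a⁻¹ * q⁻¹ ∈ A :=
            (Subgroup.mem_normalizer_iff.mp (hn (hQM hq)) a⁻¹).mp (A.inv_mem ha)
          have h3 : a * q * a⁻¹ * q⁻¹ = a * (q * a⁻¹ * q⁻¹) := by group
          rw [h3]; exact A.mul_mem ha h2
        · have h2 : a * q * a⁻¹ ∈ Q := (Subgroup.mem_normalizer_iff.mp (hQn (hAM ha)) q).mp hq
          exact Q.mul_mem h2 (Q.inv_mem hq)
      rw [hbot, Subgroup.mem_bot] at h1
      have h4 : q * a = (a * q * a⁻¹ * q⁻¹)⁻¹ * (a * q) := by group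
      rw [h4, h1, inv_one, one_mul]
    have h5 : (⟨a, hAM ha⟩ : ↥M) ∈ centralizer (Cfsg.pCore p ↥M : Set ↥M) := by
      rw [Subgroup.mem_centralizer_iff]
      intro y hy
      apply Subtype.ext
      exact hcomm (y : G) (by rw [hQ]; exact Subgroup.mem_map_of_mem M.subtype hy)
    have h6 := hchar h5
    have h7 : a ∈ A ⊓ Q := ⟨ha, by rw [hQ]; exact ⟨⟨a, hAM ha⟩, h6, rfl⟩⟩
    rw [hbot] at h7
    exact h7
  obtain ⟨B, hB⟩ : ∃ B, B = (Cfsg.pCore p ↥A).map A.subtype := ⟨_, rfl⟩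
  have hAQle : A ⊓ Q ≤ B := by
    have h1 : ((A ⊓ Q).subgroupOf A).Normal := by
      rw [Subgroup.normal_subgroupOf_iff_le_normalizer inf_le_left]
      intro a ha
      rw [Subgroup.mem_normalizer_iff]
      intro y
      have hna : a ∈ normalizer (A : Set G) := Subgroup.le_normalizer ha
      have hnq : a ∈ normalizer (Q : Set G) := hQn (hAM ha)
      constructor
      · rintro ⟨h2, h3⟩
        exact ⟨(Subgroup.mem_normalizer_iff.mp hna y).mp h2,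
          (Subgroup.mem_normalizer_iff.mp hnq y).mp h3⟩
      · rintro ⟨h2, h3⟩
        exact ⟨(Subgroup.mem_normalizer_iff.mp hna y).mpr h2,
          (Subgroup.mem_normalizer_iff.mp hnq y).mpr h3⟩
    have h2 : IsPGroup p ↥((A ⊓ Q).subgroupOf A) := (hQp.to_le inf_le_right).comap_subtype
    have h3 := le_pCore h1 h2
    rw [hB, ← Subgroup.map_subgroupOf_eq_of_le (inf_le_left : A ⊓ Q ≤ A)]
    exact Subgroup.map_mono h3
  have hBne : B ≠ ⊥ := by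
    intro h
    apply hAQ
    rw [eq_bot_iff, ← h]; exact hAQle
  have hBp : IsPGroup p ↥B := by rw [hB]; exact (pCore_isPGroup p).map _
  have hNB : normalizer (A : Set G) ≤ normalizer (B : Set G) := by
    rw [hB]; exact char_map_normalizer A (Cfsg.pCore p ↥A)
  have h8 : normalizer (B : Set G) = M := hM.2 _ ⟨B, hBp, hBne, rfl⟩ (hn.trans hNB)
  exact le_antisymm (by rw [← h8]; exact hNB) hn

theorem pLoc_conj {G : Type*} [Group G] (p : ℕ) (M : Subgroup G) (hM : IsPLoc9 p M) (s : G) :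
    IsPLoc9 p (M.map (MulAut.conj s).toMonoidHom) := by
  obtain ⟨T, hT, hTne, rfl⟩ := hM
  refine ⟨T.map (MulAut.conj s).toMonoidHom, hT.map _, ?_, ?_⟩
  · intro h
    exact hTne ((Subgroup.map_eq_bot_iff_of_injective _ (MulAut.conj s).injective).mp h)
  · exact Subgroup.map_equiv_normalizer_eq T (MulAut.conj s)

theorem maxPLoc_conj {G : Type*} [Group G] (p : ℕ) (M : Subgroup G) (hM : IsMaxPLoc9 p M)
    (s : G) : IsMaxPLoc9 p (M.map (MulAut.conj s).toMonoidHom) := by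
  refine ⟨pLoc_conj p M hM.1 s, ?_⟩
  intro L hL hle
  have h1 : M ≤ L.map (MulAut.conj s⁻¹).toMonoidHom := by
    intro m hm
    refine ⟨s * m * s⁻¹, hle ⟨m, hm, rfl⟩, ?_⟩
    show s⁻¹ * (s * m * s⁻¹) * s⁻¹⁻¹ = m
    group
  have h2 := hM.2 _ (pLoc_conj p L hL s⁻¹) h1
  apply le_antisymm
  · intro l hl
    have h3 : s⁻¹ * l * s⁻¹⁻¹ ∈ L.map (MulAut.conj s⁻¹).toMonoidHom := ⟨l, hl, rfl⟩
    rw [h2] at h3
    refine ⟨s⁻¹ * l * s⁻¹⁻¹, h3, ?_⟩
    show s * (s⁻¹ * l * s⁻¹⁻¹) * s⁻¹ = l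
    group
  · exact hle

theorem conj_ne_of_not_mem {G : Type*} [Group G] (M : Subgroup G)
    (hN : normalizer (M : Set G) = M) (s : G) (hs : s ∉ M) :
    M ≠ M.map (MulAut.conj s).toMonoidHom := by
  intro h
  apply hs
  have h' : s ∈ normalizer (M : Set G) := by
    rw [Subgroup.mem_normalizer_iff]
    intro x
    constructor
    · intro hx
      rw [h]
      exact ⟨x, hx, rfl⟩
    · intro hx
      rw [h] at hx
      obtain ⟨m, hm, hmx⟩ := hx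
      have e : m = x := by
        have h2 : s * m * s⁻¹ = s * x * s⁻¹ := hmx
        exact mul_left_cancel (mul_right_cancel h2)
      rw [← e]; exact hm
  rw [hN] at h'
  exact h'

theorem maxPSub_conj {G : Type*} [Group G] (p : ℕ) (T N : Subgroup G) (h : IsMaxPSub9 p T N)
    (x : G) (hx : x ∈ normalizer (T : Set G)) :
    IsMaxPSub9 p T (N.map (MulAut.conj x).toMonoidHom) := by
  obtain ⟨hTN, hTp, hmax⟩ := h
  have hx' : ∀ t, t ∈ T ↔ x * t * x⁻¹ ∈ T := Subgroup.mem_normalizer_iff.mp hx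
  refine ⟨?_, hTp, ?_⟩
  · intro t ht
    have h1 : x⁻¹ * t * x ∈ T := by
      apply (hx' _).mpr
      have e : x * (x⁻¹ * t * x) * x⁻¹ = t := by group
      rw [e]; exact ht
    refine ⟨x⁻¹ * t * x, hTN h1, ?_⟩
    show x * (x⁻¹ * t * x) * x⁻¹ = t
    group
  · intro R hRp hTR hRN
    have h2 : R.map (MulAut.conj x⁻¹).toMonoidHom ≤ T := by
      apply hmax _ (hRp.map _)
      · intro t ht
        refine ⟨x * t * x⁻¹, hTR ((hx' t).mp ht), ?_⟩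
        show x⁻¹ * (x * t * x⁻¹) * x⁻¹⁻¹ = t
        group
      · rintro r' ⟨r, hr, rfl⟩
        obtain ⟨n, hn, hnr⟩ := hRN hr
        have e : (MulAut.conj x⁻¹).toMonoidHom r = n := by
          rw [← hnr]
          show x⁻¹ * (x * n * x⁻¹) * x⁻¹⁻¹ = n
          group
        rw [e]; exact hn
    intro r hr
    have h3 : x⁻¹ * r * x⁻¹⁻¹ ∈ T := h2 ⟨r, hr, rfl⟩
    have h4 := (hx' _).mp h3
    have e : x * (x⁻¹ * r * x⁻¹⁻¹) * x⁻¹ = r := by group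
    rw [e] at h4; exact h4

theorem pCore_map_le_of_maxPSub {G : Type*} [Group G] [Finite G] (p : ℕ) [Fact p.Prime]
    (T N : Subgroup G) (h : IsMaxPSub9 p T N) : (Cfsg.pCore p ↥N).map N.subtype ≤ T := by
  obtain ⟨hTN, hTp, hmax⟩ := h
  have hQp : IsPGroup p ↥((Cfsg.pCore p ↥N).map N.subtype) := (pCore_isPGroup p).map _
  have hQn : N ≤ normalizer (((Cfsg.pCore p ↥N).map N.subtype : Subgroup G) : Set G) :=
    Subgroup.le_normalizer.trans (char_map_normalizer N (Cfsg.pCore p ↥N))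
  have h1 : IsPGroup p ↥(T ⊔ (Cfsg.pCore p ↥N).map N.subtype : Subgroup G) :=
    IsPGroup.to_sup_of_normal_right' hTp hQp (hTN.trans hQn)
  have h2 := hmax _ h1 le_sup_left (sup_le hTN (Subgroup.map_subtype_le _))
  exact le_sup_right.trans h2

theorem exists_normalizing_elt_of_not_maxPSub {G : Type*} [Group G] [Finite G] (p : ℕ)
    [Fact p.Prime] (T N : Subgroup G) (hTN : T ≤ N) (hTp : IsPGroup p T)
    (hnot : ¬ IsMaxPSub9 p T N) :
    ∃ x, x ∈ N ∧ x ∈ normalizer (T : Set G) ∧ x ∉ T ∧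
      IsPGroup p ↥(T ⊔ zpowers x : Subgroup G) := by
  classical
  have h1 : ∃ R : Subgroup G, IsPGroup p R ∧ T ≤ R ∧ R ≤ N ∧ ¬ R ≤ T := by
    by_contra hcon
    apply hnot
    refine ⟨hTN, hTp, ?_⟩
    intro R hRp hTR hRN
    by_contra hRT
    exact hcon ⟨R, hRp, hTR, hRN, hRT⟩
  obtain ⟨R, hRp, hTR, hRN, hRT⟩ := h1
  haveI : Group.IsNilpotent ↥R := hRp.isNilpotent
  have hlt : T.subgroupOf R < ⊤ := by
    rw [lt_top_iff_ne_top]
    intro h
    rw [Subgroup.subgroupOf_eq_top] at h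
    exact hRT h
  have hnc := Group.normalizerCondition_of_isNilpotent (G := ↥R) (T.subgroupOf R) hlt
  obtain ⟨y, hyN, hyT⟩ := SetLike.exists_of_lt hnc
  refine ⟨(y : G), hRN y.2, ?_, ?_, ?_⟩
  · rw [Subgroup.mem_normalizer_iff]
    intro t
    have hy' := Subgroup.mem_normalizer_iff.mp hyN
    constructor
    · intro ht
      have h3 := (hy' ⟨t, hTR ht⟩).mp (by rw [Subgroup.mem_subgroupOf]; exact ht)
      rw [Subgroup.mem_subgroupOf] at h3
      exact h3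
    · intro ht
      have htR : t ∈ R := by
        have e : t = (y : G)⁻¹ * ((y : G) * t * (y : G)⁻¹) * (y : G) := by group
        rw [e]
        exact R.mul_mem (R.mul_mem (R.inv_mem y.2) (hTR ht)) y.2
      have h3 := (hy' ⟨t, htR⟩).mpr (by rw [Subgroup.mem_subgroupOf]; exact ht)
      rw [Subgroup.mem_subgroupOf] at h3
      exact h3
  · intro h
    apply hyT
    rw [Subgroup.mem_subgroupOf]; exact h
  · apply hRp.to_le
    exact sup_le hTR (Subgroup.zpowers_le.mpr y.2)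

theorem exists_maxPLoc_ge {G : Type*} [Group G] [Finite G] (p : ℕ) (L₀ : Subgroup G)
    (hL₀ : IsPLoc9 p L₀) : ∃ M, IsMaxPLoc9 p M ∧ L₀ ≤ M := by
  classical
  haveI : Nonempty {L : Subgroup G // IsPLoc9 p L ∧ L₀ ≤ L} := ⟨⟨L₀, hL₀, le_rfl⟩⟩
  obtain ⟨⟨M, hM, hle⟩, hmax⟩ := Finite.exists_max
    (fun L : {L : Subgroup G // IsPLoc9 p L ∧ L₀ ≤ L} => Nat.card ↥L.1)
  refine ⟨M, ⟨hM, ?_⟩, hle⟩
  intro L hL hML
  have h1 : Nat.card ↥L ≤ Nat.card ↥M := hmax ⟨L, hL, hle.trans hML⟩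
  exact (Subgroup.eq_of_le_of_card_ge hML h1).symm

theorem prim_pair_of_common_maxPSub {G : Type*} [Group G] [Finite G] (p : ℕ) [Fact p.Prime]
    (hloc : Cfsg.IsOfLocalCharacteristic p G) (N₁ N₂ T : Subgroup G)
    (h1 : IsMaxPLoc9 p N₁) (h2 : IsMaxPLoc9 p N₂) (hne : N₁ ≠ N₂)
    (hT1 : IsMaxPSub9 p T N₁) (hT2 : IsMaxPSub9 p T N₂) :
    ∃ M₁ M₂ : Subgroup G, M₁ ≠ M₂ ∧ (∀ A : Subgroup G, A ≠ ⊥ → A ≤ M₁ ⊓ M₂ → (M₁ ≤ Subgroup.normalizer (A : Set G) → M₂ ⊓ Subgroup.normalizer (A : Set G) = M₁ ⊓ M₂) ∧ (M₂ ≤ Subgroup.normalizer (A : Set G) → M₁ ⊓ Subgroup.normalizer (A : Set G) = M₁ ⊓ M₂)) ∧ Subgroup.centralizer (Cfsg.pCore p ↥M₁ : Set ↥M₁) ≤ Cfsg.pCore p ↥M₁ ∧ Subgroup.centralizer (Cfsg.pCore p ↥M₂ : Set ↥M₂) ≤ Cfsg.pCore p ↥M₂ ∧ (Cfsg.pCore p ↥M₁).map M₁.subtype ⊔ (Cfsg.pCore p ↥M₂).map M₂.subtype ≤ M₁ ⊓ M₂ := by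
  refine ⟨N₁, N₂, hne, ?_, pLoc_char_p p hloc N₁ h1.1, pLoc_char_p p hloc N₂ h2.1, ?_⟩
  · intro A hA hle
    constructor
    · intro hn
      rw [maxPLoc_primitive p hloc N₁ h1 A hA (hle.trans inf_le_left) hn, inf_comm]
    · intro hn
      rw [maxPLoc_primitive p hloc N₂ h2 A hA (hle.trans inf_le_right) hn]
  · apply sup_le
    · exact (pCore_map_le_of_maxPSub p T N₁ hT1).trans (le_inf hT1.1 hT2.1)
    · exact (pCore_map_le_of_maxPSub p T N₂ hT2).trans (le_inf hT1.1 hT2.1)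

theorem prim_pair_of_not_strongly_embedded {G : Type*} [Group G] [Finite G] (p : ℕ)
    [Fact p.Prime] (hloc : Cfsg.IsOfLocalCharacteristic p G) (M : Subgroup G)
    (hMax : IsMaxPLoc9 p M) (g : G) (hg : g ∉ M)
    (hdvd : p ∣ Nat.card ↥(M ⊓ M.map (MulAut.conj g).toMonoidHom)) :
    ∃ M₁ M₂ : Subgroup G, M₁ ≠ M₂ ∧ (∀ A : Subgroup G, A ≠ ⊥ → A ≤ M₁ ⊓ M₂ → (M₁ ≤ Subgroup.normalizer (A : Set G) → M₂ ⊓ Subgroup.normalizer (A : Set G) = M₁ ⊓ M₂) ∧ (M₂ ≤ Subgroup.normalizer (A : Set G) → M₁ ⊓ Subgroup.normalizer (A : Set G) = M₁ ⊓ M₂)) ∧ Subgroup.centralizer (Cfsg.pCore p ↥M₁ : Set ↥M₁) ≤ Cfsg.pCore p ↥M₁ ∧ Subgroup.centralizer (Cfsg.pCore p ↥M₂ : Set ↥M₂) ≤ Cfsg.pCore p ↥M₂ ∧ (Cfsg.pCore p ↥M₁).map M₁.subtype ⊔ (Cfsg.pCore p ↥M₂).map M₂.subtype ≤ M₁ ⊓ M₂ := by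
  classical
  have hself : ∀ N : Subgroup G, IsMaxPLoc9 p N → normalizer (N : Set G) = N := by
    intro N hN
    have hNne : N ≠ ⊥ := by
      obtain ⟨T, hT, hTne, hNT⟩ := hN.1
      intro h
      apply hTne
      rw [eq_bot_iff, ← h, hNT]
      exact Subgroup.le_normalizer
    exact maxPLoc_primitive p hloc N hN N hNne le_rfl Subgroup.le_normalizer
  obtain ⟨x, hx⟩ := exists_prime_orderOf_dvd_card' p hdvd
  obtain ⟨X, hXdef⟩ : ∃ X, X = zpowers ((x : G)) := ⟨_, rfl⟩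
  have hXcard : Nat.card ↥X = p := by
    rw [hXdef, Nat.card_zpowers, Subgroup.orderOf_coe, hx]
  have hXp : IsPGroup p ↥X := by
    apply IsPGroup.of_card (n := 1)
    rw [hXcard, pow_one]
  have hXle : X ≤ M ⊓ M.map (MulAut.conj g).toMonoidHom := by
    rw [hXdef, Subgroup.zpowers_le]; exact x.2
  have hMg : IsMaxPLoc9 p (M.map (MulAut.conj g).toMonoidHom) := maxPLoc_conj p M hMax g
  have hMne : M ≠ M.map (MulAut.conj g).toMonoidHom := conj_ne_of_not_mem M (hself M hMax) g hg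
  haveI : Nonempty {t : Subgroup G × Subgroup G × Subgroup G // IsValidTriple9 p t} :=
    ⟨⟨(M, M.map (MulAut.conj g).toMonoidHom, X), hMax, hMg, hMne, hXp, hXle⟩⟩
  obtain ⟨⟨⟨M₁, M₂, T⟩, hv⟩, hmax⟩ := Finite.exists_max
    (fun t : {t : Subgroup G × Subgroup G × Subgroup G // IsValidTriple9 p t} =>
      Nat.card ↥t.1.2.2)
  have hM₁ : IsMaxPLoc9 p M₁ := hv.1
  have hM₂ : IsMaxPLoc9 p M₂ := hv.2.1
  have hne : M₁ ≠ M₂ := hv.2.2.1
  have hTp : IsPGroup p ↥T := hv.2.2.2.1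
  have hTle : T ≤ M₁ ⊓ M₂ := hv.2.2.2.2
  have hmax' : ∀ N₁ N₂ T' : Subgroup G, IsMaxPLoc9 p N₁ → IsMaxPLoc9 p N₂ → N₁ ≠ N₂ →
      IsPGroup p ↥T' → T' ≤ N₁ ⊓ N₂ → Nat.card ↥T' ≤ Nat.card ↥T :=
    fun N₁ N₂ T' a b c d e => hmax ⟨(N₁, N₂, T'), a, b, c, d, e⟩
  have hTM₁ : T ≤ M₁ := hTle.trans inf_le_left
  have hTM₂ : T ≤ M₂ := hTle.trans inf_le_right
  have hTne : T ≠ ⊥ := by
    intro h
    have h1 := hmax' M (M.map (MulAut.conj g).toMonoidHom) X hMax hMg hMne hXp hXle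
    rw [hXcard, h, Subgroup.card_bot] at h1
    exact (Nat.Prime.one_lt (Fact.out : p.Prime)).not_ge h1
  have hstep : ∀ N N' : Subgroup G, IsMaxPLoc9 p N → IsMaxPLoc9 p N' → T ≤ N →
      normalizer (T : Set G) ≤ N' → ¬ IsMaxPSub9 p T N → N = N' := by
    intro N N' hN hN' hTN hNT hnot
    obtain ⟨y, hyN, hyn, hyT, hyp⟩ := exists_normalizing_elt_of_not_maxPSub p T N hTN hTp hnot
    by_contra hNN
    have hle : T ⊔ zpowers y ≤ N ⊓ N' := by
      apply sup_le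
      · exact le_inf hTN (Subgroup.le_normalizer.trans hNT)
      · rw [Subgroup.zpowers_le]; exact ⟨hyN, hNT hyn⟩
    have h1 := hmax' N N' (T ⊔ zpowers y) hN hN' hNN hyp hle
    have h2 : T < T ⊔ zpowers y := by
      apply lt_of_le_of_ne le_sup_left
      intro h
      apply hyT
      rw [h]
      exact (le_sup_right : zpowers y ≤ T ⊔ zpowers y) (Subgroup.mem_zpowers y)
    exact (card_lt_of_lt h2).not_ge h1
  obtain ⟨M₃, hM₃, hNM₃⟩ := exists_maxPLoc_ge p (normalizer (T : Set G)) ⟨T, hTp, hTne, rfl⟩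
  by_cases h1 : IsMaxPSub9 p T M₁
  · by_cases h2 : IsMaxPSub9 p T M₂
    · exact prim_pair_of_common_maxPSub p hloc M₁ M₂ T hM₁ hM₂ hne h1 h2
    · obtain ⟨y, hyN, hyn, hyT, hyp⟩ :=
        exists_normalizing_elt_of_not_maxPSub p T M₂ hTM₂ hTp h2
      have hyM₁ : y ∉ M₁ := by
        intro hy
        have h3 := h1.2.2 _ hyp le_sup_left
          (sup_le hTM₁ (by rw [Subgroup.zpowers_le]; exact hy))
        exact hyT (h3 ((le_sup_right : zpowers y ≤ T ⊔ zpowers y) (Subgroup.mem_zpowers y)))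
      exact prim_pair_of_common_maxPSub p hloc M₁ (M₁.map (MulAut.conj y).toMonoidHom) T hM₁
        (maxPLoc_conj p M₁ hM₁ y) (conj_ne_of_not_mem M₁ (hself M₁ hM₁) y hyM₁) h1
        (maxPSub_conj p T M₁ h1 y hyn)
  · by_cases h2 : IsMaxPSub9 p T M₂
    · obtain ⟨y, hyN, hyn, hyT, hyp⟩ :=
        exists_normalizing_elt_of_not_maxPSub p T M₁ hTM₁ hTp h1
      have hyM₂ : y ∉ M₂ := by
        intro hy
        have h3 := h2.2.2 _ hyp le_sup_left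
          (sup_le hTM₂ (by rw [Subgroup.zpowers_le]; exact hy))
        exact hyT (h3 ((le_sup_right : zpowers y ≤ T ⊔ zpowers y) (Subgroup.mem_zpowers y)))
      exact prim_pair_of_common_maxPSub p hloc M₂ (M₂.map (MulAut.conj y).toMonoidHom) T hM₂
        (maxPLoc_conj p M₂ hM₂ y) (conj_ne_of_not_mem M₂ (hself M₂ hM₂) y hyM₂) h2
        (maxPSub_conj p T M₂ h2 y hyn)
    · exfalso
      have e1 := hstep M₁ M₃ hM₁ hM₃ hTM₁ hNM₃ h1
      have e2 := hstep M₂ M₃ hM₂ hM₃ hTM₂ hNM₃ h2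
      exact hne (e1.trans e2.symm)

end Cfsg.Agent.Helper9
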