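import Mathlib
import Cfsg.Agent.Helper1.S4Sec
import Cfsg.Agent.Helper1.QdPlane
import Cfsg.Agent.Helper16.DihInvolved
import Cfsg.Agent.Helper27.S4Pres
import Cfsg.Agent.Helper27.Involves
import Cfsg.Agent.Helper24.NormalCenter
import Cfsg.Agent.Helper9.Offender2

set_option autoImplicit false

namespace Cfsg.Agent.Helper9

universe u

/-- An element acting with `2`-power order on a nontrivial `2`-subgroup fixes a nonidentity
element of it. -/
theorem s4i_fp {G : Type*} [Group G] [Finite G] (V : Subgroup G) (hV : IsPGroup 2 V)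
    (hV1 : V ≠ ⊥) (g : G) (hgV : ∀ v ∈ V, g * v * g⁻¹ ∈ V) (j : ℕ)
    (hg : ∀ v ∈ V, g ^ (2 ^ j) * v * (g ^ (2 ^ j))⁻¹ = v) :
    ∃ v ∈ V, v ≠ 1 ∧ g * v * g⁻¹ = v := by
  classical
  haveI : Fintype V := Fintype.ofFinite V
  have hinj : Function.Injective (fun v : V => (⟨g * v * g⁻¹, hgV v v.2⟩ : V)) := by
    intro a b hab
    have h1 : g * (a : G) * g⁻¹ = g * (b : G) * g⁻¹ := congrArg Subtype.val hab
    apply Subtype.ext
    have h2 : g⁻¹ * (g * (a : G) * g⁻¹) * g = g⁻¹ * (g * (b : G) * g⁻¹) * g := by rw [h1]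
    simpa [mul_assoc] using h2
  let σ : Equiv.Perm V := Equiv.ofBijective _ (Finite.injective_iff_bijective.mp hinj)
  have hσ : ∀ v : V, ((σ v : V) : G) = g * v * g⁻¹ := fun v => rfl
  have hσpow : ∀ (n : ℕ) (v : V), (((σ ^ n) v : V) : G) = g ^ n * v * (g ^ n)⁻¹ := by
    intro n
    induction n with
    | zero => intro v; simp
    | succ n ih =>
      intro v
      rw [pow_succ', Equiv.Perm.mul_apply, hσ, ih, pow_succ']
      group
  have hσ2 : σ ^ 2 ^ j = 1 := by
    ext v
    rw [hσpow, hg v v.2]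
    rfl
  have hcard : 2 ∣ Fintype.card V := by
    obtain ⟨n, hn⟩ := IsPGroup.iff_card.mp hV
    have hn0 : n ≠ 0 := by
      rintro rfl
      rw [pow_zero] at hn
      exact hV1 (Subgroup.eq_bot_of_card_eq V hn)
    rw [← Nat.card_eq_fintype_card, hn]
    exact dvd_pow_self 2 hn0
  haveI : Fact (Nat.Prime 2) := ⟨Nat.prime_two⟩
  obtain ⟨b, hb, hb1⟩ := Equiv.Perm.exists_fixed_point_of_prime' hcard hσ2 (a := (1 : V)) (by
    apply Subtype.ext; rw [hσ]; simp)
  refine ⟨(b : G), b.2, fun h => hb1 (Subtype.ext h), ?_⟩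
  have := congrArg Subtype.val hb
  rwa [hσ] at this

theorem s4i_key {G : Type*} [Group G] (a y w : G) :
    y⁻¹ * (a * w * a⁻¹) * y
      = (a * y * a⁻¹ * y)⁻¹ * (a * (y * w * y⁻¹) * a⁻¹) * (a * y * a⁻¹ * y)⁻¹⁻¹ := by
  group

/-- The inductive core: a normal `2`-subgroup `T` with `G = T⟨y, a⟩`, `y` of order `3` on `T`
and inverted by `a` modulo `C(T)`, forces `S₄` to be involved. -/
theorem s4i_ind : ∀ (n : ℕ) (G : Type u) [Group G] [Finite G], Nat.card G = n →
    ∀ (T : Subgroup G) [T.Normal], IsPGroup 2 T → ∀ (y a : G),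
    T ⊔ Subgroup.closure {y, a} = ⊤ →
    y * y * y ∈ Subgroup.centralizer (T : Set G) → y ∉ Subgroup.centralizer (T : Set G) →
    a * y * a⁻¹ * y ∈ Subgroup.centralizer (T : Set G) →
    (∃ j : ℕ, a ^ (2 ^ j) ∈ Subgroup.centralizer (T : Set G)) →
    Cfsg.Involves (Equiv.Perm (Fin 4)) G := by
  intro n
  induction n using Nat.strong_induction_on with
  | _ n ih =>
  intro G _ _ hn T hTn hT y a hgen hy3 hyT hay ⟨j, haj⟩
  classical
  haveI hCn : (Subgroup.centralizer (T : Set G)).Normal := Helper1.s4_centralizer_normal T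
  have hT1 : T ≠ ⊥ := by
    rintro rfl
    apply hyT
    rw [Subgroup.mem_centralizer_iff]
    intro h hh
    rw [Subgroup.mem_bot.mp hh]; simp
  -- a minimal normal subgroup inside T
  obtain ⟨V, ⟨hVn, hV1, hVT⟩, hVmin⟩ : ∃ V : Subgroup G, (V.Normal ∧ V ≠ ⊥ ∧ V ≤ T) ∧
      ∀ W : Subgroup G, W.Normal → W ≠ ⊥ → W ≤ V → W = V := by
    have hwf : ∀ m : ℕ, ∀ V : Subgroup G, Nat.card V = m → V.Normal → V ≠ ⊥ → V ≤ T →
        ∃ V' : Subgroup G, (V'.Normal ∧ V' ≠ ⊥ ∧ V' ≤ T) ∧
          ∀ W : Subgroup G, W.Normal → W ≠ ⊥ → W ≤ V' → W = V' := by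
      intro m
      induction m using Nat.strong_induction_on with
      | _ m ihm =>
      intro V hm hVn hV1 hVT
      by_cases hmin : ∀ W : Subgroup G, W.Normal → W ≠ ⊥ → W ≤ V → W = V
      · exact ⟨V, ⟨hVn, hV1, hVT⟩, hmin⟩
      · push_neg at hmin
        obtain ⟨W, hWn, hW1, hWV, hWne⟩ := hmin
        have hlt : Nat.card W < m := by
          rw [← hm]
          exact lt_of_le_of_ne (Subgroup.card_le_of_le hWV)
            (fun h => hWne (Subgroup.eq_of_le_of_card_ge hWV h.ge))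
        exact ihm _ hlt W rfl hWn hW1 (hWV.trans hVT)
    exact hwf _ T rfl hTn hT1 le_rfl
  haveI := hVn
  have hVC : V ≤ Subgroup.centralizer (T : Set G) := by
    have h1 : V ⊓ Subgroup.centralizer (T : Set G) ≠ ⊥ := by
      haveI : Group.IsNilpotent ↥T := hT.isNilpotent
      haveI : (V.subgroupOf T).Normal := hVn.subgroupOf T
      have hne : V.subgroupOf T ≠ ⊥ := by
        intro h
        rw [Subgroup.subgroupOf_eq_bot] at h
        apply hV1
        rw [← inf_of_le_left hVT]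
        exact disjoint_iff.mp h
      obtain ⟨x, hx, hx1, hxc⟩ := Helper24.exists_mem_center_of_normal (V.subgroupOf T) hne
      intro hbot
      have hmem : (x : G) ∈ V ⊓ Subgroup.centralizer (T : Set G) := by
        refine Subgroup.mem_inf.mpr ⟨Subgroup.mem_subgroupOf.mp hx, ?_⟩
        rw [Subgroup.mem_centralizer_iff]
        intro t ht
        have := (Subgroup.mem_center_iff.mp hxc) ⟨t, ht⟩
        exact congrArg Subtype.val this
      rw [hbot, Subgroup.mem_bot] at hmem
      exact hx1 (Subtype.ext hmem)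
    have h2 := hVmin _ inferInstance h1 inf_le_left
    rw [← h2]; exact inf_le_right
  have hTV : ∀ t ∈ T, ∀ v ∈ V, t * v * t⁻¹ = v := by
    intro t ht v hv
    have := (Subgroup.mem_centralizer_iff.mp (hVC hv)) t ht
    rw [this, mul_inv_cancel_right]
  have hCV : ∀ c ∈ Subgroup.centralizer (T : Set G), ∀ v ∈ V, c * v * c⁻¹ = v :=
    fun c hc v hv => Helper1.s4_centralizer_conj_eq hc (hVT hv)
  have hVab : ∀ u ∈ V, ∀ w ∈ V, u * w = w * u := fun u hu w hw =>
    (Subgroup.mem_centralizer_iff.mp (hVC hw)) u (hVT hu)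
  have hyV : ∀ v ∈ V, y * v * y⁻¹ ∈ V := fun v hv => hVn.conj_mem v hv y
  have haV : ∀ v ∈ V, a * v * a⁻¹ ∈ V := fun v hv => hVn.conj_mem v hv a
  have hV2 : IsPGroup 2 V := hT.to_le hVT
  by_cases hyV0 : ∀ v ∈ V, y * v * y⁻¹ = v
  · -- pass to the quotient by V
    let π := QuotientGroup.mk' V
    have hπ : Function.Surjective π := QuotientGroup.mk'_surjective V
    have hcardlt : Nat.card (G ⧸ V) < n := by
      have h1 := Subgroup.card_eq_card_quotient_mul_card_subgroup V
      have h2 : 1 < Nat.card V := (Subgroup.one_lt_card_iff_ne_bot V).mpr hV1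
      have h3 : 0 < Nat.card (G ⧸ V) := Nat.card_pos
      rw [← hn, h1]
      nlinarith
    have hcentmap : ∀ c : G, c ∈ Subgroup.centralizer (T : Set G) →
        π c ∈ Subgroup.centralizer ((T.map π : Subgroup (G ⧸ V)) : Set (G ⧸ V)) := by
      intro c hc
      rw [Subgroup.mem_centralizer_iff]
      intro h hh
      obtain ⟨t, ht, rfl⟩ := Subgroup.mem_map.mp hh
      rw [← map_mul, ← map_mul, (Subgroup.mem_centralizer_iff.mp hc) t ht]
    haveI : (T.map π).Normal := hTn.map π hπ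
    have hres := ih (Nat.card (G ⧸ V)) hcardlt (G ⧸ V) rfl (T.map π) (hT.map π) (π y) (π a)
      ?_ ?_ ?_ ?_ ?_
    · exact Helper1.involves_of_surjective_hom π hπ hres
    · rw [← Set.image_pair, ← MonoidHom.map_closure, ← Subgroup.map_sup, hgen,
        Subgroup.map_top_of_surjective π hπ]
    · have := hcentmap _ hy3
      simpa only [map_mul] using this
    · intro hc
      apply hyT
      rw [Subgroup.mem_centralizer_iff]
      intro u hu
      have h1 : π (y * u * y⁻¹ * u⁻¹) = 1 := by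
        have h2 := (Subgroup.mem_centralizer_iff.mp hc) (π u) (Subgroup.mem_map.mpr ⟨u, hu, rfl⟩)
        have h3 : π y * π u * (π y)⁻¹ * (π u)⁻¹ = 1 := by
          rw [← h2]; group
        simpa only [map_mul, map_inv] using h3
      have hcV : y * u * y⁻¹ * u⁻¹ ∈ V := by
        rwa [QuotientGroup.mk'_apply, QuotientGroup.eq_one_iff] at h1
      obtain ⟨c, hc⟩ : ∃ c, c = y * u * y⁻¹ * u⁻¹ := ⟨_, rfl⟩
      rw [← hc] at hcV
      have e1 : y * u * y⁻¹ = c * u := by rw [hc]; group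
      have e2 : y * c * y⁻¹ = c := hyV0 c hcV
      have e3 := Helper1.s4_conj_pow_of_comm y c u e1 e2 3
      have e4 : y ^ 3 * u * (y ^ 3)⁻¹ = u := by
        have h3 : y ^ 3 = y * y * y := by rw [pow_succ, pow_two]
        rw [h3]; exact Helper1.s4_centralizer_conj_eq hy3 hu
      have e5 : c ^ 3 = 1 := by
        rw [e4] at e3
        have h9 : c ^ 3 * u = 1 * u := by rw [one_mul]; exact e3.symm
        exact mul_right_cancel h9
      obtain ⟨k, hk⟩ := (IsPGroup.iff_orderOf.mp hV2) ⟨c, hcV⟩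
      have e6 : c ^ (2 ^ k) = 1 := by
        have h9 := pow_orderOf_eq_one (⟨c, hcV⟩ : V)
        rw [hk] at h9
        exact congrArg Subtype.val h9
      have e7 : c ^ Nat.gcd 3 (2 ^ k) = 1 := pow_gcd_eq_one.mpr ⟨e5, e6⟩
      have e8 : Nat.gcd 3 (2 ^ k) = 1 := Nat.Coprime.pow_right k (by norm_num)
      rw [e8, pow_one] at e7
      rw [e7, one_mul] at e1
      calc u * y = (y * u * y⁻¹) * y := by rw [e1]
        _ = y * u := by group
    · have := hcentmap _ hay
      simpa only [map_mul, map_inv] using this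
    · exact ⟨j, by have := hcentmap _ haj; simpa only [map_pow] using this⟩
  · push_neg at hyV0
    obtain ⟨u₀, hu₀V, hu₀⟩ := hyV0
    -- normality criterion for subgroups of V
    have hnorm : ∀ W : Subgroup G, W ≤ V → (∀ w ∈ W, y * w * y⁻¹ ∈ W) →
        (∀ w ∈ W, a * w * a⁻¹ ∈ W) → W.Normal := by
      intro W hWV hWy hWa
      rw [← Subgroup.normalizer_eq_top_iff, eq_top_iff, ← hgen]
      apply sup_le
      · intro t ht
        apply Subgroup.mem_normalizer_fintype
        intro w hw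
        rw [hTV t ht w (hWV hw)]; exact hw
      · rw [Subgroup.closure_le]
        intro g hg
        rcases hg with rfl | rfl
        · exact Subgroup.mem_normalizer_fintype hWy
        · exact Subgroup.mem_normalizer_fintype hWa
    obtain ⟨c, hc⟩ : ∃ c, c = a * y * a⁻¹ * y := ⟨_, rfl⟩
    have hcC : c ∈ Subgroup.centralizer (T : Set G) := by rw [hc]; exact hay
    -- (A): conjugation by a intertwines y and y⁻¹ on V
    have hA : ∀ w ∈ V, y⁻¹ * (a * w * a⁻¹) * y = a * (y * w * y⁻¹) * a⁻¹ := by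
      intro w hw
      rw [s4i_key a y w, ← hc]
      exact hCV c⁻¹ (Subgroup.inv_mem _ hcC) _ (haV _ (hyV w hw))
    have hyV' : ∀ v ∈ V, y⁻¹ * v * y ∈ V := fun v hv => by
      have := hVn.conj_mem v hv y⁻¹
      rwa [inv_inv] at this
    have hA' : ∀ w ∈ V, a * (y⁻¹ * w * y) * a⁻¹ = y * (a * w * a⁻¹) * y⁻¹ := by
      intro w hw
      have h1 := hA (y⁻¹ * w * y) (hyV' w hw)
      have h2 : y * (y⁻¹ * w * y) * y⁻¹ = w := by group
      rw [h2] at h1
      rw [← h1]; group
    -- C_V(y) = 1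
    have hCy : ∀ v ∈ V, y * v * y⁻¹ = v → v = 1 := by
      obtain ⟨W, hW⟩ : ∃ W : Subgroup G, W = V ⊓ Subgroup.centralizer ({y} : Set G) := ⟨_, rfl⟩
      have hWmem : ∀ w, w ∈ W ↔ w ∈ V ∧ y * w * y⁻¹ = w := by
        intro w
        rw [hW, Subgroup.mem_inf, Subgroup.mem_centralizer_singleton_iff]
        constructor
        · rintro ⟨h1, h2⟩
          exact ⟨h1, by rw [← h2, mul_inv_cancel_right]⟩
        · rintro ⟨h1, h2⟩
          refine ⟨h1, ?_⟩
          calc w * y = (y * w * y⁻¹) * y := by rw [h2]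
            _ = y * w := by group
      have hWV : W ≤ V := by rw [hW]; exact inf_le_left
      have hWn : W.Normal := by
        apply hnorm W hWV
        · intro w hw
          rw [((hWmem w).mp hw).2]; exact hw
        · intro w hw
          obtain ⟨hwV, hyw⟩ := (hWmem w).mp hw
          refine (hWmem _).mpr ⟨haV w hwV, ?_⟩
          have h1 := hA w hwV
          rw [hyw] at h1
          calc y * (a * w * a⁻¹) * y⁻¹ = y * (y⁻¹ * (a * w * a⁻¹) * y) * y⁻¹ := by rw [h1]
            _ = a * w * a⁻¹ := by group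
      have hWne : W ≠ V := by
        intro h
        exact hu₀ (((hWmem u₀).mp (h ▸ hu₀V)).2)
      have hWbot : W = ⊥ := by
        by_contra hb
        exact hWne (hVmin W hWn hb hWV)
      intro v hv hyv
      have : v ∈ W := (hWmem v).mpr ⟨hv, hyv⟩
      rw [hWbot] at this
      exact Subgroup.mem_bot.mp this
    -- a * a centralizes V
    have haa : ∀ v ∈ V, (a * a) * v * (a * a)⁻¹ = v := by
      obtain ⟨W, hW⟩ : ∃ W : Subgroup G, W = V ⊓ Subgroup.centralizer ({a * a} : Set G) :=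
        ⟨_, rfl⟩
      have hWmem : ∀ w, w ∈ W ↔ w ∈ V ∧ (a * a) * w * (a * a)⁻¹ = w := by
        intro w
        rw [hW, Subgroup.mem_inf, Subgroup.mem_centralizer_singleton_iff]
        constructor
        · rintro ⟨h1, h2⟩
          exact ⟨h1, by rw [← h2, mul_inv_cancel_right]⟩
        · rintro ⟨h1, h2⟩
          refine ⟨h1, ?_⟩
          calc w * (a * a) = ((a * a) * w * (a * a)⁻¹) * (a * a) := by rw [h2]
            _ = (a * a) * w := by group
      have hWV : W ≤ V := by rw [hW]; exact inf_le_left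
      have hWn : W.Normal := by
        apply hnorm W hWV
        · intro w hw
          obtain ⟨hwV, haw⟩ := (hWmem w).mp hw
          refine (hWmem _).mpr ⟨hyV w hwV, ?_⟩
          have h1 := hA w hwV
          have h2 := hA' (a * w * a⁻¹) (haV w hwV)
          calc (a * a) * (y * w * y⁻¹) * (a * a)⁻¹
              = a * (a * (y * w * y⁻¹) * a⁻¹) * a⁻¹ := by group
            _ = a * (y⁻¹ * (a * w * a⁻¹) * y) * a⁻¹ := by rw [h1]
            _ = y * (a * (a * w * a⁻¹) * a⁻¹) * y⁻¹ := h2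
            _ = y * ((a * a) * w * (a * a)⁻¹) * y⁻¹ := by group
            _ = y * w * y⁻¹ := by rw [haw]
        · intro w hw
          obtain ⟨hwV, haw⟩ := (hWmem w).mp hw
          refine (hWmem _).mpr ⟨haV w hwV, ?_⟩
          calc (a * a) * (a * w * a⁻¹) * (a * a)⁻¹ = a * ((a * a) * w * (a * a)⁻¹) * a⁻¹ := by
                group
            _ = a * w * a⁻¹ := by rw [haw]
      have hWne : W ≠ ⊥ := by
        obtain ⟨v, hv, hv1, hfix⟩ := s4i_fp V hV2 hV1 (a * a)
          (fun v hv => hVn.conj_mem v hv (a * a)) j (by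
            intro v hv
            have h1 : (a * a) ^ (2 ^ j) = a ^ (2 ^ j) * a ^ (2 ^ j) :=
              (Commute.refl a).mul_pow _
            rw [h1]
            exact hCV _ (Subgroup.mul_mem _ haj haj) v hv)
        intro hb
        have : v ∈ W := (hWmem v).mpr ⟨hv, hfix⟩
        rw [hb] at this
        exact hv1 (Subgroup.mem_bot.mp this)
      have hWtop : W = V := hVmin W hWn hWne hWV
      intro v hv
      exact ((hWmem v).mp (hWtop ▸ hv)).2
    -- an involution of V fixed by a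
    obtain ⟨v₀, hv₀V, hv₀1, hav₀⟩ := s4i_fp V hV2 hV1 a haV 1 (by
      intro v hv
      have h1 : a ^ (2 ^ 1) = a * a := by rw [pow_one, pow_two]
      rw [h1]; exact haa v hv)
    obtain ⟨k, hk⟩ := (IsPGroup.iff_orderOf.mp hV2) ⟨v₀, hv₀V⟩
    have hk' : orderOf v₀ = 2 ^ k := by
      rw [← hk]; exact (Subgroup.orderOf_mk v₀ hv₀V).symm
    have hk0 : k ≠ 0 := by
      rintro rfl
      rw [pow_zero, orderOf_eq_one_iff] at hk'
      exact hv₀1 hk'
    obtain ⟨k', rfl⟩ := Nat.exists_eq_succ_of_ne_zero hk0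
    obtain ⟨v, hv⟩ : ∃ v, v = v₀ ^ (2 ^ k') := ⟨_, rfl⟩
    have hvV : v ∈ V := by rw [hv]; exact Subgroup.pow_mem _ hv₀V _
    have hv1 : v ≠ 1 := by
      intro h
      rw [hv] at h
      have h1 := orderOf_dvd_of_pow_eq_one h
      rw [hk'] at h1
      exact absurd ((Nat.pow_dvd_pow_iff_le_right (by norm_num)).mp h1) (by omega)
    have hvv : v * v = 1 := by
      rw [hv, ← pow_add, ← two_mul, ← pow_succ', ← hk', pow_orderOf_eq_one]
    have hav : a * v * a⁻¹ = v := by
      rw [hv, ← conj_pow, hav₀]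
    obtain ⟨v₁, hv₁⟩ : ∃ v₁, v₁ = y * v * y⁻¹ := ⟨_, rfl⟩
    obtain ⟨v₂, hv₂⟩ : ∃ v₂, v₂ = y * v₁ * y⁻¹ := ⟨_, rfl⟩
    have hv₁V : v₁ ∈ V := by rw [hv₁]; exact hyV v hvV
    have hv₂V : v₂ ∈ V := by rw [hv₂]; exact hyV v₁ hv₁V
    have hyv₂ : y * v₂ * y⁻¹ = v := by
      have h1 : y * v₂ * y⁻¹ = (y * y * y) * v * (y * y * y)⁻¹ := by rw [hv₂, hv₁]; group
      rw [h1]; exact hCV _ hy3 v hvV
    have hv₁ne : y * v * y⁻¹ ≠ v := fun h => hv1 (hCy v hvV h)
    have h11 : v₁ * v₁ = 1 := by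
      rw [hv₁]
      calc y * v * y⁻¹ * (y * v * y⁻¹) = y * (v * v) * y⁻¹ := by group
        _ = 1 := by rw [hvv]; group
    have h22 : v₂ * v₂ = 1 := by
      rw [hv₂]
      calc y * v₁ * y⁻¹ * (y * v₁ * y⁻¹) = y * (v₁ * v₁) * y⁻¹ := by group
        _ = 1 := by rw [h11]; group
    have hprod : v * v₁ * v₂ = 1 := by
      apply hCy _ (Subgroup.mul_mem _ (Subgroup.mul_mem _ hvV hv₁V) hv₂V)
      calc y * (v * v₁ * v₂) * y⁻¹ = (y * v * y⁻¹) * (y * v₁ * y⁻¹) * (y * v₂ * y⁻¹) := by group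
        _ = v₁ * v₂ * v := by rw [← hv₁, ← hv₂, hyv₂]
        _ = v * (v₁ * v₂) := (hVab v hvV _ (Subgroup.mul_mem _ hv₁V hv₂V)).symm
        _ = v * v₁ * v₂ := (mul_assoc _ _ _).symm
    have e12 : v * v₁ = v₂ := by
      have h1 : v * v₁ = v₂⁻¹ := eq_inv_of_mul_eq_one_left hprod
      rw [h1]; exact inv_eq_of_mul_eq_one_left h22
    have e21 : v₁ * v = v₂ := by rw [← hVab v hvV v₁ hv₁V]; exact e12
    have e13 : v * v₂ = v₁ := by rw [← e12, ← mul_assoc, hvv, one_mul]
    have e31 : v₂ * v = v₁ := by rw [← hVab v hvV v₂ hv₂V]; exact e13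
    have e23 : v₁ * v₂ = v := by rw [← e21, ← mul_assoc, h11, one_mul]
    have e32 : v₂ * v₁ = v := by rw [← hVab v₁ hv₁V v₂ hv₂V]; exact e23
    have hav₁ : a * v₁ * a⁻¹ = v₂ := by
      have h1 := hA v hvV
      rw [hav, ← hv₁] at h1
      rw [← h1, ← hyv₂]; group
    have hav₂ : a * v₂ * a⁻¹ = v₁ := by
      have h1 := hA v₁ hv₁V
      rw [hav₁, ← hv₂] at h1
      rw [← h1, hv₂]; group
    let W : Subgroup G :=
      { carrier := {w | w = 1 ∨ w = v ∨ w = v₁ ∨ w = v₂}
        one_mem' := Or.inl rfl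
        mul_mem' := by
          rintro x z (rfl | rfl | rfl | rfl) (rfl | rfl | rfl | rfl)
          · left; exact one_mul 1
          · right; left; exact one_mul _
          · right; right; left; exact one_mul _
          · right; right; right; exact one_mul _
          · right; left; exact mul_one _
          · left; exact hvv
          · right; right; right; exact e12
          · right; right; left; exact e13
          · right; right; left; exact mul_one _
          · right; right; right; exact e21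
          · left; exact h11
          · right; left; exact e23
          · right; right; right; exact mul_one _
          · right; right; left; exact e31
          · right; left; exact e32
          · left; exact h22
        inv_mem' := by
          rintro x (rfl | rfl | rfl | rfl)
          · left; exact inv_one
          · right; left; exact inv_eq_of_mul_eq_one_left hvv
          · right; right; left; exact inv_eq_of_mul_eq_one_left h11
          · right; right; right; exact inv_eq_of_mul_eq_one_left h22 }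
    have hWmem : ∀ w, w ∈ W ↔ (w = 1 ∨ w = v ∨ w = v₁ ∨ w = v₂) := fun w => Iff.rfl
    have hWV : W ≤ V := by
      intro w hw
      rcases (hWmem w).mp hw with rfl | rfl | rfl | rfl
      · exact Subgroup.one_mem _
      · exact hvV
      · exact hv₁V
      · exact hv₂V
    have hWn : W.Normal := by
      apply hnorm W hWV
      · intro w hw
        rcases (hWmem w).mp hw with rfl | rfl | rfl | rfl
        · exact (hWmem _).mpr (Or.inl (by group))
        · exact (hWmem _).mpr (Or.inr (Or.inr (Or.inl hv₁.symm)))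
        · exact (hWmem _).mpr (Or.inr (Or.inr (Or.inr hv₂.symm)))
        · exact (hWmem _).mpr (Or.inr (Or.inl hyv₂))
      · intro w hw
        rcases (hWmem w).mp hw with rfl | rfl | rfl | rfl
        · exact (hWmem _).mpr (Or.inl (by group))
        · exact (hWmem _).mpr (Or.inr (Or.inl hav))
        · exact (hWmem _).mpr (Or.inr (Or.inr (Or.inr hav₁)))
        · exact (hWmem _).mpr (Or.inr (Or.inr (Or.inl hav₂)))
    have hWcard : Nat.card W ≤ 4 := by
      have hsub : (W : Set G) ⊆ (({1, v, v₁, v₂} : Finset G) : Set G) := by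
        intro w hw
        simp only [Finset.coe_insert, Finset.coe_singleton, Set.mem_insert_iff,
          Set.mem_singleton_iff]
        exact (hWmem w).mp hw
      calc Nat.card W = Set.ncard (W : Set G) := Nat.card_coe_set_eq _
        _ ≤ Set.ncard (({1, v, v₁, v₂} : Finset G) : Set G) :=
            Set.ncard_le_ncard hsub (Finset.finite_toSet _)
        _ = ({1, v, v₁, v₂} : Finset G).card := Set.ncard_coe_finset _
        _ ≤ 4 := Finset.card_le_four
    have hW2 : ∀ u ∈ W, u * u = 1 := by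
      intro w hw
      rcases (hWmem w).mp hw with rfl | rfl | rfl | rfl
      · exact one_mul 1
      · exact hvv
      · exact h11
      · exact h22
    have hCW : Subgroup.centralizer (T : Set G) ≤ Subgroup.centralizer (W : Set G) :=
      Subgroup.centralizer_le (fun w hw => hVT (hWV hw))
    haveI := hWn
    refine Helper1.s4_of_four_group W hWcard hW2 y a 3 ⟨1, rfl⟩ ?_ (hCW hay) ?_ v
      ((hWmem v).mpr (Or.inr (Or.inl rfl))) hv₁ne
    · have h3 : y ^ 3 = y * y * y := by rw [pow_succ, pow_two]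
      rw [h3]; exact hCW hy3
    · exact Helper1.s4_mem_centralizer_of_conj (fun w hw => haa w (hWV hw))

theorem s4i_s3_to_d3 : ∃ Φ : Equiv.Perm (Fin 3) →* DihedralGroup 3, Function.Surjective Φ := by
  have hy3 : orderOf (DihedralGroup.r 1 : DihedralGroup 3) = 3 := DihedralGroup.orderOf_r_one
  have hinv : (DihedralGroup.sr 0 : DihedralGroup 3) * DihedralGroup.r 1 *
      (DihedralGroup.sr 0)⁻¹ = (DihedralGroup.r 1)⁻¹ := by decide
  obtain ⟨e⟩ := s3_of_inverting9 (DihedralGroup.sr 0 : DihedralGroup 3) (DihedralGroup.r 1)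
    (by decide) hy3 hinv
  let Φ : Equiv.Perm (Fin 3) →* DihedralGroup 3 := (Subgroup.subtype _).comp e.symm.toMonoidHom
  have hinj : Function.Injective Φ := (Subgroup.subtype_injective _).comp e.symm.injective
  refine ⟨Φ, ?_⟩
  have hcard : Nat.card (Equiv.Perm (Fin 3)) = Nat.card (DihedralGroup 3) := by
    rw [DihedralGroup.nat_card, Nat.card_eq_fintype_card, Fintype.card_perm]; rfl
  exact ((Nat.bijective_iff_injective_and_card Φ).mpr ⟨hinj, hcard⟩).2

/-- `S₃` involved in `N(T)/C(T)` for a `2`-subgroup `T` forces `S₄` to be involved. -/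
theorem s4i_of_s3 {G : Type u} [Group G] [Finite G] (T : Subgroup G) (hT : IsPGroup 2 T)
    (h : Cfsg.Involves (Equiv.Perm (Fin 3))
      (↥(Subgroup.normalizer (T : Set G)) ⧸
        (Subgroup.centralizer (T : Set G)).subgroupOf (Subgroup.normalizer (T : Set G)))) :
    Cfsg.Involves (Equiv.Perm (Fin 4)) G := by
  classical
  obtain ⟨Φ, hΦ⟩ := s4i_s3_to_d3
  obtain ⟨K, f, hf⟩ := Helper27.involves_exists_surj h
  have hD : Cfsg.Involves (DihedralGroup 3) (↥(Subgroup.normalizer (T : Set G)) ⧸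
        (Subgroup.centralizer (T : Set G)).subgroupOf (Subgroup.normalizer (T : Set G))) :=
    Helper27.involves_of_surj K (Φ.comp f) (hΦ.comp hf)
  haveI : Fact (Nat.Prime 3) := ⟨Nat.prime_three⟩
  obtain ⟨x, P, ⟨k, hx⟩, hP, hxn, hxc⟩ :=
    Helper16.normalizes_of_involves_dihedral (p := 3) (by norm_num) hD
  obtain ⟨x', y, ⟨k', hx'⟩, ⟨l, hy⟩, hy1, hxy⟩ :=
    Helper16.inverts_of_normalizes x P k hx hP hxn hxc
  have hl : l ≠ 0 := by
    rintro rfl
    rw [pow_zero, orderOf_eq_one_iff] at hy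
    exact hy1 hy
  obtain ⟨l', rfl⟩ := Nat.exists_eq_succ_of_ne_zero hl
  obtain ⟨y', hy'⟩ : ∃ y', y' = y ^ (3 ^ l') := ⟨_, rfl⟩
  have hy'1 : y' ≠ 1 := by
    intro h1
    rw [hy'] at h1
    have h2 := orderOf_dvd_of_pow_eq_one h1
    rw [hy] at h2
    exact absurd ((Nat.pow_dvd_pow_iff_le_right (by norm_num)).mp h2) (by omega)
  have hy'3 : y' * y' * y' = 1 := by
    have h1 : y' ^ 3 = 1 := by rw [hy', ← pow_mul, ← pow_succ, ← hy, pow_orderOf_eq_one]
    rw [← h1, pow_succ, pow_two]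
  have hxy' : x' * y' * x'⁻¹ = y'⁻¹ := by rw [hy', ← conj_pow, hxy, inv_pow]
  obtain ⟨yN, hyN⟩ := QuotientGroup.mk_surjective y'
  obtain ⟨aN, haN⟩ := QuotientGroup.mk_surjective x'
  have key : ∀ n : ↥(Subgroup.normalizer (T : Set G)),
      ((n : ↥(Subgroup.normalizer (T : Set G)) ⧸
        (Subgroup.centralizer (T : Set G)).subgroupOf (Subgroup.normalizer (T : Set G))) = 1) ↔
      (n : G) ∈ Subgroup.centralizer (T : Set G) := fun n => by
    rw [QuotientGroup.eq_one_iff, Subgroup.mem_subgroupOf]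
  obtain ⟨y₀, hy₀⟩ : ∃ y₀ : G, y₀ = (yN : G) := ⟨_, rfl⟩
  obtain ⟨a₀, ha₀⟩ : ∃ a₀ : G, a₀ = (aN : G) := ⟨_, rfl⟩
  have hy₀3 : y₀ * y₀ * y₀ ∈ Subgroup.centralizer (T : Set G) := by
    have h1 := (key (yN * yN * yN)).mp (by
      rw [QuotientGroup.mk_mul, QuotientGroup.mk_mul, hyN, hy'3])
    rw [hy₀]; simpa only [Subgroup.coe_mul] using h1
  have hy₀T : y₀ ∉ Subgroup.centralizer (T : Set G) := by
    intro hmem
    rw [hy₀] at hmem
    exact hy'1 (by rw [← hyN]; exact (key yN).mpr hmem)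
  have hay₀ : a₀ * y₀ * a₀⁻¹ * y₀ ∈ Subgroup.centralizer (T : Set G) := by
    have h1 := (key (aN * yN * aN⁻¹ * yN)).mp (by
      rw [QuotientGroup.mk_mul, QuotientGroup.mk_mul, QuotientGroup.mk_mul, QuotientGroup.mk_inv,
        hyN, haN, hxy', inv_mul_cancel])
    rw [hy₀, ha₀]; simpa only [Subgroup.coe_mul, Subgroup.coe_inv] using h1
  have haj₀ : a₀ ^ (2 ^ k') ∈ Subgroup.centralizer (T : Set G) := by
    have h1 := (key (aN ^ (2 ^ k'))).mp (by
      rw [QuotientGroup.mk_pow, haN, ← hx', pow_orderOf_eq_one])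
    rw [ha₀]; simpa only [Subgroup.coe_pow] using h1
  have hy₀N : y₀ ∈ Subgroup.normalizer (T : Set G) := by rw [hy₀]; exact yN.2
  have ha₀N : a₀ ∈ Subgroup.normalizer (T : Set G) := by rw [ha₀]; exact aN.2
  -- the subgroup generated by T, y₀, a₀
  obtain ⟨G', hG'⟩ : ∃ G' : Subgroup G, G' = T ⊔ Subgroup.closure {y₀, a₀} := ⟨_, rfl⟩
  have hTG' : T ≤ G' := by rw [hG']; exact le_sup_left
  have hG'N : G' ≤ Subgroup.normalizer (T : Set G) := by
    rw [hG']
    apply sup_le Subgroup.le_normalizer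
    rw [Subgroup.closure_le]
    intro g hg
    rcases hg with rfl | rfl
    · exact hy₀N
    · exact ha₀N
  have hy₀G' : y₀ ∈ G' := by
    rw [hG']; exact Subgroup.mem_sup_right (Subgroup.subset_closure (by simp))
  have ha₀G' : a₀ ∈ G' := by
    rw [hG']; exact Subgroup.mem_sup_right (Subgroup.subset_closure (by simp))
  haveI hT'n : (T.subgroupOf G').Normal :=
    (Subgroup.normal_subgroupOf_iff_le_normalizer hTG').mpr hG'N
  have hcent : ∀ g : ↥G', (g : G) ∈ Subgroup.centralizer (T : Set G) ↔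
      g ∈ Subgroup.centralizer ((T.subgroupOf G' : Subgroup ↥G') : Set ↥G') := by
    intro g
    constructor
    · intro hg
      rw [Subgroup.mem_centralizer_iff]
      intro t ht
      apply Subtype.ext
      exact (Subgroup.mem_centralizer_iff.mp hg) (t : G) (Subgroup.mem_subgroupOf.mp ht)
    · intro hg
      rw [Subgroup.mem_centralizer_iff]
      intro t ht
      have h1 := (Subgroup.mem_centralizer_iff.mp hg) ⟨t, hTG' ht⟩
        (Subgroup.mem_subgroupOf.mpr ht)
      exact congrArg Subtype.val h1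
  have hgen' : T.subgroupOf G' ⊔ Subgroup.closure {(⟨y₀, hy₀G'⟩ : ↥G'), ⟨a₀, ha₀G'⟩} = ⊤ := by
    apply Subgroup.map_injective G'.subtype_injective
    rw [Subgroup.map_sup, Subgroup.subgroupOf_map_subtype, MonoidHom.map_closure, Set.image_pair,
      inf_of_le_left hTG', ← MonoidHom.range_eq_map, Subgroup.range_subtype]
    exact hG'.symm
  have hres := s4i_ind (Nat.card ↥G') ↥G' rfl (T.subgroupOf G') hT.comap_subtype
    ⟨y₀, hy₀G'⟩ ⟨a₀, ha₀G'⟩ hgen' ((hcent _).mp hy₀3) (fun hc => hy₀T ((hcent _).mpr hc))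
    ((hcent _).mp hay₀) ⟨k', (hcent _).mp haj₀⟩
  exact Helper27.involves_of_injective G'.subtype G'.subtype_injective hres

theorem s4i_q : ∃ q : Equiv.Perm (Fin 4) →* Equiv.Perm (Fin 3), Function.Surjective q ∧
    q (Equiv.swap 0 1 * Equiv.swap 2 3) = 1 ∧
    q (Equiv.swap 1 2 * (Equiv.swap 0 1 * Equiv.swap 2 3) * Equiv.swap 1 2) = 1 := by
  obtain ⟨q, h1, h2, h3⟩ := Helper27.exists_hom_S4 (Equiv.swap (0 : Fin 3) 1)
    (Equiv.swap (1 : Fin 3) 2) (Equiv.swap (0 : Fin 3) 1)
    (by decide) (by decide) (by decide) (by decide) (by decide) (by decide)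
  refine ⟨q, ?_, ?_, ?_⟩
  · intro τ
    have key : ∀ τ : Equiv.Perm (Fin 3), τ = 1 ∨ τ = Equiv.swap 0 1 ∨ τ = Equiv.swap 1 2 ∨
        τ = Equiv.swap 0 1 * Equiv.swap 1 2 ∨ τ = Equiv.swap 1 2 * Equiv.swap 0 1 ∨
        τ = Equiv.swap 0 1 * Equiv.swap 1 2 * Equiv.swap 0 1 := by decide
    rcases key τ with rfl | rfl | rfl | rfl | rfl | rfl
    · exact ⟨1, map_one q⟩
    · exact ⟨_, h1⟩
    · exact ⟨_, h2⟩
    · exact ⟨Equiv.swap 0 1 * Equiv.swap 1 2, by rw [map_mul, h1, h2]⟩
    · exact ⟨Equiv.swap 1 2 * Equiv.swap 0 1, by rw [map_mul, h1, h2]⟩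
    · exact ⟨Equiv.swap 0 1 * Equiv.swap 1 2 * Equiv.swap 0 1, by rw [map_mul, map_mul, h1, h2]⟩
  · rw [map_mul, h1, h3]; decide
  · rw [map_mul, map_mul, map_mul, h1, h2, h3]; decide

theorem s4i_cent : ∀ s : Equiv.Perm (Fin 4),
    s * (Equiv.swap 0 1 * Equiv.swap 2 3) = (Equiv.swap 0 1 * Equiv.swap 2 3) * s →
    s * (Equiv.swap 1 2 * (Equiv.swap 0 1 * Equiv.swap 2 3) * Equiv.swap 1 2)
      = (Equiv.swap 1 2 * (Equiv.swap 0 1 * Equiv.swap 2 3) * Equiv.swap 1 2) * s →
    s = 1 ∨ s = Equiv.swap 0 1 * Equiv.swap 2 3 ∨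
      s = Equiv.swap 1 2 * (Equiv.swap 0 1 * Equiv.swap 2 3) * Equiv.swap 1 2 ∨
      s = (Equiv.swap 0 1 * Equiv.swap 2 3) *
        (Equiv.swap 1 2 * (Equiv.swap 0 1 * Equiv.swap 2 3) * Equiv.swap 1 2) := by
  decide

/-- Forward direction when `S₄` is a quotient of the whole group. -/
theorem s4i_fwd_top {G : Type u} [Group G] [Finite G] (f : G →* Equiv.Perm (Fin 4))
    (hf : Function.Surjective f) :
    ∃ T : Subgroup G, IsPGroup 2 T ∧
      ∃ ψ : ↥(Subgroup.normalizer (T : Set G)) →* Equiv.Perm (Fin 3), Function.Surjective ψ ∧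
        ∀ c : ↥(Subgroup.normalizer (T : Set G)),
          (c : G) ∈ Subgroup.centralizer (T : Set G) → ψ c = 1 := by
  classical
  obtain ⟨q, hq, hd1, hd2⟩ := s4i_q
  obtain ⟨h, hh⟩ : ∃ h : G →* Equiv.Perm (Fin 3), h = q.comp f := ⟨_, rfl⟩
  have hhs : Function.Surjective h := by rw [hh]; exact hq.comp hf
  have hhap : ∀ g : G, h g = q (f g) := fun g => by rw [hh]; rfl
  haveI : Fact (Nat.Prime 2) := ⟨Nat.prime_two⟩
  obtain ⟨P⟩ : Nonempty (Sylow 2 ↥h.ker) := inferInstance
  obtain ⟨T, hTdef⟩ : ∃ T : Subgroup G, T = (P : Subgroup ↥h.ker).map h.ker.subtype := ⟨_, rfl⟩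
  have hfr : Subgroup.normalizer (T : Set G) ⊔ h.ker = ⊤ := by
    rw [hTdef]; exact Sylow.normalizer_sup_eq_top P
  have hTP : IsPGroup 2 T := by rw [hTdef]; exact P.isPGroup'.map _
  -- T maps onto ker q
  have hTd : ∀ d : Equiv.Perm (Fin 4), q d = 1 → ∃ t ∈ T, f t = d := by
    have hkercard : Nat.card q.ker = 4 := by
      have h1 := Subgroup.card_mul_index q.ker
      rw [Subgroup.index_ker, MonoidHom.range_eq_top.mpr hq, Subgroup.card_top,
        Nat.card_eq_fintype_card (α := Equiv.Perm (Fin 3)),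
        Nat.card_eq_fintype_card (α := Equiv.Perm (Fin 4)), Fintype.card_perm,
        Fintype.card_perm] at h1
      have h2 : Nat.card q.ker * 6 = 24 := h1
      omega
    let fL : ↥h.ker →* ↥q.ker := (f.comp h.ker.subtype).codRestrict q.ker (fun l => by
      rw [MonoidHom.mem_ker]
      have := MonoidHom.mem_ker.mp l.2
      rw [hhap] at this
      exact this)
    have hfL : Function.Surjective fL := by
      rintro ⟨d, hd⟩
      obtain ⟨g, rfl⟩ := hf d
      exact ⟨⟨g, MonoidHom.mem_ker.mpr (by rw [hhap]; exact MonoidHom.mem_ker.mp hd)⟩,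
        Subtype.ext rfl⟩
    have hP'top : ((P.mapSurjective hfL : Sylow 2 ↥q.ker) : Subgroup ↥q.ker) = ⊤ := by
      apply Subgroup.eq_top_of_card_eq
      rw [Sylow.card_eq_multiplicity, hkercard]
      have h4 : Nat.factorization 4 2 = 2 := by
        have h5 : (4 : ℕ) = 2 ^ 2 := by norm_num
        rw [h5, Nat.Prime.factorization_pow Nat.prime_two]; simp
      rw [h4]; norm_num
    intro d hd
    have hmem : (⟨d, MonoidHom.mem_ker.mpr hd⟩ : ↥q.ker) ∈
        ((P.mapSurjective hfL : Sylow 2 ↥q.ker) : Subgroup ↥q.ker) := by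
      rw [hP'top]; exact Subgroup.mem_top _
    rw [Sylow.coe_mapSurjective] at hmem
    obtain ⟨l, hl, hfl⟩ := Subgroup.mem_map.mp hmem
    refine ⟨(l : G), ?_, congrArg Subtype.val hfl⟩
    rw [hTdef]
    exact Subgroup.mem_map.mpr ⟨l, hl, rfl⟩
  refine ⟨T, hTP, h.comp (Subgroup.normalizer (T : Set G)).subtype, ?_, ?_⟩
  · intro τ
    obtain ⟨g, rfl⟩ := hhs τ
    have hg : g ∈ Subgroup.normalizer (T : Set G) ⊔ h.ker := by rw [hfr]; exact Subgroup.mem_top g
    rw [← SetLike.mem_coe, Subgroup.mul_normal] at hg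
    obtain ⟨n, hn, l, hl, rfl⟩ := Set.mem_mul.mp hg
    refine ⟨⟨n, hn⟩, ?_⟩
    show h n = h (n * l)
    rw [map_mul, MonoidHom.mem_ker.mp hl, mul_one]
  · intro c hc
    show h (c : G) = 1
    obtain ⟨t1, ht1, hft1⟩ := hTd _ hd1
    obtain ⟨t2, ht2, hft2⟩ := hTd _ hd2
    have c1 : f c * (Equiv.swap 0 1 * Equiv.swap 2 3)
        = (Equiv.swap 0 1 * Equiv.swap 2 3) * f c := by
      rw [← hft1, ← map_mul, ← map_mul, (Subgroup.mem_centralizer_iff.mp hc) t1 ht1]
    have c2 : f c * (Equiv.swap 1 2 * (Equiv.swap 0 1 * Equiv.swap 2 3) * Equiv.swap 1 2)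
        = (Equiv.swap 1 2 * (Equiv.swap 0 1 * Equiv.swap 2 3) * Equiv.swap 1 2) * f c := by
      rw [← hft2, ← map_mul, ← map_mul, (Subgroup.mem_centralizer_iff.mp hc) t2 ht2]
    rw [hhap]
    rcases s4i_cent (f c) c1 c2 with e | e | e | e
    · rw [e, map_one]
    · rw [e]; exact hd1
    · rw [e]; exact hd2
    · rw [e, map_mul, hd1, hd2, one_mul]

/-- Forward direction in general. -/
theorem s4i_fwd {G : Type u} [Group G] [Finite G]
    (hinv : Cfsg.Involves (Equiv.Perm (Fin 4)) G) :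
    ∃ T : Subgroup G, IsPGroup 2 ↥T ∧ Cfsg.Involves (Equiv.Perm (Fin 3))
      (↥(Subgroup.normalizer (T : Set G)) ⧸
        (Subgroup.centralizer (T : Set G)).subgroupOf (Subgroup.normalizer (T : Set G))) := by
  classical
  obtain ⟨K, f, hf⟩ := Helper27.involves_exists_surj hinv
  obtain ⟨TK, hTK, ψ, hψ, hker⟩ := s4i_fwd_top f hf
  obtain ⟨T, hTdef⟩ : ∃ T : Subgroup G, T = TK.map K.subtype := ⟨_, rfl⟩
  refine ⟨T, by rw [hTdef]; exact hTK.map _, ?_⟩
  -- the map N_K(TK) → N_G(T)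
  have hmapN : ∀ n : ↥(Subgroup.normalizer (TK : Set ↥K)),
      ((n : ↥K) : G) ∈ Subgroup.normalizer (T : Set G) := by
    intro n
    rw [hTdef]
    exact Subgroup.le_normalizer_map K.subtype ⟨(n : ↥K), n.2, rfl⟩
  let ι : ↥(Subgroup.normalizer (TK : Set ↥K)) →* ↥(Subgroup.normalizer (T : Set G)) :=
    (K.subtype.comp (Subgroup.normalizer (TK : Set ↥K)).subtype).codRestrict _ hmapN
  let φ : ↥(Subgroup.normalizer (TK : Set ↥K)) →*
      (↥(Subgroup.normalizer (T : Set G)) ⧸
        (Subgroup.centralizer (T : Set G)).subgroupOf (Subgroup.normalizer (T : Set G))) :=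
    (QuotientGroup.mk' _).comp ι
  have hkerφ : φ.rangeRestrict.ker ≤ ψ.ker := by
    intro n hn
    rw [MonoidHom.mem_ker] at hn ⊢
    have h1 : φ n = 1 := by
      have := congrArg Subtype.val hn
      exact this
    have h2 : (ι n) ∈ (Subgroup.centralizer (T : Set G)).subgroupOf
        (Subgroup.normalizer (T : Set G)) := by
      have h3 : ((ι n : ↥(Subgroup.normalizer (T : Set G))) : ↥(Subgroup.normalizer (T : Set G)) ⧸
        (Subgroup.centralizer (T : Set G)).subgroupOf (Subgroup.normalizer (T : Set G))) = 1 := h1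
      exact (QuotientGroup.eq_one_iff _).mp h3
    have h4 : ((n : ↥K) : G) ∈ Subgroup.centralizer (T : Set G) := Subgroup.mem_subgroupOf.mp h2
    apply hker n
    rw [Subgroup.mem_centralizer_iff]
    intro t ht
    apply Subtype.ext
    exact (Subgroup.mem_centralizer_iff.mp h4) (t : G) (by
      rw [hTdef]; exact Subgroup.mem_map.mpr ⟨t, ht, rfl⟩)
  let Ψ : ↥φ.range →* Equiv.Perm (Fin 3) :=
    φ.rangeRestrict.liftOfSurjective φ.rangeRestrict_surjective ⟨ψ, hkerφ⟩
  have hΨ : ∀ n, Ψ (φ.rangeRestrict n) = ψ n := fun n =>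
    MonoidHom.liftOfRightInverse_comp_apply _ _ _ ⟨ψ, hkerφ⟩ n
  have hΨs : Function.Surjective Ψ := by
    intro τ
    obtain ⟨n, rfl⟩ := hψ τ
    exact ⟨φ.rangeRestrict n, hΨ n⟩
  exact Helper27.involves_of_surj φ.range Ψ hΨs

end Cfsg.Agent.Helper9
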