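import Cfsg.Agent.Helper9.Signalizer

set_option autoImplicit false

namespace Cfsg.Agent.Helper9

open Subgroup

instance pPrimePCore_char {N : Type*} [Group N] (p : ℕ) :
    (Cfsg.pPrimePCore p N).Characteristic := by
  rw [Subgroup.characteristic_iff_le_comap]
  intro ϕ x hx
  have hW : (Cfsg.pPrimeCore p N).map ϕ.toMonoidHom = Cfsg.pPrimeCore p N :=
    Subgroup.characteristic_iff_map_eq.mp (pPrimeCore_char p) ϕ
  unfold Cfsg.pPrimePCore at hx ⊢
  rw [Subgroup.mem_comap] at hx ⊢
  rw [Subgroup.mem_comap]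
  have h1 := Subgroup.characteristic_iff_le_comap.mp
    (pCore_char (N := N ⧸ Cfsg.pPrimeCore p N) p) (QuotientGroup.congr _ _ ϕ hW) hx
  exact h1

end Cfsg.Agent.Helper9
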