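import Cfsg.Agent.Helper9.Signalizer

set_option autoImplicit false

namespace Cfsg.Agent.Helper9

open Subgroup
open scoped Pointwise

universe u

theorem mem_theta_of_mem_signalizerInf {G : Type*} [Group G] (A : Subgroup G)
    (θ : G → Subgroup G) {c : G} (hc : c ∈ Cfsg.signalizerInf A θ) {a : G} (ha : a ∈ A)
    (ha1 : a ≠ 1) : c ∈ θ a := by
  unfold Cfsg.signalizerInf at hc
  exact (Subgroup.mem_iInf.mp hc) ⟨a, ha, ha1⟩

theorem signalizerInf_anti {G : Type*} [Group G] (A B : Subgroup G) (θ : G → Subgroup G)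
    (hBA : B ≤ A) : Cfsg.signalizerInf A θ ≤ Cfsg.signalizerInf B θ := by
  intro x hx
  unfold Cfsg.signalizerInf at hx ⊢
  rw [Subgroup.mem_iInf] at hx ⊢
  rintro ⟨b, hbB, hb1⟩
  exact hx ⟨b, hBA hbB, hb1⟩

theorem signalizerInf_comm {G : Type*} [Group G] (p : ℕ) (A : Subgroup G) (θ : G → Subgroup G)
    (hθ : Cfsg.IsSignalizerFunctor p A θ) {c : G} (hc : c ∈ Cfsg.signalizerInf A θ) :
    ∀ b ∈ A, b * c = c * b := by
  intro b hb
  by_cases hb1 : b = 1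
  · rw [hb1, one_mul, mul_one]
  · have h1 : c ∈ θ b := mem_theta_of_mem_signalizerInf A θ hc hb hb1
    exact (Subgroup.mem_centralizer_iff.mp (hθ.1 b hb hb1 h1)) b (Set.mem_singleton b)

theorem bot_mem_signalizerFamily {G : Type*} [Group G] (p : ℕ) [hp : Fact p.Prime]
    (A : Subgroup G) (θ : G → Subgroup G) :
    (⊥ : Subgroup G) ∈ Cfsg.signalizerFamily p A θ := by
  unfold Cfsg.signalizerFamily
  refine ⟨?_, ?_, ?_, ?_⟩
  · exact Group.isSolvable_of_comm (fun x y => Subtype.ext (by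
      rw [Subgroup.coe_mul, Subgroup.coe_mul, Subgroup.mem_bot.mp x.2, Subgroup.mem_bot.mp y.2]))
  · rw [Subgroup.card_bot]; exact hp.out.not_dvd_one
  · intro b hb u hu
    rw [Subgroup.mem_bot] at hu ⊢
    rw [hu, mul_one, mul_inv_cancel]
  · intro a ha ha1 x hx
    rw [Subgroup.mem_bot.mp (Subgroup.mem_inf.mp hx).1]
    exact Subgroup.one_mem _

theorem signalizerFamily_of_le {G : Type*} [Group G] (p : ℕ) (A : Subgroup G)
    (θ : G → Subgroup G) {V U : Subgroup G} (hV : V ∈ Cfsg.signalizerFamily p A θ)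
    (hUV : U ≤ V) (hUA : ∀ b ∈ A, ∀ u ∈ U, b * u * b⁻¹ ∈ U) :
    U ∈ Cfsg.signalizerFamily p A θ := by
  obtain ⟨hVs, hVp, -, hVθ⟩ := id hV
  unfold Cfsg.signalizerFamily
  refine ⟨?_, ?_, hUA, ?_⟩
  · haveI := hVs
    exact Group.isSolvable_of_isSolvable_injective (Subgroup.inclusion_injective hUV)
  · intro h
    exact hVp (h.trans (Subgroup.card_dvd_of_le hUV))
  · intro a ha ha1
    exact (inf_le_inf_right _ hUV).trans (hVθ a ha ha1)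

theorem conj_mem_signalizerFamily {G : Type*} [Group G] [Finite G] (p : ℕ) (A : Subgroup G)
    (θ : G → Subgroup G) (hθ : Cfsg.IsSignalizerFunctor p A θ) {c : G}
    (hc : c ∈ Cfsg.signalizerInf A θ) {Q : Subgroup G}
    (hQ : Q ∈ Cfsg.signalizerFamily p A θ) :
    MulAut.conj c • Q ∈ Cfsg.signalizerFamily p A θ := by
  obtain ⟨hQs, hQp, hQA, hQθ⟩ := id hQ
  have hcomm := signalizerInf_comm p A θ hθ hc
  unfold Cfsg.signalizerFamily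
  refine ⟨?_, ?_, ?_, ?_⟩
  · rw [Cfsg.Agent.Helper1.conj_smul_eq_map]
    haveI := hQs
    exact Group.isSolvable_of_surjective
      (MonoidHom.subgroupMap_surjective (MulAut.conj c).toMonoidHom Q)
  · rw [Cfsg.Agent.Helper1.card_conj_smul]; exact hQp
  · intro b hb u hu
    rw [Cfsg.Agent.Helper1.mem_conj_smul] at hu ⊢
    have hbc : Commute b c := hcomm b hb
    have h1 : c⁻¹ * b = b * c⁻¹ := (hbc.inv_right).eq.symm
    have h2 : b⁻¹ * c = c * b⁻¹ := (hbc.inv_left).eq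
    have h3 : c⁻¹ * (b * u * b⁻¹) * c = b * (c⁻¹ * u * c) * b⁻¹ := by
      calc c⁻¹ * (b * u * b⁻¹) * c = (c⁻¹ * b) * u * (b⁻¹ * c) := by group
        _ = (b * c⁻¹) * u * (c * b⁻¹) := by rw [h1, h2]
        _ = b * (c⁻¹ * u * c) * b⁻¹ := by group
    rw [h3]
    exact hQA b hb _ hu
  · intro a ha ha1 u hu
    obtain ⟨hu1, hu2⟩ := Subgroup.mem_inf.mp hu
    rw [Cfsg.Agent.Helper1.mem_conj_smul] at hu1
    have hac : Commute a c := hcomm a ha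
    have hau : Commute a u := (Subgroup.mem_centralizer_iff.mp hu2) a (Set.mem_singleton a)
    have hav : Commute a (c⁻¹ * u * c) := (hac.inv_right.mul_right hau).mul_right hac
    have hv : c⁻¹ * u * c ∈ θ a := hQθ a ha ha1 (Subgroup.mem_inf.mpr ⟨hu1, by
      rw [Subgroup.mem_centralizer_iff]
      intro y hy
      rw [Set.mem_singleton_iff.mp hy]
      exact hav.eq⟩)
    have hca : c ∈ θ a := mem_theta_of_mem_signalizerInf A θ hc ha ha1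
    have h4 : u = c * (c⁻¹ * u * c) * c⁻¹ := by group
    rw [h4]
    exact Subgroup.mul_mem _ (Subgroup.mul_mem _ hca hv) (Subgroup.inv_mem _ hca)

theorem signalizerInf_mem_family {G : Type*} [Group G] (p : ℕ) (A : Subgroup G)
    (θ : G → Subgroup G) (hθ : Cfsg.IsSolvableSignalizerFunctor p A θ) (B : Subgroup G)
    (hBA : B ≤ A) (hB : B ≠ ⊥) : Cfsg.signalizerInf B θ ∈ Cfsg.signalizerFamily p A θ := by
  obtain ⟨⟨hθc, hθp, hθA, hθbal⟩, hθs⟩ := id hθ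
  obtain ⟨b₀, hb₀B, hb₀1⟩ := (Subgroup.bot_or_exists_ne_one B).resolve_left hB
  have hle : Cfsg.signalizerInf B θ ≤ θ b₀ := by
    unfold Cfsg.signalizerInf
    exact iInf_le (fun a : {a : G // a ∈ B ∧ a ≠ 1} => θ (a : G))
      (⟨b₀, hb₀B, hb₀1⟩ : {a : G // a ∈ B ∧ a ≠ 1})
  unfold Cfsg.signalizerFamily
  refine ⟨?_, ?_, ?_, ?_⟩
  · haveI := hθs b₀ (hBA hb₀B) hb₀1
    exact Group.isSolvable_of_isSolvable_injective (Subgroup.inclusion_injective hle)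
  · intro h
    exact hθp b₀ (hBA hb₀B) hb₀1 (h.trans (Subgroup.card_dvd_of_le hle))
  · intro b hb u hu
    unfold Cfsg.signalizerInf at hu ⊢
    rw [Subgroup.mem_iInf] at hu ⊢
    rintro ⟨b', hb'B, hb'1⟩
    exact hθA b' (hBA hb'B) hb'1 b hb u (hu ⟨b', hb'B, hb'1⟩)
  · intro a ha ha1
    exact (inf_le_inf_right _ hle).trans (hθbal b₀ (hBA hb₀B) hb₀1 a ha ha1)

/-- maximal `q`-members of the signalizer family -/
def IsMaxSig {G : Type*} [Group G] (p : ℕ) (A : Subgroup G) (θ : G → Subgroup G) (q : ℕ)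
    (Q : Subgroup G) : Prop :=
  Q ∈ Cfsg.signalizerFamily p A θ ∧ IsPGroup q ↥Q ∧
    ∀ R ∈ Cfsg.signalizerFamily p A θ, IsPGroup q ↥R → Q ≤ R → R = Q

theorem isMaxSig_conj {G : Type*} [Group G] [Finite G] {p : ℕ} {A : Subgroup G}
    {θ : G → Subgroup G} {q : ℕ} (hθ : Cfsg.IsSignalizerFunctor p A θ) {Q : Subgroup G}
    (hQ : IsMaxSig p A θ q Q) {c : G} (hc : c ∈ Cfsg.signalizerInf A θ) :
    IsMaxSig p A θ q (MulAut.conj c • Q) := by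
  obtain ⟨hQF, hQq, hQmax⟩ := id hQ
  unfold IsMaxSig
  refine ⟨conj_mem_signalizerFamily p A θ hθ hc hQF, ?_, ?_⟩
  · rw [Cfsg.Agent.Helper1.conj_smul_eq_map]
    exact hQq.map _
  · intro R hR hRq hle
    have hc' : c⁻¹ ∈ Cfsg.signalizerInf A θ := Subgroup.inv_mem _ hc
    have hR' := conj_mem_signalizerFamily p A θ hθ hc' hR
    have hRq' : IsPGroup q ↥(MulAut.conj c⁻¹ • R) := by
      rw [Cfsg.Agent.Helper1.conj_smul_eq_map]
      exact hRq.map _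
    have hle' : Q ≤ MulAut.conj c⁻¹ • R := by
      intro x hx
      rw [Cfsg.Agent.Helper1.mem_conj_smul, inv_inv]
      exact hle (Cfsg.Agent.Helper1.conj_mem_conj_smul hx)
    have h := hQmax _ hR' hRq' hle'
    rw [← h, Cfsg.Agent.Helper1.conj_smul_smul, mul_inv_cancel, map_one, one_smul]

theorem exists_isMaxSig_ge {G : Type*} [Group G] [Finite G] (p : ℕ) (A : Subgroup G)
    (θ : G → Subgroup G) (q : ℕ) {S : Subgroup G} (hS : S ∈ Cfsg.signalizerFamily p A θ)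
    (hSq : IsPGroup q ↥S) : ∃ Q, IsMaxSig p A θ q Q ∧ S ≤ Q := by
  classical
  set 𝒮 : Set (Subgroup G) := {V | V ∈ Cfsg.signalizerFamily p A θ ∧ IsPGroup q ↥V} with h𝒮
  have hfin : 𝒮.Finite := Set.toFinite 𝒮
  obtain ⟨V, hSV, hVmax⟩ := hfin.exists_le_maximal (a := S) ⟨hS, hSq⟩
  obtain ⟨hVF, hVq⟩ := hVmax.prop
  refine ⟨V, ?_, hSV⟩
  unfold IsMaxSig
  exact ⟨hVF, hVq, fun R hR hRq hle => le_antisymm (hVmax.le_of_ge ⟨hR, hRq⟩ hle) hle⟩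

theorem sig_step {G : Type u} [Group G] [Finite G] (p : ℕ) [hp : Fact p.Prime] (A : Subgroup G)
    (hA : Cfsg.IsElementaryAbelian p A) (θ : G → Subgroup G)
    (hθ : Cfsg.IsSolvableSignalizerFunctor p A θ) (q : ℕ) [hq : Fact q.Prime]
    (a : G) (haA : a ∈ A) (ha1 : a ≠ 1) (D Q₁ Q₂ : Subgroup G)
    (hAD : A ≤ normalizer (D : Set G))
    (hQ₁F : Q₁ ∈ Cfsg.signalizerFamily p A θ) (hQ₁q : IsPGroup q ↥Q₁) (hDQ₁ : D ≤ Q₁)
    (hR₁ : ¬ (normalizer (D : Set G) ⊓ Q₁ ⊓ centralizer {a} ≤ D))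
    (hQ₂F : Q₂ ∈ Cfsg.signalizerFamily p A θ) (hQ₂q : IsPGroup q ↥Q₂) (hDQ₂ : D ≤ Q₂)
    (hR₂ : ¬ (normalizer (D : Set G) ⊓ Q₂ ⊓ centralizer {a} ≤ D)) :
    ∃ (Q' : Subgroup G) (c : G) (T₁ T₂ : Subgroup G), IsMaxSig p A θ q Q' ∧
      c ∈ Cfsg.signalizerInf A θ ∧ D ≤ T₁ ∧ ¬ T₁ ≤ D ∧ T₁ ≤ Q₁ ∧ T₁ ≤ Q' ∧
      D ≤ T₂ ∧ ¬ T₂ ≤ D ∧ T₂ ≤ Q₂ ∧ T₂ ≤ MulAut.conj c • Q' := by
  obtain ⟨⟨hθc, hθp, hθA, hθbal⟩, hθs⟩ := id hθ
  have hcomm : ∀ x ∈ A, ∀ y ∈ A, x * y = y * x := isMulCommutative_iff_of_setLike.mp hA.1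
  have hAθ : A ≤ normalizer ((θ a : Subgroup G) : Set G) :=
    le_normalizer_of_conj_inv A (θ a) (hθA a haA ha1)
  have hAM : A ≤ normalizer ((θ a ⊓ normalizer (D : Set G) : Subgroup G) : Set G) :=
    Cfsg.Agent.Helper1.le_normalizer_inf_normalizer A (θ a) D hAθ hAD
  have hMD : θ a ⊓ normalizer (D : Set G) ≤ normalizer (D : Set G) := inf_le_right
  obtain ⟨hQ₁s, hQ₁p, hQ₁A, hQ₁θ⟩ := id hQ₁F
  have hDs : Group.IsSolvable ↥D := by
    haveI := hQ₁s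
    exact Group.isSolvable_of_isSolvable_injective (Subgroup.inclusion_injective hDQ₁)
  have hMs : Group.IsSolvable ↥(θ a ⊓ normalizer (D : Set G) : Subgroup G) := by
    haveI := hθs a haA ha1
    exact Group.isSolvable_of_isSolvable_injective
      (Subgroup.inclusion_injective (inf_le_left : θ a ⊓ normalizer (D : Set G) ≤ θ a))
  obtain ⟨K, hKdef⟩ : ∃ K : Subgroup G, K = D ⊔ (θ a ⊓ normalizer (D : Set G)) := ⟨_, rfl⟩
  have hDK : D ≤ K := by rw [hKdef]; exact le_sup_left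
  have hMK : θ a ⊓ normalizer (D : Set G) ≤ K := by rw [hKdef]; exact le_sup_right
  have hKs : Group.IsSolvable ↥K := by
    rw [hKdef]
    exact (sup_of_le_normalizer D _ hMD).1 hDs hMs
  have hKp : ¬ p ∣ Nat.card ↥K := by
    rw [hKdef]
    intro h
    have h1 := h.trans (sup_of_le_normalizer D _ hMD).2
    rcases (Nat.Prime.dvd_mul hp.out).mp h1 with h2 | h2
    · exact hQ₁p (h2.trans (Subgroup.card_dvd_of_le hDQ₁))
    · exact hθp a haA ha1 (h2.trans (Subgroup.card_dvd_of_le inf_le_left))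
  have hAK : A ≤ normalizer (K : Set G) := by
    rw [hKdef]
    exact le_normalizer_sup hAD hAM
  have hKA : ∀ b ∈ A, ∀ u ∈ K, b * u * b⁻¹ ∈ K := fun b hb u hu =>
    (Subgroup.mem_normalizer_iff.mp (hAK hb) u).mp hu
  have hXY : ∀ k ∈ K, ∃ x ∈ D, ∃ y ∈ θ a ⊓ normalizer (D : Set G), k = x * y := by
    intro k hk
    rw [hKdef] at hk
    exact exists_mul_of_mem_sup_normalizer hMD hk
  have hKθ : ∀ b ∈ A, b ≠ 1 → K ⊓ centralizer ({b} : Set G) ≤ θ b := by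
    intro b hb hb1 k hk
    obtain ⟨hkK, hkb⟩ := Subgroup.mem_inf.mp hk
    have hzA : zpowers b ≤ A := by rw [Subgroup.zpowers_le]; exact hb
    have hcop : (Nat.card ↥(zpowers b)).Coprime (Nat.card ↥K) :=
      card_coprime_of_elemAbelian p (zpowers b) (elemAbelian_of_le p A _ hA hzA) K hKp
    obtain ⟨x, hx, y, hy, hkxy⟩ := Cfsg.Agent.S0030.result (zpowers b) K (hzA.trans hAK) hcop
      (Or.inr hKs) D (θ a ⊓ normalizer (D : Set G)) hDK hMK (hzA.trans hAD) (hzA.trans hAM)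
      hXY k (Subgroup.mem_inf.mpr ⟨hkK, centralizer_singleton_le_centralizer_zpowers b hkb⟩)
    obtain ⟨hxD, hxb⟩ := Subgroup.mem_inf.mp hx
    obtain ⟨hyM, hyb⟩ := Subgroup.mem_inf.mp hy
    have hxb' := centralizer_zpowers_le_centralizer_singleton b hxb
    have hyb' := centralizer_zpowers_le_centralizer_singleton b hyb
    have h1 : x ∈ θ b := hQ₁θ b hb hb1 (Subgroup.mem_inf.mpr ⟨hDQ₁ hxD, hxb'⟩)
    have h2 : y ∈ θ b := hθbal a haA ha1 b hb hb1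
      (Subgroup.mem_inf.mpr ⟨(inf_le_left : θ a ⊓ normalizer (D : Set G) ≤ θ a) hyM, hyb'⟩)
    rw [hkxy]
    exact Subgroup.mul_mem _ h1 h2
  have hKF : K ∈ Cfsg.signalizerFamily p A θ := by
    unfold Cfsg.signalizerFamily
    exact ⟨hKs, hKp, hKA, hKθ⟩
  have hcopAK : (Nat.card ↥A).Coprime (Nat.card ↥K) := card_coprime_of_elemAbelian p A hA K hKp
  have key : ∀ Q : Subgroup G, Q ∈ Cfsg.signalizerFamily p A θ → IsPGroup q ↥Q → D ≤ Q →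
      ¬ (normalizer (D : Set G) ⊓ Q ⊓ centralizer {a} ≤ D) →
      ∃ P : Sylow q ↥K,
        A ≤ normalizer (((P : Subgroup ↥K).map K.subtype : Subgroup G) : Set G) ∧
        ∃ T : Subgroup G, D ≤ T ∧ ¬ T ≤ D ∧ T ≤ Q ∧ T ≤ (P : Subgroup ↥K).map K.subtype := by
    intro Q hQF hQq hDQ hR
    obtain ⟨-, -, hQA, hQθ⟩ := id hQF
    have hAQ : A ≤ normalizer (Q : Set G) := le_normalizer_of_conj_inv A Q hQA
    have hRθ : normalizer (D : Set G) ⊓ Q ⊓ centralizer {a} ≤ θ a :=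
      (inf_le_inf_right _ inf_le_right).trans (hQθ a haA ha1)
    have hRM : normalizer (D : Set G) ⊓ Q ⊓ centralizer {a} ≤ θ a ⊓ normalizer (D : Set G) :=
      le_inf hRθ (inf_le_left.trans inf_le_left)
    have hAR : A ≤ normalizer
        ((normalizer (D : Set G) ⊓ Q ⊓ centralizer {a} : Subgroup G) : Set G) :=
      le_normalizer_inf' A _ _
        (le_normalizer_inf' A _ Q (hAD.trans Subgroup.le_normalizer) hAQ)
        (le_normalizer_centralizer_of_comm A hcomm {a} (Set.singleton_subset_iff.mpr haA))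
    have hTK : D ⊔ (normalizer (D : Set G) ⊓ Q ⊓ centralizer {a}) ≤ K :=
      sup_le hDK (hRM.trans hMK)
    have hTQ : D ⊔ (normalizer (D : Set G) ⊓ Q ⊓ centralizer {a}) ≤ Q :=
      sup_le hDQ (inf_le_left.trans inf_le_right)
    have hTq : IsPGroup q ↥(D ⊔ (normalizer (D : Set G) ⊓ Q ⊓ centralizer {a}) : Subgroup G) :=
      hQq.to_le hTQ
    have hAT : A ≤ normalizer
        ((D ⊔ (normalizer (D : Set G) ⊓ Q ⊓ centralizer {a}) : Subgroup G) : Set G) :=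
      le_normalizer_sup hAD hAR
    obtain ⟨P, hTP, hAP⟩ :=
      Cfsg.Agent.S0025.result A K hAK hcopAK (Or.inr hKs) q _ hTK hTq hAT
    exact ⟨P, hAP, D ⊔ (normalizer (D : Set G) ⊓ Q ⊓ centralizer {a}), le_sup_left,
      fun h => hR (le_sup_right.trans h), hTQ, hTP⟩
  obtain ⟨P₁, hAP₁, T₁, hDT₁, hT₁D, hT₁Q, hT₁P⟩ := key Q₁ hQ₁F hQ₁q hDQ₁ hR₁
  obtain ⟨P₂, hAP₂, T₂, hDT₂, hT₂D, hT₂Q, hT₂P⟩ := key Q₂ hQ₂F hQ₂q hDQ₂ hR₂
  obtain ⟨c, hcA, hc⟩ := Cfsg.Agent.S0024.result A K hAK hcopAK (Or.inr hKs) q P₁ P₂ hAP₁ hAP₂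
  have hS₁₂ : MulAut.conj (c : G) • (P₁ : Subgroup ↥K).map K.subtype =
      (P₂ : Subgroup ↥K).map K.subtype := by
    have h1 : MulAut.conj c • (P₁ : Subgroup ↥K) = (P₂ : Subgroup ↥K) :=
      congrArg (fun S : Sylow q ↥K => (S : Subgroup ↥K)) hc
    rw [← Cfsg.Agent.Helper1.map_subtype_conj_smul, h1]
  have hcC : (c : G) ∈ Cfsg.signalizerInf A θ := by
    unfold Cfsg.signalizerInf
    rw [Subgroup.mem_iInf]
    rintro ⟨b, hb, hb1⟩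
    apply hKθ b hb hb1
    exact Subgroup.mem_inf.mpr ⟨c.2,
      Subgroup.centralizer_le (Set.singleton_subset_iff.mpr hb) hcA⟩
  have hS₁F : (P₁ : Subgroup ↥K).map K.subtype ∈ Cfsg.signalizerFamily p A θ :=
    signalizerFamily_of_le p A θ hKF (Subgroup.map_subtype_le _)
      (fun b hb u hu => (Subgroup.mem_normalizer_iff.mp (hAP₁ hb) u).mp hu)
  have hS₁q : IsPGroup q ↥((P₁ : Subgroup ↥K).map K.subtype) := P₁.isPGroup'.map _
  obtain ⟨Q', hQ'm, hS₁Q'⟩ := exists_isMaxSig_ge p A θ q hS₁F hS₁q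
  refine ⟨Q', (c : G), T₁, T₂, hQ'm, hcC, hDT₁, hT₁D, hT₁Q, hT₁P.trans hS₁Q', hDT₂, hT₂D,
    hT₂Q, ?_⟩
  refine hT₂P.trans ?_
  rw [← hS₁₂]
  intro x hx
  rw [Cfsg.Agent.Helper1.mem_conj_smul] at hx ⊢
  exact hS₁Q' hx

/-- the transitivity theorem, by induction on the index of `Q₁ ⊓ Q₂` -/
theorem sig_trans_aux {G : Type u} [Group G] [Finite G] (p : ℕ) [hp : Fact p.Prime]
    (A : Subgroup G) (hA : Cfsg.IsElementaryAbelian p A) (hA3 : p ^ 3 ≤ Nat.card ↥A)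
    (θ : G → Subgroup G) (hθ : Cfsg.IsSolvableSignalizerFunctor p A θ) (q : ℕ)
    [hq : Fact q.Prime] :
    ∀ n : ℕ, ∀ Q₁ Q₂ : Subgroup G, IsMaxSig p A θ q Q₁ → IsMaxSig p A θ q Q₂ →
      Nat.card G - Nat.card ↥(Q₁ ⊓ Q₂ : Subgroup G) = n →
      ∃ c ∈ Cfsg.signalizerInf A θ, MulAut.conj c • Q₁ = Q₂ := by
  intro n
  induction n using Nat.strong_induction_on with
  | _ n ih =>
  intro Q₁ Q₂ hQ₁ hQ₂ hn
  obtain ⟨hQ₁F, hQ₁q, hQ₁max⟩ := id hQ₁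
  obtain ⟨hQ₂F, hQ₂q, hQ₂max⟩ := id hQ₂
  by_cases hD₁ : Q₁ ⊓ Q₂ = Q₁
  · have hle : Q₁ ≤ Q₂ := inf_eq_left.mp hD₁
    have h := hQ₁max Q₂ hQ₂F hQ₂q hle
    exact ⟨1, Subgroup.one_mem _, by rw [map_one, one_smul, h]⟩
  by_cases hD₂ : Q₁ ⊓ Q₂ = Q₂
  · have hle : Q₂ ≤ Q₁ := inf_eq_right.mp hD₂
    have h := hQ₂max Q₁ hQ₁F hQ₁q hle
    exact ⟨1, Subgroup.one_mem _, by rw [map_one, one_smul, h]⟩
  obtain ⟨hQ₁s, hQ₁p, hQ₁A, hQ₁θ⟩ := id hQ₁F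
  obtain ⟨hQ₂s, hQ₂p, hQ₂A, hQ₂θ⟩ := id hQ₂F
  have hqp : q ≠ p := by
    intro h
    apply hD₁
    have hcard : Nat.card ↥Q₁ = 1 := by
      obtain ⟨k, hk⟩ := hQ₁q.exists_card_eq
      rcases Nat.eq_zero_or_pos k with hk0 | hk0
      · rw [hk, hk0, pow_zero]
      · exfalso
        apply hQ₁p
        rw [hk, h]
        exact dvd_pow_self p hk0.ne'
    rw [Subgroup.eq_bot_of_card_eq Q₁ hcard, bot_inf_eq]
  have hAQ₁ : A ≤ normalizer (Q₁ : Set G) := le_normalizer_of_conj_inv A Q₁ hQ₁A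
  have hAQ₂ : A ≤ normalizer (Q₂ : Set G) := le_normalizer_of_conj_inv A Q₂ hQ₂A
  obtain ⟨a, haA, ha1, hR₁, hR₂⟩ :=
    exists_elt_cent_not_le p A hA hA3 q hqp Q₁ Q₂ hQ₁q hQ₂q hAQ₁ hAQ₂ hD₁ hD₂
  obtain ⟨Q', c, T₁, T₂, hQ'm, hcC, hDT₁, hT₁D, hT₁Q, hT₁Q', hDT₂, hT₂D, hT₂Q, hT₂Q'⟩ :=
    sig_step p A hA θ hθ q a haA ha1 (Q₁ ⊓ Q₂) Q₁ Q₂ (le_normalizer_inf' A Q₁ Q₂ hAQ₁ hAQ₂)
      hQ₁F hQ₁q inf_le_left hR₁ hQ₂F hQ₂q inf_le_right hR₂
  have hmeasure : ∀ (Q Q'' T : Subgroup G), ¬ T ≤ Q₁ ⊓ Q₂ → T ≤ Q → T ≤ Q'' →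
      Q₁ ⊓ Q₂ ≤ Q ⊓ Q'' → Nat.card G - Nat.card ↥(Q ⊓ Q'' : Subgroup G) < n := by
    intro Q Q'' T hTD hTQ hTQ' hDle
    have hlt : Nat.card ↥(Q₁ ⊓ Q₂ : Subgroup G) < Nat.card ↥(Q ⊓ Q'' : Subgroup G) := by
      by_contra hle
      push_neg at hle
      have heq := Subgroup.eq_of_le_of_card_ge hDle hle
      apply hTD
      rw [heq]
      exact le_inf hTQ hTQ'
    rw [← hn]
    exact Nat.sub_lt_sub_left (lt_of_lt_of_le hlt (Subgroup.card_le_card_group _)) hlt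
  obtain ⟨c₁, hc₁, h₁⟩ := ih _ (hmeasure Q₁ Q' T₁ hT₁D hT₁Q hT₁Q'
    (le_inf inf_le_left (hDT₁.trans hT₁Q'))) Q₁ Q' hQ₁ hQ'm rfl
  have hQ₂'m : IsMaxSig p A θ q (MulAut.conj c • Q') := isMaxSig_conj hθ.1 hQ'm hcC
  obtain ⟨c₂, hc₂, h₂⟩ := ih _ (hmeasure (MulAut.conj c • Q') Q₂ T₂ hT₂D hT₂Q' hT₂Q
    (le_inf (hDT₂.trans hT₂Q') inf_le_right)) (MulAut.conj c • Q') Q₂ hQ₂'m hQ₂ rfl
  refine ⟨c₂ * c * c₁, Subgroup.mul_mem _ (Subgroup.mul_mem _ hc₂ hcC) hc₁, ?_⟩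
  rw [← h₂, ← h₁, Cfsg.Agent.Helper1.conj_smul_smul, Cfsg.Agent.Helper1.conj_smul_smul]

end Cfsg.Agent.Helper9
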