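import Cfsg.Agent.Helper9.Layer4

set_option autoImplicit false
open Subgroup

namespace Cfsg.Agent.Helper9

/-- Conjugation by `g` as an isomorphism `C_G(y) ≃* C_G(g y g⁻¹)`. -/
def conjCent {G : Type*} [Group G] (g y : G) :
    ↥(centralizer ({y} : Set G)) ≃* ↥(centralizer ({g * y * g⁻¹} : Set G)) where
  toFun w := ⟨g * (w : G) * g⁻¹, by
    have hw : y * (w : G) = (w : G) * y := Subgroup.mem_centralizer_iff.mp w.2 y rfl
    rw [Subgroup.mem_centralizer_iff]
    intro h hh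
    rw [Set.mem_singleton_iff] at hh
    subst hh
    have e1 : g * y * g⁻¹ * (g * (w : G) * g⁻¹) = g * (y * (w : G)) * g⁻¹ := by group
    rw [e1, hw]; group⟩
  invFun w := ⟨g⁻¹ * (w : G) * g, by
    have hw : g * y * g⁻¹ * (w : G) = (w : G) * (g * y * g⁻¹) :=
      Subgroup.mem_centralizer_iff.mp w.2 _ rfl
    rw [Subgroup.mem_centralizer_iff]
    intro h hh
    rw [Set.mem_singleton_iff] at hh
    subst hh
    have e1 : h * (g⁻¹ * (w : G) * g) = g⁻¹ * (g * h * g⁻¹ * (w : G)) * g := by group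
    rw [e1, hw]; group⟩
  left_inv w := by
    apply Subtype.ext
    show g⁻¹ * (g * (w : G) * g⁻¹) * g = (w : G)
    group
  right_inv w := by
    apply Subtype.ext
    show g * (g⁻¹ * (w : G) * g) * g⁻¹ = (w : G)
    group
  map_mul' a b := by
    apply Subtype.ext
    show g * ((a : G) * (b : G)) * g⁻¹ = g * (a : G) * g⁻¹ * (g * (b : G) * g⁻¹)
    group

theorem component_subgroupOf_conj {G : Type*} [Group G] (g y : G) (L : Subgroup G)
    (hL : Cfsg.IsComponent (L.subgroupOf (centralizer ({y} : Set G)))) :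
    Cfsg.IsComponent ((L.map (MulAut.conj g).toMonoidHom).subgroupOf
      (centralizer ({g * y * g⁻¹} : Set G))) := by
  have h1 := component_map_equiv (conjCent g y) _ hL
  have h2 : (L.subgroupOf (centralizer ({y} : Set G))).map (conjCent g y).toMonoidHom =
      (L.map (MulAut.conj g).toMonoidHom).subgroupOf (centralizer ({g * y * g⁻¹} : Set G)) := by
    ext ⟨z, hz⟩
    simp only [Subgroup.mem_map, Subgroup.mem_subgroupOf]
    constructor
    · rintro ⟨⟨w, hw⟩, hwL, hwe⟩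
      have h3 : g * w * g⁻¹ = z := congrArg Subtype.val hwe
      exact ⟨w, hwL, h3⟩
    · rintro ⟨l, hl, hlz⟩
      have h3 : g * l * g⁻¹ = z := hlz
      refine ⟨(conjCent g y).symm ⟨z, hz⟩, ?_, (conjCent g y).apply_symm_apply _⟩
      show g⁻¹ * z * g ∈ L
      rw [← h3]
      have h4 : g⁻¹ * (g * l * g⁻¹) * g = l := by group
      rw [h4]; exact hl
  rw [← h2]; exact h1

theorem comm_of_components_subgroupOf {G : Type*} [Group G] [Finite G] (H K₁ K₂ : Subgroup G)
    (h1 : K₁ ≤ H) (h2 : K₂ ≤ H) (hK₁ : Cfsg.IsComponent (K₁.subgroupOf H))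
    (hK₂ : Cfsg.IsComponent (K₂.subgroupOf H)) (hne : K₁ ≠ K₂) : ⁅K₁, K₂⁆ = ⊥ := by
  have hne' : K₁.subgroupOf H ≠ K₂.subgroupOf H := by
    intro h
    apply hne
    have := Subgroup.subgroupOf_inj.mp h
    rwa [inf_eq_left.mpr h1, inf_eq_left.mpr h2] at this
  have h3 := components_commute hK₁ hK₂ hne'
  rw [Subgroup.commutator_eq_bot_iff_le_centralizer] at h3 ⊢
  intro a ha
  rw [Subgroup.mem_centralizer_iff]
  intro b hb
  have h4 : (⟨a, h1 ha⟩ : ↥H) ∈ K₁.subgroupOf H := Subgroup.mem_subgroupOf.mpr ha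
  have h5 : (⟨b, h2 hb⟩ : ↥H) ∈ K₂.subgroupOf H := Subgroup.mem_subgroupOf.mpr hb
  have h6 := Subgroup.mem_centralizer_iff.mp (h3 h4) ⟨b, h2 hb⟩ h5
  exact congrArg Subtype.val h6

end Cfsg.Agent.Helper9
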