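import Mathlib
import Cfsg.Prelude.Def_PLocal
import Cfsg.Agent.Helper9.Timmesfeld
import Cfsg.Agent.Helper9.Layer3

set_option autoImplicit false

namespace Cfsg.Agent.Helper9

open Subgroup
open scoped commutatorElement

variable {G : Type*} [Group G]

/-- In a nilpotent group, a subgroup `N` with `N ≤ ⁅N, ⊤⁆` is trivial. -/
theorem eq_bot_of_le_comm_top9 {N : Type*} [Group N] [Group.IsNilpotent N]
    (W : Subgroup N) (h : W ≤ ⁅W, (⊤ : Subgroup N)⁆) : W = ⊥ := by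
  have h1 : ∀ k : ℕ, W ≤ (⊤ : Subgroup N).lowerCentralSeries k := by
    intro k
    induction k with
    | zero => rw [Subgroup.lowerCentralSeries_zero]; exact le_top
    | succ k ih =>
      rw [Subgroup.lowerCentralSeries_succ]
      exact h.trans (Subgroup.commutator_mono ih le_rfl)
  obtain ⟨n, hn⟩ :=
    Subgroup.nilpotent_iff_lowerCentralSeries.mp (inferInstance : Group.IsNilpotent N)
  rw [eq_bot_iff, ← hn]
  exact h1 n

theorem eq_bot_of_le_comm_pgroup9 [Finite G] {p : ℕ} [Fact p.Prime] {W P' V : Subgroup G}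
    (hpg : IsPGroup p ↥(P' ⊔ V)) (hWV : W ≤ V) (hW : W ≤ ⁅W, P'⁆) : W = ⊥ := by
  obtain ⟨N, hN⟩ : ∃ N : Subgroup G, N = P' ⊔ V := ⟨_, rfl⟩
  rw [← hN] at hpg
  have hWN : W ≤ N := by rw [hN]; exact hWV.trans le_sup_right
  have hPN : P' ≤ N := by rw [hN]; exact le_sup_left
  haveI : Group.IsNilpotent ↥N := hpg.isNilpotent
  have h1 : W.subgroupOf N ≤ ⁅W.subgroupOf N, (⊤ : Subgroup ↥N)⁆ := by
    rw [← Subgroup.map_le_map_iff_of_injective N.subtype_injective, Subgroup.map_commutator,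
      Subgroup.map_subgroupOf_eq_of_le hWN]
    have h3 : (⊤ : Subgroup ↥N).map N.subtype = N := by
      rw [← MonoidHom.range_eq_map, Subgroup.range_subtype]
    rw [h3]
    exact hW.trans (Subgroup.commutator_mono le_rfl hPN)
  have h2 := eq_bot_of_le_comm_top9 _ h1
  rw [← Subgroup.map_subgroupOf_eq_of_le hWN, h2, Subgroup.map_bot]

theorem sylow_mul_cent9 [Finite G] {p : ℕ} [Fact p.Prime] {V A : Subgroup G}
    (hAV : A ≤ normalizer (V : Set G)) (hpow : ∀ a ∈ A, a ^ p ∈ centralizer (V : Set G))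
    (P : Sylow p ↥A) :
    ∀ a ∈ A, ∃ x ∈ (P : Subgroup ↥A).map A.subtype, ∃ c ∈ A ⊓ centralizer (V : Set G),
      a = x * c := by
  obtain ⟨C₀, hC₀⟩ : ∃ C₀ : Subgroup ↥A, C₀ = (centralizer (V : Set G)).subgroupOf A :=
    ⟨_, rfl⟩
  haveI hC₀n : C₀.Normal := by
    rw [hC₀]
    refine ⟨fun c hc a => ?_⟩
    rw [Subgroup.mem_subgroupOf] at hc ⊢
    refine Subgroup.mem_centralizer_iff.mpr fun v hv => ?_
    have hv' : (a : G)⁻¹ * v * (a : G) ∈ V := by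
      have h0 := (Subgroup.mem_normalizer_iff.mp (hAV (A.inv_mem a.2)) v).mp hv
      rwa [inv_inv] at h0
    have h1 := Subgroup.mem_centralizer_iff.mp hc _ hv'
    show v * ((a : G) * (c : G) * (a : G)⁻¹) = ((a : G) * (c : G) * (a : G)⁻¹) * v
    calc v * ((a : G) * (c : G) * (a : G)⁻¹)
        = (a : G) * (((a : G)⁻¹ * v * (a : G)) * (c : G)) * (a : G)⁻¹ := by group
      _ = (a : G) * ((c : G) * ((a : G)⁻¹ * v * (a : G))) * (a : G)⁻¹ := by rw [h1]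
      _ = ((a : G) * (c : G) * (a : G)⁻¹) * v := by group
  have hquot : IsPGroup p (↥A ⧸ C₀) := by
    intro q
    obtain ⟨a, rfl⟩ := QuotientGroup.mk_surjective q
    refine ⟨1, ?_⟩
    rw [pow_one, ← QuotientGroup.mk_pow, QuotientGroup.eq_one_iff, hC₀,
      Subgroup.mem_subgroupOf, Subgroup.coe_pow]
    exact hpow _ a.2
  obtain ⟨k, hk⟩ := IsPGroup.iff_card.mp hquot
  have hidx : C₀.index = p ^ k := hk
  have htop : (P : Subgroup ↥A) ⊔ C₀ = ⊤ := by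
    rw [← Subgroup.index_eq_one]
    have d1 : ((P : Subgroup ↥A) ⊔ C₀).index ∣ (P : Subgroup ↥A).index :=
      Subgroup.index_dvd_of_le le_sup_left
    have d2 : ((P : Subgroup ↥A) ⊔ C₀).index ∣ p ^ k := by
      rw [← hidx]; exact Subgroup.index_dvd_of_le le_sup_right
    obtain ⟨j, -, hj⟩ := (Nat.dvd_prime_pow Fact.out).mp d2
    rcases Nat.eq_zero_or_pos j with h0 | hpos
    · rw [hj, h0, pow_zero]
    · exfalso
      have h3 : p ∣ ((P : Subgroup ↥A) ⊔ C₀).index := by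
        rw [hj]; exact dvd_pow_self p hpos.ne'
      exact P.not_dvd_index (dvd_trans h3 d1)
  intro a ha
  have hmem : (⟨a, ha⟩ : ↥A) ∈ (P : Subgroup ↥A) ⊔ C₀ := by rw [htop]; exact Subgroup.mem_top _
  rw [← SetLike.mem_coe, Subgroup.mul_normal] at hmem
  obtain ⟨x, hx, c, hc, hxc⟩ := Set.mem_mul.mp hmem
  refine ⟨(x : G), ⟨x, hx, rfl⟩, (c : G), Subgroup.mem_inf.mpr ⟨c.2, ?_⟩, ?_⟩
  · have hc' : c ∈ C₀ := hc
    rw [hC₀] at hc'
    exact Subgroup.mem_subgroupOf.mp hc'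
  · have h4 : (x : G) * (c : G) = a := congrArg Subtype.val hxc
    exact h4.symm

theorem timmesfeld9 [Finite G] {p : ℕ} [Fact p.Prime] (V A : Subgroup G)
    (hV : Cfsg.IsElementaryAbelian p V) (hAV : A ≤ normalizer (V : Set G))
    (hA : Cfsg.IsBestOffenderOn p V A) (U : Subgroup G) (hU : U ≤ V) :
    Cfsg.IsBestOffenderOn p V (A ⊓ centralizer ((⁅U, A⁆ : Subgroup G) : Set G)) ∧
      V ⊓ centralizer ((A ⊓ centralizer ((⁅U, A⁆ : Subgroup G) : Set G) : Subgroup G) : Set G) =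
        ⁅U, A⁆ ⊔ (V ⊓ centralizer (A : Set G)) ∧
      (⁅V, A⁆ ≠ ⊥ → ⁅V, A ⊓ centralizer ((⁅U, A⁆ : Subgroup G) : Set G)⁆ ≠ ⊥) := by
  obtain ⟨hstar, hab, hpow⟩ := hA
  have hVc : ∀ x ∈ V, ∀ y ∈ V, x * y = y * x := by
    intro x hx y hy
    have h := hV.1.is_comm.comm ⟨x, hx⟩ ⟨y, hy⟩
    exact congrArg Subtype.val h
  obtain ⟨B', hB', hcase⟩ := thompson_repl9 V A hV hAV hab U hU
  rcases hcase with hlt | ⟨hBeq, eq1, eq2⟩
  · exact absurd (hstar B' hB') (not_le.mpr hlt)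
  rw [hBeq] at eq1 eq2
  refine ⟨⟨fun X hX => (hstar X (hX.trans inf_le_left)).trans (le_of_eq eq2),
    (Subgroup.commutator_mono inf_le_left inf_le_left).trans hab,
    fun a ha => hpow a (Subgroup.mem_inf.mp ha).1⟩, eq1, ?_⟩
  intro hVA hVB
  apply hVA
  have hVcent : V ≤ centralizer ((A ⊓ centralizer ((⁅U, A⁆ : Subgroup G) : Set G) : Subgroup G) : Set G) :=
    Subgroup.commutator_eq_bot_iff_le_centralizer.mp hVB
  have hVeq : V = ⁅U, A⁆ ⊔ (V ⊓ centralizer (A : Set G)) := by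
    rw [← eq1]; exact (inf_eq_left.mpr hVcent).symm
  obtain ⟨P⟩ : Nonempty (Sylow p ↥A) := inferInstance
  obtain ⟨P', hP'⟩ : ∃ P' : Subgroup G, P' = (P : Subgroup ↥A).map A.subtype := ⟨_, rfl⟩
  have hP'A : P' ≤ A := by rw [hP']; exact Subgroup.map_subtype_le _
  have hP'p : IsPGroup p ↥P' := by rw [hP']; exact P.isPGroup'.map _
  have hVp : IsPGroup p ↥V := by
    intro g
    refine ⟨1, Subtype.ext ?_⟩
    rw [pow_one, Subgroup.coe_pow]
    exact hV.2 _ g.2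
  have hpg : IsPGroup p ↥(P' ⊔ V) :=
    IsPGroup.to_sup_of_normal_right' hP'p hVp (hP'A.trans hAV)
  have hUAV : ⁅U, A⁆ ≤ ⁅V, A⁆ := Subgroup.commutator_mono hU le_rfl
  have hW1 : ⁅V, A⁆ ≤ ⁅V, P'⁆ := by
    rw [Subgroup.commutator_le]
    intro v hv a ha
    obtain ⟨x, hx, c, hc, rfl⟩ := sylow_mul_cent9 hAV hpow P a ha
    have hcv := Subgroup.mem_centralizer_iff.mp (Subgroup.mem_inf.mp hc).2 v⁻¹ (V.inv_mem hv)
    have e1 : ⁅v, x * c⁆ = ⁅v, x⁆ := by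
      rw [commutatorElement_def, commutatorElement_def]
      calc v * (x * c) * v⁻¹ * (x * c)⁻¹ = v * x * (c * v⁻¹) * c⁻¹ * x⁻¹ := by group
        _ = v * x * (v⁻¹ * c) * c⁻¹ * x⁻¹ := by rw [hcv]
        _ = v * x * v⁻¹ * x⁻¹ := by group
    rw [e1]
    exact Subgroup.commutator_mem_commutator hv (hP' ▸ hx)
  have hWV : ⁅V, P'⁆ ≤ V := by
    rw [Subgroup.commutator_le]
    intro v hv x hx
    have h4 : x * v⁻¹ * x⁻¹ ∈ V :=
      (Subgroup.mem_normalizer_iff.mp (hAV (hP'A hx)) _).mp (V.inv_mem hv)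
    have e : ⁅v, x⁆ = v * (x * v⁻¹ * x⁻¹) := by rw [commutatorElement_def]; group
    rw [e]
    exact V.mul_mem hv h4
  have hW2 : ⁅V, P'⁆ ≤ ⁅⁅V, P'⁆, P'⁆ := by
    rw [Subgroup.commutator_le]
    intro v hv x hx
    have hv' : v ∈ ⁅U, A⁆ ⊔ (V ⊓ centralizer (A : Set G)) := by rw [← hVeq]; exact hv
    have hUAV' : ⁅U, A⁆ ≤ V := hUAV.trans (hW1.trans hWV)
    obtain ⟨w, hw, c, hc, rfl⟩ := mem_sup_of_commute
      (fun a ha b hb => hVc a (hUAV' ha) b (Subgroup.mem_inf.mp hb).1) hv'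
    have hcx := Subgroup.mem_centralizer_iff.mp (Subgroup.mem_inf.mp hc).2 x (hP'A hx)
    have e1 : ⁅w * c, x⁆ = ⁅w, x⁆ := by
      rw [commutatorElement_def, commutatorElement_def]
      calc w * c * x * (w * c)⁻¹ * x⁻¹ = w * (c * x) * c⁻¹ * w⁻¹ * x⁻¹ := by group
        _ = w * (x * c) * c⁻¹ * w⁻¹ * x⁻¹ := by rw [hcx]
        _ = w * x * w⁻¹ * x⁻¹ := by group
    rw [e1]
    exact Subgroup.commutator_mem_commutator (hW1 (hUAV hw)) hx
  have hWbot := eq_bot_of_le_comm_pgroup9 hpg hWV hW2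
  rw [eq_bot_iff, ← hWbot]
  exact hW1

end Cfsg.Agent.Helper9
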