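import Mathlib
import Cfsg.Prelude.Def_Local
import Cfsg.Prelude.Def_Transfer
import Cfsg.Prelude.Def_CaseTheorems
import Cfsg.Prelude.Def_OddOrderLocal
import Cfsg.Agent.Helper9.Trans
import Cfsg.Agent.Helper9.PLocal

set_option autoImplicit false

namespace Cfsg.Agent.Helper9

open Subgroup
open scoped commutatorElement

universe u

theorem isPGroup_of_primes9 {G : Type*} [Group G] [Finite G] {q : ℕ} [Fact q.Prime]
    (Q : Subgroup G)
    (h : ∀ r : ℕ, r.Prime → r ∣ Nat.card ↥Q → r ∈ ({q} : Set ℕ)) : IsPGroup q ↥Q := by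
  have hpos : Nat.card ↥Q ≠ 0 := Nat.card_pos.ne'
  have h1 := Nat.eq_prime_pow_of_unique_prime_dvd (p := q) hpos (fun {d} hd hdd => h d hd hdd)
  exact IsPGroup.of_card h1

theorem primes_of_isPGroup9 {G : Type*} [Group G] [Finite G] {q : ℕ} [Fact q.Prime]
    (R : Subgroup G) (hR : IsPGroup q ↥R) :
    ∀ r : ℕ, r.Prime → r ∣ Nat.card ↥R → r ∈ ({q} : Set ℕ) := by
  intro r hr hrd
  obtain ⟨k, hk⟩ := IsPGroup.iff_card.mp hR
  rw [hk] at hrd
  exact (Nat.prime_dvd_prime_iff_eq hr Fact.out).mp (hr.dvd_of_dvd_pow hrd)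

theorem maxInv_of_mem9 {G : Type u} [Group G] [Finite G] {q : ℕ} [Fact q.Prime]
    (E Q : Subgroup G) (hQ : Q ∈ Cfsg.maxInvSubgroups ⊤ E {q}) : IsMaxInv9 E q Q := by
  obtain ⟨⟨-, hQq, hQE⟩, hmax⟩ := hQ
  refine ⟨isPGroup_of_primes9 Q hQq, hQE, ?_⟩
  intro R hRq hRE hQR
  exact hmax R ⟨le_top, primes_of_isPGroup9 R hRq, hRE⟩ hQR

theorem mem_maxInv_of9 {G : Type u} [Group G] [Finite G] {q : ℕ} [Fact q.Prime]
    (E Q : Subgroup G) (hQ : IsMaxInv9 E q Q) : Q ∈ Cfsg.maxInvSubgroups ⊤ E {q} := by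
  obtain ⟨hQq, hQE, hmax⟩ := hQ
  refine ⟨⟨le_top, primes_of_isPGroup9 Q hQq, hQE⟩, ?_⟩
  rintro R ⟨-, hRq, hRE⟩ hQR
  exact hmax R (isPGroup_of_primes9 R hRq) hRE hQR

theorem exists_elem_of_not_prankle9 {G : Type u} [Group G] [Finite G] {p : ℕ} [Fact p.Prime]
    (E : Subgroup G) (hEp : IsPGroup p ↥E) (hE3 : ¬ Cfsg.PRankLE p 2 ↥E) :
    ∃ E₁ : Subgroup G, E₁ ≤ E ∧ (∀ e ∈ E₁, e ^ p = 1) ∧ p ^ 3 ≤ Nat.card ↥E₁ := by
  unfold Cfsg.PRankLE at hE3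
  push Not at hE3
  obtain ⟨A, -, hAexp, hAcard⟩ := hE3
  refine ⟨A.map E.subtype, Subgroup.map_subtype_le _, ?_, ?_⟩
  · rintro e ⟨a, ha, rfl⟩
    have h0 := congrArg Subtype.val (hAexp a ha)
    rw [Subgroup.coe_pow, Subgroup.coe_one] at h0
    exact h0
  · rw [Subgroup.card_map_of_injective E.subtype_injective]
    have hA : IsPGroup p ↥A := hEp.to_subgroup A
    obtain ⟨k, hk⟩ := IsPGroup.iff_card.mp hA
    rw [hk] at hAcard ⊢
    have hp : p.Prime := Fact.out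
    have h2k : 2 < k := (Nat.pow_lt_pow_iff_right hp.one_lt).mp hAcard
    exact Nat.pow_le_pow_right hp.pos h2k

theorem class_two_of_sylow9 {G : Type u} [Group G] [Finite G] {p : ℕ} [Fact p.Prime]
    (h2 : ∀ S : Sylow p G, Group.IsNilpotent ↥(S : Subgroup G) ∧
      Group.nilpotencyClass ↥(S : Subgroup G) ≤ 2) :
    ∀ U : Subgroup G, IsPGroup p ↥U → ∀ x ∈ U, ∀ y ∈ U, ∀ z ∈ U,
      z * ⁅x, y⁆ = ⁅x, y⁆ * z := by
  intro U hU x hx y hy z hz
  obtain ⟨S, hUS⟩ := hU.exists_le_sylow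
  obtain ⟨hnil, hcl⟩ := h2 S
  haveI := hnil
  obtain ⟨x', hx'⟩ : ∃ x' : ↥(S : Subgroup G), x' = ⟨x, hUS hx⟩ := ⟨_, rfl⟩
  obtain ⟨y', hy'⟩ : ∃ y' : ↥(S : Subgroup G), y' = ⟨y, hUS hy⟩ := ⟨_, rfl⟩
  obtain ⟨z', hz'⟩ : ∃ z' : ↥(S : Subgroup G), z' = ⟨z, hUS hz⟩ := ⟨_, rfl⟩
  have hmem : ⁅⁅x', y'⁆, z'⁆ ∈ (⊤ : Subgroup ↥(S : Subgroup G)).lowerCentralSeries 2 := by
    show ⁅⁅x', y'⁆, z'⁆ ∈ ⁅⁅(⊤ : Subgroup ↥(S : Subgroup G)), ⊤⁆, ⊤⁆
    exact Subgroup.commutator_mem_commutator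
      (Subgroup.commutator_mem_commutator (Subgroup.mem_top _) (Subgroup.mem_top _))
      (Subgroup.mem_top _)
  have hbot : (⊤ : Subgroup ↥(S : Subgroup G)).lowerCentralSeries 2 = ⊥ := by
    have h3 := Subgroup.lowerCentralSeries_antitone (⊤ : Subgroup ↥(S : Subgroup G)) hcl
    rw [Subgroup.lowerCentralSeries_nilpotencyClass] at h3
    exact le_bot_iff.mp h3
  rw [hbot, Subgroup.mem_bot, commutatorElement_eq_one_iff_mul_comm] at hmem
  have e : ((⁅x', y'⁆ : ↥(S : Subgroup G)) : G) = ⁅x, y⁆ := by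
    rw [hx', hy']
    exact map_commutatorElement (S : Subgroup G).subtype ⟨x, hUS hx⟩ ⟨y, hUS hy⟩
  have h0 := congrArg Subtype.val hmem
  rw [Subgroup.coe_mul, Subgroup.coe_mul, e, hz'] at h0
  exact h0.symm

/-- The transitivity theorem for `p`-constrained local subgroups. -/
theorem transitivity_pconstrained9 {G : Type u} [Group G] [Finite G] (p : ℕ) [Fact p.Prime]
    (hloc : ∀ T : Subgroup G, IsPGroup p T → T ≠ ⊥ →
      Cfsg.IsPConstrained p ↥(Subgroup.normalizer (T : Set G)))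
    (h2 : p = 2 → ∀ S : Sylow p G, Group.IsNilpotent (S : Subgroup G) ∧
      Group.nilpotencyClass (S : Subgroup G) ≤ 2)
    (E : Subgroup G) (hEp : IsPGroup p E) (hEc : IsMulCommutative E)
    (hE3 : ¬ Cfsg.PRankLE p 2 E)
    (hEfull : ∀ x ∈ Subgroup.centralizer (E : Set G), IsPGroup p (Subgroup.zpowers x) → x ∈ E)
    (q : ℕ) [Fact q.Prime] (hqp : q ≠ p) :
    ∀ Q₁ ∈ Cfsg.maxInvSubgroups ⊤ E {q}, ∀ Q₂ ∈ Cfsg.maxInvSubgroups ⊤ E {q},
        ∃ k ∈ Cfsg.piCoreOf (Cfsg.primesNotDvd p) (Subgroup.centralizer (E : Set G)),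
          Q₂ = Q₁.map (MulAut.conj k).toMonoidHom := by
  intro Q₁ hQ₁ Q₂ hQ₂
  have hp : p.Prime := Fact.out
  have h₁ := maxInv_of_mem9 E Q₁ hQ₁
  have h₂ := maxInv_of_mem9 E Q₂ hQ₂
  obtain ⟨E₁, hE₁E, hE₁exp, hE₁card⟩ := exists_elem_of_not_prankle9 E hEp hE3
  have hEcomm : ∀ x ∈ E, ∀ y ∈ E, x * y = y * x := by
    intro x hx y hy
    have h0 := hEc.is_comm.comm (⟨x, hx⟩ : ↥E) ⟨y, hy⟩
    exact congrArg Subtype.val h0
  have hEZ : E ≤ centralizer (E : Set G) := by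
    intro x hx
    rw [Subgroup.mem_centralizer_iff]
    intro y hy
    exact hEcomm y hy x hx
  have hpg : ∀ x : G, (∃ j : ℕ, x ^ p ^ j = 1) → IsPGroup p ↥(zpowers x) := by
    rintro x ⟨j, hj⟩
    rintro ⟨y, hy⟩
    obtain ⟨k, rfl⟩ := Subgroup.mem_zpowers_iff.mp hy
    refine ⟨j, ?_⟩
    apply Subtype.ext
    show (x ^ k) ^ p ^ j = 1
    rw [← zpow_natCast, ← zpow_mul, mul_comm, zpow_mul, zpow_natCast, hj, one_zpow]
  have hcase : (p ≠ 2 ∧ ∀ x ∈ centralizer (E : Set G), x ^ p = 1 → x ∈ E) ∨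
      ((∀ x ∈ centralizer (E : Set G), (∃ j : ℕ, x ^ p ^ j = 1) → x ∈ E) ∧
        ∀ U : Subgroup G, IsPGroup p ↥U → ∀ x ∈ U, ∀ y ∈ U, ∀ z ∈ U,
          z * ⁅x, y⁆ = ⁅x, y⁆ * z) := by
    by_cases hp2 : p = 2
    · right
      exact ⟨fun x hx hj => hEfull x hx (hpg x hj), class_two_of_sylow9 (h2 hp2)⟩
    · left
      exact ⟨hp2, fun x hx hxp => hEfull x hx (hpg x ⟨1, by rw [pow_one]; exact hxp⟩)⟩
  have hEne : E ≠ ⊥ := by
    intro h
    have hE₁bot : E₁ = ⊥ := le_bot_iff.mp (h ▸ hE₁E)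
    have h1 : Nat.card ↥E₁ = 1 := by rw [hE₁bot, Subgroup.card_bot]
    have h3 : 1 < p ^ 3 := Nat.one_lt_pow (by norm_num) hp.one_lt
    omega
  obtain ⟨O, hOc, hON, hNO, hOmax⟩ :=
    local_core9 E hEp E le_normalizer (hloc E hEp hEne) hcase
  have hZN : centralizer (E : Set G) ≤ normalizer (E : Set G) :=
    Subgroup.centralizer_le_normalizer _
  have hC : ∀ L : Subgroup G, (Nat.card ↥L).Coprime p → E ≤ normalizer (L : Set G) →
      L ⊓ centralizer (E : Set G) ≤ O ⊓ centralizer (E : Set G) := by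
    intro L hLc hEL
    refine le_inf ?_ inf_le_right
    apply hOmax (L ⊓ centralizer (E : Set G)) (inf_le_right.trans hZN)
    · exact Nat.Coprime.coprime_dvd_left (Subgroup.card_dvd_of_le inf_le_left) hLc
    · exact le_normalizer_inf9 E L (centralizer (E : Set G)) hEL (hEZ.trans le_normalizer)
  have hloc' : ∀ a ∈ E₁, a ≠ 1 → ∃ O' : Subgroup G, (Nat.card ↥O').Coprime p ∧
      E ≤ normalizer (O' : Set G) ∧ ∀ K : Subgroup G, K ≤ centralizer ({a} : Set G) →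
        (Nat.card ↥K).Coprime p → E ≤ normalizer (K : Set G) → K ≤ O' := by
    intro a ha ha1
    have haE : a ∈ E := hE₁E ha
    have hTp : IsPGroup p ↥(zpowers a) := hEp.to_le (Subgroup.zpowers_le.mpr haE)
    have hTne : zpowers a ≠ ⊥ := Subgroup.zpowers_ne_bot.mpr ha1
    have hCN : centralizer ({a} : Set G) ≤ normalizer ((zpowers a : Subgroup G) : Set G) :=
      (centralizer_singleton_le_centralizer_zpowers a).trans
        (Subgroup.centralizer_le_normalizer _)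
    have hET : E ≤ normalizer ((zpowers a : Subgroup G) : Set G) := by
      intro e he
      apply hCN
      rw [Subgroup.mem_centralizer_iff]
      intro h hh
      rw [Set.mem_singleton_iff] at hh
      rw [hh]
      exact hEcomm a haE e he
    obtain ⟨O', hO'c, -, hNO', hO'max⟩ :=
      local_core9 E hEp (zpowers a) hET (hloc (zpowers a) hTp hTne) hcase
    exact ⟨O', hO'c, hET.trans hNO', fun K hKa hKc hEK => hO'max K (hKa.trans hCN) hKc hEK⟩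
  obtain ⟨c, hc, hQ⟩ := transitivity9 hqp E E₁ (O ⊓ centralizer (E : Set G)) hEp hEcomm hE₁E
    hE₁exp hE₁card hC hloc' _ Q₁ Q₂ h₁ h₂ rfl
  refine ⟨c, ?_, hQ⟩
  obtain ⟨hcO, hcZ⟩ := Subgroup.mem_inf.mp hc
  generalize hZ : centralizer (E : Set G) = Z at hcZ hZN ⊢
  have hnormal : (O.subgroupOf Z).Normal := by
    constructor
    intro n hn g
    rw [Subgroup.mem_subgroupOf] at hn ⊢
    have hg : (g : G) ∈ normalizer (O : Set G) := hNO (hZN g.2)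
    exact (Subgroup.mem_normalizer_iff.mp hg (n : G)).mp hn
  have hprimes : ∀ r : ℕ, r.Prime → r ∣ Nat.card ↥(O.subgroupOf Z) →
      r ∈ Cfsg.primesNotDvd p := by
    intro r hr hrd
    refine ⟨hr, ?_⟩
    intro hrp
    have h1 : Nat.card ↥(O.subgroupOf Z) ∣ Nat.card ↥O := by
      rw [← Subgroup.card_map_of_injective Z.subtype_injective, Subgroup.subgroupOf_map_subtype]
      exact Subgroup.card_dvd_of_le inf_le_left
    have h2 : r ∣ Nat.gcd (Nat.card ↥O) p := Nat.dvd_gcd (hrd.trans h1) hrp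
    have h3 : Nat.gcd (Nat.card ↥O) p = 1 := hOc
    rw [h3] at h2
    exact hr.one_lt.ne' (Nat.dvd_one.mp h2)
  have hle : O.subgroupOf Z ≤ Cfsg.piCore (Cfsg.primesNotDvd p) ↥Z :=
    le_sSup ⟨hnormal, hprimes⟩
  exact ⟨⟨c, hcZ⟩, hle (Subgroup.mem_subgroupOf.mpr hcO), rfl⟩

end Cfsg.Agent.Helper9
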