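import Mathlib
import Cfsg.Prelude.Def_Local
import Cfsg.Prelude.Def_Transfer
import Cfsg.Prelude.Def_CaseTheorems
import Cfsg.Prelude.Def_OddOrder
import Cfsg.Prelude.Def_OddOrderLocal
import Cfsg.Agent.Helper9.Trans
import Cfsg.Agent.Helper9.Trans2
import Cfsg.Agent.Helper9.Trans3
import Cfsg.Agent.Helper9.PiCore

set_option autoImplicit false

namespace Cfsg.Agent.Helper9

open Subgroup
open scoped commutatorElement Pointwise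

universe u

theorem conj_compose9 {G : Type*} [Group G] (Q₁ Q₂ Q₃ : Subgroup G) (c c₁ c₂ : G)
    (hc₁ : Q₃ = Q₁.map (MulAut.conj c₁).toMonoidHom)
    (hc₂ : Q₂.map (MulAut.conj c).toMonoidHom = Q₃.map (MulAut.conj c₂).toMonoidHom) :
    Q₂ = Q₁.map (MulAut.conj (c⁻¹ * c₂ * c₁)).toMonoidHom := by
  have h2 : (Q₂.map (MulAut.conj c).toMonoidHom).map (MulAut.conj c⁻¹).toMonoidHom = Q₂ :=
    map_conj_inv_map_conj9 Q₂ c
  rw [← h2, hc₂, hc₁, ← Cfsg.Agent.Helper1.conj_smul_eq_map,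
    ← Cfsg.Agent.Helper1.conj_smul_eq_map, ← Cfsg.Agent.Helper1.conj_smul_eq_map,
    ← Cfsg.Agent.Helper1.conj_smul_eq_map, Cfsg.Agent.Helper1.conj_smul_smul,
    Cfsg.Agent.Helper1.conj_smul_smul]

/-- Abstract induction scheme for transitivity theorems. -/
theorem trans_abs9 {G : Type u} [Group G] [Finite G] (E C : Subgroup G) (q : ℕ) (m : ℕ)
    (hCE : C ≤ centralizer (E : Set G))
    (hstep : ∀ Q₁ Q₂ : Subgroup G, IsMaxInv9 E q Q₁ → IsMaxInv9 E q Q₂ → ¬ Q₁ ≤ Q₂ →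
      ¬ Q₂ ≤ Q₁ → m < Nat.card ↥(Q₁ ⊓ Q₂) → ∃ c ∈ C, ∃ Q₃ : Subgroup G, IsMaxInv9 E q Q₃ ∧
        Nat.card ↥(Q₁ ⊓ Q₂) < Nat.card ↥(Q₁ ⊓ Q₃) ∧
        Nat.card ↥(Q₁ ⊓ Q₂) < Nat.card ↥(Q₃ ⊓ Q₂.map (MulAut.conj c).toMonoidHom)) :
    ∀ (n : ℕ) (Q₁ Q₂ : Subgroup G), IsMaxInv9 E q Q₁ → IsMaxInv9 E q Q₂ →
      m < Nat.card ↥(Q₁ ⊓ Q₂) → Nat.card G - Nat.card ↥(Q₁ ⊓ Q₂) = n →
      ∃ c ∈ C, Q₂ = Q₁.map (MulAut.conj c).toMonoidHom := by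
  intro n
  induction n using Nat.strong_induction_on with
  | _ n ih =>
  intro Q₁ Q₂ hQ₁ hQ₂ hm hn
  by_cases h12 : Q₁ ≤ Q₂
  · have h0 := hQ₁.2.2 Q₂ hQ₂.1 hQ₂.2.1 h12
    refine ⟨1, C.one_mem, ?_⟩
    rw [h0, ← Cfsg.Agent.Helper1.conj_smul_eq_map, map_one, one_smul]
  by_cases h21 : Q₂ ≤ Q₁
  · have h0 := hQ₂.2.2 Q₁ hQ₁.1 hQ₁.2.1 h21
    refine ⟨1, C.one_mem, ?_⟩
    rw [h0, ← Cfsg.Agent.Helper1.conj_smul_eq_map, map_one, one_smul]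
  obtain ⟨c, hcC, Q₃, hQ₃, hc1, hc2⟩ := hstep Q₁ Q₂ hQ₁ hQ₂ h12 h21 hm
  have hcE : c ∈ centralizer (E : Set G) := hCE hcC
  have hm₁ : Nat.card G - Nat.card ↥(Q₁ ⊓ Q₃) < n := by
    have hG1 : Nat.card ↥(Q₁ ⊓ Q₃) ≤ Nat.card G := Subgroup.card_le_card_group (Q₁ ⊓ Q₃)
    rw [← hn]; omega
  obtain ⟨c₁, hc₁C, hc₁⟩ := ih _ hm₁ Q₁ Q₃ hQ₁ hQ₃ (hm.trans hc1) rfl
  obtain ⟨Q₂', hQ₂'⟩ : ∃ Q₂' : Subgroup G, Q₂' = Q₂.map (MulAut.conj c).toMonoidHom :=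
    ⟨_, rfl⟩
  have hQ₂'max : IsMaxInv9 E q Q₂' := by rw [hQ₂']; exact maxInv_conj9 E q Q₂ hQ₂ c hcE
  rw [← hQ₂'] at hc2
  have hm₂ : Nat.card G - Nat.card ↥(Q₃ ⊓ Q₂') < n := by
    have hG2 : Nat.card ↥(Q₃ ⊓ Q₂') ≤ Nat.card G := Subgroup.card_le_card_group (Q₃ ⊓ Q₂')
    rw [← hn]; omega
  obtain ⟨c₂, hc₂C, hc₂⟩ := ih _ hm₂ Q₃ Q₂' hQ₃ hQ₂'max (hm.trans hc2) rfl
  exact ⟨c⁻¹ * c₂ * c₁, C.mul_mem (C.mul_mem (C.inv_mem hcC) hc₂C) hc₁C,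
    conj_compose9 Q₁ Q₂ Q₃ c c₁ c₂ hc₁ (by rw [← hQ₂']; exact hc₂)⟩

/-- Local conjugacy: any two `E`-invariant `q`-subgroups of `H` can be put in a common
`E`-invariant `q`-subgroup after conjugating one of them by an element of `C`. -/
def LocConj9 {G : Type*} [Group G] (E : Subgroup G) (q : ℕ) (C H : Subgroup G) : Prop :=
  ∀ S₁ S₂ : Subgroup G, S₁ ≤ H → S₂ ≤ H → IsPGroup q ↥S₁ → IsPGroup q ↥S₂ →
    E ≤ normalizer (S₁ : Set G) → E ≤ normalizer (S₂ : Set G) →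
    ∃ c ∈ C, ∃ T : Subgroup G, T ≤ H ∧ IsPGroup q ↥T ∧ E ≤ normalizer (T : Set G) ∧ S₁ ≤ T ∧
      S₂.map (MulAut.conj c).toMonoidHom ≤ T

theorem conj_injective9 {G : Type*} [Group G] (c : G) :
    Function.Injective ((MulAut.conj c).toMonoidHom : G → G) :=
  (MulAut.conj c).injective

theorem trans_meet9 {G : Type u} [Group G] [Finite G] (E C : Subgroup G) (q : ℕ)
    [Fact q.Prime] (hCE : C ≤ centralizer (E : Set G))
    (hloc : ∀ D : Subgroup G, D ≠ ⊥ → IsPGroup q ↥D → E ≤ normalizer (D : Set G) →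
      LocConj9 E q C (normalizer (D : Set G)))
    (Q₁ Q₂ : Subgroup G) (hQ₁ : IsMaxInv9 E q Q₁) (hQ₂ : IsMaxInv9 E q Q₂)
    (hne : Q₁ ⊓ Q₂ ≠ ⊥) :
    ∃ c ∈ C, Q₂ = Q₁.map (MulAut.conj c).toMonoidHom := by
  have hm : 1 < Nat.card ↥(Q₁ ⊓ Q₂) := (Q₁ ⊓ Q₂).one_lt_card_iff_ne_bot.mpr hne
  refine trans_abs9 E C q 1 hCE ?_ _ Q₁ Q₂ hQ₁ hQ₂ hm rfl
  clear hm hne hQ₁ hQ₂ Q₁ Q₂
  intro Q₁ Q₂ hQ₁ hQ₂ h12 h21 hm
  obtain ⟨hQ₁q, hQ₁E, hQ₁max⟩ := hQ₁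
  obtain ⟨hQ₂q, hQ₂E, hQ₂max⟩ := hQ₂
  obtain ⟨D, hD⟩ : ∃ D : Subgroup G, D = Q₁ ⊓ Q₂ := ⟨_, rfl⟩
  rw [← hD] at hm ⊢
  have hDne : D ≠ ⊥ := D.one_lt_card_iff_ne_bot.mp hm
  have hDQ₁ : D ≤ Q₁ := by rw [hD]; exact inf_le_left
  have hDQ₂ : D ≤ Q₂ := by rw [hD]; exact inf_le_right
  have hDlt₁ : D < Q₁ := lt_of_le_of_ne hDQ₁ (fun h => h12 (by rw [← h]; exact hDQ₂))
  have hDlt₂ : D < Q₂ := lt_of_le_of_ne hDQ₂ (fun h => h21 (by rw [← h]; exact hDQ₁))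
  have hED : E ≤ normalizer (D : Set G) := by
    rw [hD]; exact le_normalizer_inf9 E Q₁ Q₂ hQ₁E hQ₂E
  have hDq : IsPGroup q ↥D := hQ₁q.to_le hDQ₁
  obtain ⟨R₁, hR₁⟩ : ∃ R₁ : Subgroup G, R₁ = Q₁ ⊓ normalizer (D : Set G) := ⟨_, rfl⟩
  obtain ⟨R₂, hR₂⟩ : ∃ R₂ : Subgroup G, R₂ = Q₂ ⊓ normalizer (D : Set G) := ⟨_, rfl⟩
  have hR₁D : ¬ R₁ ≤ D := by rw [hR₁]; exact normalizer_grow9 hQ₁q hDlt₁
  have hR₂D : ¬ R₂ ≤ D := by rw [hR₂]; exact normalizer_grow9 hQ₂q hDlt₂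
  have hER₁ : E ≤ normalizer (R₁ : Set G) := by
    rw [hR₁]; exact Cfsg.Agent.Helper1.le_normalizer_inf_normalizer E Q₁ D hQ₁E hED
  have hER₂ : E ≤ normalizer (R₂ : Set G) := by
    rw [hR₂]; exact Cfsg.Agent.Helper1.le_normalizer_inf_normalizer E Q₂ D hQ₂E hED
  have hR₁q : IsPGroup q ↥R₁ := hQ₁q.to_le (by rw [hR₁]; exact inf_le_left)
  have hR₂q : IsPGroup q ↥R₂ := hQ₂q.to_le (by rw [hR₂]; exact inf_le_left)
  have hDR₁ : D ≤ R₁ := by rw [hR₁]; exact le_inf hDQ₁ Subgroup.le_normalizer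
  have hDR₂ : D ≤ R₂ := by rw [hR₂]; exact le_inf hDQ₂ Subgroup.le_normalizer
  obtain ⟨c, hcC, T, -, hTq, hET, hR₁T, hR₂T⟩ := hloc D hDne hDq hED R₁ R₂
    (by rw [hR₁]; exact inf_le_right) (by rw [hR₂]; exact inf_le_right) hR₁q hR₂q hER₁ hER₂
  obtain ⟨Q₃, hQ₃, hTQ₃⟩ := exists_maxInv_ge9 E q T hTq hET
  refine ⟨c, hcC, Q₃, hQ₃, ?_, ?_⟩
  · have hle : R₁ ≤ Q₁ ⊓ Q₃ := le_inf (by rw [hR₁]; exact inf_le_left) (hR₁T.trans hTQ₃)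
    have hlt : D < R₁ := lt_of_le_of_ne hDR₁ (fun h => hR₁D (le_of_eq h.symm))
    exact lt_of_lt_of_le (card_lt_of_lt hlt) (Subgroup.card_le_of_le hle)
  · have hle : R₂.map (MulAut.conj c).toMonoidHom ≤
        Q₃ ⊓ Q₂.map (MulAut.conj c).toMonoidHom :=
      le_inf (hR₂T.trans hTQ₃) (Subgroup.map_mono (by rw [hR₂]; exact inf_le_left))
    have hlt : D < R₂ := lt_of_le_of_ne hDR₂ (fun h => hR₂D (le_of_eq h.symm))
    have hcard : Nat.card ↥(R₂.map (MulAut.conj c).toMonoidHom) = Nat.card ↥R₂ :=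
      Subgroup.card_map_of_injective (conj_injective9 c)
    calc Nat.card ↥D < Nat.card ↥R₂ := card_lt_of_lt hlt
      _ = Nat.card ↥(R₂.map (MulAut.conj c).toMonoidHom) := hcard.symm
      _ ≤ _ := Subgroup.card_le_of_le hle

theorem trans_meet_sub9 {G : Type u} [Group G] [Finite G] (E C : Subgroup G) (q : ℕ)
    [Fact q.Prime] (hCE : C ≤ centralizer (E : Set G))
    (hloc : ∀ D : Subgroup G, D ≠ ⊥ → IsPGroup q ↥D → E ≤ normalizer (D : Set G) →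
      LocConj9 E q C (normalizer (D : Set G)))
    (H : Subgroup G) (hEH : E ≤ normalizer (H : Set G)) (hH : LocConj9 E q C H)
    (Q₁ Q₂ : Subgroup G) (hQ₁ : IsMaxInv9 E q Q₁) (hQ₂ : IsMaxInv9 E q Q₂)
    (h₁ : H ⊓ Q₁ ≠ ⊥) (h₂ : H ⊓ Q₂ ≠ ⊥) :
    ∃ c ∈ C, Q₂ = Q₁.map (MulAut.conj c).toMonoidHom := by
  obtain ⟨c, hcC, T, -, hTq, hET, hS₁T, hS₂T⟩ := hH (H ⊓ Q₁) (H ⊓ Q₂) inf_le_left inf_le_left
    (hQ₁.1.to_le inf_le_right) (hQ₂.1.to_le inf_le_right)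
    (le_normalizer_inf9 E H Q₁ hEH hQ₁.2.1) (le_normalizer_inf9 E H Q₂ hEH hQ₂.2.1)
  obtain ⟨Q₃, hQ₃, hTQ₃⟩ := exists_maxInv_ge9 E q T hTq hET
  have hcE : c ∈ centralizer (E : Set G) := hCE hcC
  have hne₁ : Q₁ ⊓ Q₃ ≠ ⊥ := by
    intro h
    apply h₁
    rw [eq_bot_iff, ← h]
    exact le_inf inf_le_right (hS₁T.trans hTQ₃)
  obtain ⟨c₁, hc₁C, hc₁⟩ := trans_meet9 E C q hCE hloc Q₁ Q₃ hQ₁ hQ₃ hne₁
  obtain ⟨Q₂', hQ₂'⟩ : ∃ Q₂' : Subgroup G, Q₂' = Q₂.map (MulAut.conj c).toMonoidHom :=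
    ⟨_, rfl⟩
  have hQ₂'max : IsMaxInv9 E q Q₂' := by rw [hQ₂']; exact maxInv_conj9 E q Q₂ hQ₂ c hcE
  have hne₂ : Q₃ ⊓ Q₂' ≠ ⊥ := by
    intro h
    have hle : (H ⊓ Q₂).map (MulAut.conj c).toMonoidHom ≤ Q₃ ⊓ Q₂' :=
      le_inf (hS₂T.trans hTQ₃) (by rw [hQ₂']; exact Subgroup.map_mono inf_le_right)
    rw [h, le_bot_iff] at hle
    exact h₂ ((Subgroup.map_eq_bot_iff_of_injective _ (conj_injective9 c)).mp hle)
  obtain ⟨c₂, hc₂C, hc₂⟩ := trans_meet9 E C q hCE hloc Q₃ Q₂' hQ₃ hQ₂'max hne₂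
  exact ⟨c⁻¹ * c₂ * c₁, C.mul_mem (C.mul_mem (C.inv_mem hcC) hc₂C) hc₁C,
    conj_compose9 Q₁ Q₂ Q₃ c c₁ c₂ hc₁ (by rw [← hQ₂']; exact hc₂)⟩

theorem exists_elem_of_not_prankle_gen9 {G : Type u} [Group G] [Finite G] {p : ℕ}
    [Fact p.Prime] (Z : Subgroup G) (k : ℕ) (h : ¬ Cfsg.PRankLE p k ↥Z) :
    ∃ B : Subgroup G, B ≤ Z ∧ Cfsg.IsElementaryAbelian p B ∧ p ^ (k + 1) ≤ Nat.card ↥B := by
  unfold Cfsg.PRankLE at h
  push Not at h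
  obtain ⟨B', hB'c, hB'exp, hB'card⟩ := h
  have hp : p.Prime := Fact.out
  have hB'p : IsPGroup p ↥B' := by
    rintro ⟨b, hb⟩
    refine ⟨1, ?_⟩
    apply Subtype.ext
    show b ^ p ^ 1 = 1
    rw [pow_one]; exact hB'exp b hb
  have hcomm : ∀ x ∈ B'.map Z.subtype, ∀ y ∈ B'.map Z.subtype, x * y = y * x := by
    rintro _ ⟨a, ha, rfl⟩ _ ⟨b, hb, rfl⟩
    have h0 := hB'c.is_comm.comm (⟨a, ha⟩ : ↥B') ⟨b, hb⟩
    have h1 : a * b = b * a := congrArg Subtype.val h0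
    exact congrArg Subtype.val h1
  refine ⟨B'.map Z.subtype, Subgroup.map_subtype_le _,
    ⟨⟨⟨fun x y => Subtype.ext (hcomm x x.2 y y.2)⟩⟩, ?_⟩, ?_⟩
  · rintro e ⟨a, ha, rfl⟩
    have h0 := congrArg Subtype.val (hB'exp a ha)
    rw [Subgroup.coe_pow, Subgroup.coe_one] at h0
    exact h0
  · rw [Subgroup.card_map_of_injective Z.subtype_injective]
    obtain ⟨j, hj⟩ := IsPGroup.iff_card.mp hB'p
    rw [hj] at hB'card ⊢
    have hkj : k < j := (Nat.pow_lt_pow_iff_right hp.one_lt).mp hB'card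
    exact Nat.pow_le_pow_right hp.pos hkj

theorem elem_facts9 {G : Type u} [Group G] [Finite G] {p : ℕ} [Fact p.Prime] (B : Subgroup G)
    (hBea : Cfsg.IsElementaryAbelian p B) (k : ℕ) (hBcard : p ^ (k + 1) ≤ Nat.card ↥B) :
    IsPGroup p ↥B ∧ p ∣ Nat.card ↥B := by
  have hp : p.Prime := Fact.out
  have hBp : IsPGroup p ↥B := by
    rintro ⟨b, hb⟩
    refine ⟨1, ?_⟩
    apply Subtype.ext
    show b ^ p ^ 1 = 1
    rw [pow_one]; exact hBea.2 b hb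
  refine ⟨hBp, ?_⟩
  obtain ⟨j, hj⟩ := IsPGroup.iff_card.mp hBp
  have hj0 : j ≠ 0 := by
    intro h0
    rw [hj, h0, pow_zero] at hBcard
    have h3 : 1 < p ^ (k + 1) := Nat.one_lt_pow (Nat.succ_ne_zero k) hp.one_lt
    omega
  rw [hj]; exact dvd_pow_self p hj0

theorem exists_hyperplane_centralizer9 {G : Type u} [Group G] [Finite G] {p q : ℕ}
    [Fact p.Prime] [Fact q.Prime] (hqp : q ≠ p) (B R D : Subgroup G)
    (hBea : Cfsg.IsElementaryAbelian p B) (hB2 : p ^ 2 ≤ Nat.card ↥B) (hRq : IsPGroup q ↥R)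
    (hBR : B ≤ normalizer (R : Set G)) (hRD : ¬ R ≤ D) :
    ∃ B₀ : Subgroup G, B₀ ≤ B ∧ B₀.relIndex B ≤ p ∧ ¬ R ⊓ centralizer (B₀ : Set G) ≤ D := by
  have hp : p.Prime := Fact.out
  have hnd : ¬ p ∣ Nat.card ↥R := by
    intro hdvd
    have hc := coprime_card_qgroup9 (p := p) hqp hRq
    exact hp.one_lt.ne' (Nat.eq_one_of_dvd_coprimes hc hdvd dvd_rfl)
  have hgen := Cfsg.Agent.S1324.result p B R hBea hB2 hnd hBR
  by_contra hno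
  apply hRD
  rw [hgen]
  refine iSup_le (fun B₀ => ?_)
  by_contra hB
  exact hno ⟨B₀.1, B₀.2.1, B₀.2.2, hB⟩

theorem hyperplanes_meet9 {G : Type*} [Group G] [Finite G] (p : ℕ) (hp : p.Prime)
    (B B₁ B₂ : Subgroup G) (hB₁B : B₁ ≤ B) (hB₁r : B₁.relIndex B ≤ p)
    (hB₂r : B₂.relIndex B ≤ p) (hBcard : p ^ 3 ≤ Nat.card ↥B) : B₁ ⊓ B₂ ≠ ⊥ := by
  intro hbot
  have h1 : (B₁ ⊓ B₂).relIndex B ≤ p * p :=
    (Subgroup.relIndex_inf_le).trans (Nat.mul_le_mul hB₁r hB₂r)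
  have h2 : Nat.card ↥(B₁ ⊓ B₂) * (B₁ ⊓ B₂).relIndex B = Nat.card ↥B := by
    have h0 := Subgroup.relIndex_mul_relIndex (⊥ : Subgroup G) (B₁ ⊓ B₂) B bot_le
      (inf_le_left.trans hB₁B)
    rwa [Subgroup.relIndex_bot_left, Subgroup.relIndex_bot_left] at h0
  rw [hbot] at h1 h2
  rw [Subgroup.card_bot, one_mul] at h2
  rw [h2] at h1
  have h3 : p ^ 3 ≤ p * p := hBcard.trans h1
  have h4 : p * p < p ^ 3 := by
    have e : p * p = p ^ 2 := by ring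
    rw [e]
    exact Nat.pow_lt_pow_right hp.one_lt (by norm_num)
  exact absurd h3 (not_le.mpr h4)

/-! ### The Bender–Glauberman setting -/

theorem bg_inv_le_core9 {G : Type u} [Group G] (A : Subgroup G)
    (hA : Cfsg.TransitivityHypothesis A) (H : Subgroup G) (hH : H ≠ ⊤) (hAH : A ≤ H)
    (S : Subgroup G) (hSH : S ≤ H)
    (hSπ : ∀ r : ℕ, r.Prime → r ∣ Nat.card ↥S → ¬ r ∣ Nat.card ↥A)
    (hAS : A ≤ normalizer (S : Set G)) :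
    S ≤ Cfsg.piCoreOf (Cfsg.primesNotDvd (Nat.card ↥A)) H := by
  rw [← hA.2.2 H hH hAH]
  exact le_sSup ⟨hSH, fun r hr hrd => ⟨hr, hSπ r hr hrd⟩, hAS⟩

theorem bg_normalizer_ne_top9 {G : Type u} [Group G] [Finite G]
    (hG : Cfsg.IsMinSimpleOddOrder G) (A : Subgroup G) (hA1 : A ≠ ⊥) (q : ℕ) [Fact q.Prime]
    (hqA : ¬ q ∣ Nat.card ↥A) (D : Subgroup G) (hD : D ≠ ⊥) (hDq : IsPGroup q ↥D) :
    normalizer (D : Set G) ≠ ⊤ := by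
  intro h
  haveI : IsSimpleGroup G := hG.2.1
  have hn : D.Normal := Subgroup.normalizer_eq_top_iff.mp h
  rcases hn.eq_bot_or_eq_top with h0 | h0
  · exact hD h0
  · have hAq : IsPGroup q ↥A := hDq.to_le (by rw [h0]; exact le_top)
    obtain ⟨k, hk⟩ := IsPGroup.iff_card.mp hAq
    apply hqA
    rw [hk]
    apply dvd_pow_self
    intro hk0
    rw [hk0, pow_zero] at hk
    exact hA1 (Subgroup.card_eq_one.mp hk)

theorem bg_centralizer_ne_top9 {G : Type u} [Group G] [Finite G]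
    (hG : Cfsg.IsMinSimpleOddOrder G) (a : G) (ha : a ≠ 1) :
    centralizer ({a} : Set G) ≠ ⊤ := by
  haveI : IsSimpleGroup G := hG.2.1
  intro h
  have hac : a ∈ center G := by
    rw [Subgroup.mem_center_iff]
    intro g
    have hg : g ∈ centralizer ({a} : Set G) := by rw [h]; exact Subgroup.mem_top g
    exact (Subgroup.mem_centralizer_iff.mp hg a (Set.mem_singleton a)).symm
  have hcn : (center G).Normal := inferInstance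
  rcases hcn.eq_bot_or_eq_top with h0 | h0
  · rw [h0, Subgroup.mem_bot] at hac; exact ha hac
  · apply hG.2.2.1
    refine ⟨⟨fun x y => ?_⟩⟩
    have hy : y ∈ center G := by rw [h0]; exact Subgroup.mem_top y
    exact Subgroup.mem_center_iff.mp hy x

theorem bg_core_centralizer_le9 {G : Type u} [Group G] [Finite G]
    (hG : Cfsg.IsMinSimpleOddOrder G) (A : Subgroup G) (hA : Cfsg.TransitivityHypothesis A)
    (H : Subgroup G) :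
    Cfsg.piCoreOf (Cfsg.primesNotDvd (Nat.card ↥A)) H ⊓ centralizer (A : Set G) ≤
      Cfsg.piCoreOf (Cfsg.primesNotDvd (Nat.card ↥A)) (centralizer (A : Set G)) := by
  haveI : IsSimpleGroup G := hG.2.1
  obtain ⟨π, hπ⟩ : ∃ π : Set ℕ, π = Cfsg.primesNotDvd (Nat.card ↥A) := ⟨_, rfl⟩
  rw [← hπ]
  have hπmem : ∀ r : ℕ, r ∈ π → ¬ r ∣ Nat.card ↥A := by
    intro r hr; rw [hπ] at hr; exact hr.2
  have hNtop : normalizer (A : Set G) ≠ ⊤ := by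
    intro h
    have hn : A.Normal := Subgroup.normalizer_eq_top_iff.mp h
    rcases hn.eq_bot_or_eq_top with h0 | h0
    · exact hA.1 h0
    · exact hA.2.1 h0
  obtain ⟨N, hN⟩ : ∃ N : Subgroup G, N = normalizer (A : Set G) := ⟨_, rfl⟩
  obtain ⟨Y, hY⟩ : ∃ Y : Subgroup G, Y = Cfsg.piCoreOf π H ⊓ centralizer (A : Set G) :=
    ⟨_, rfl⟩
  rw [← hY]
  have hYZ : Y ≤ centralizer (A : Set G) := by rw [hY]; exact inf_le_right
  have hZN : centralizer (A : Set G) ≤ N := by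
    rw [hN]; exact Subgroup.centralizer_le_normalizer _
  have hAN : A ≤ N := by rw [hN]; exact Subgroup.le_normalizer
  have hYπ : ∀ r : ℕ, r.Prime → r ∣ Nat.card ↥Y → ¬ r ∣ Nat.card ↥A := by
    intro r hr hrd
    apply hπmem
    apply piCoreOf_pi π H r hr
    exact hrd.trans (Subgroup.card_dvd_of_le (by rw [hY]; exact inf_le_left))
  have hAY : A ≤ normalizer (Y : Set G) := by
    intro a ha
    apply Subgroup.centralizer_le_normalizer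
    rw [Subgroup.mem_centralizer_iff]
    intro y hy
    exact (Subgroup.mem_centralizer_iff.mp (hYZ hy) a ha).symm
  have hYX : Y ≤ Cfsg.piCoreOf π N := by
    rw [hπ]
    exact bg_inv_le_core9 A hA N (by rw [hN]; exact hNtop) hAN Y (hYZ.trans hZN) hYπ hAY
  refine hYX.trans ?_
  obtain ⟨X, hX⟩ : ∃ X : Subgroup G, X = Cfsg.piCoreOf π N := ⟨_, rfl⟩
  rw [← hX]
  have hXN : X ≤ N := by rw [hX]; exact Subgroup.map_subtype_le _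
  have hNX : N ≤ normalizer (X : Set G) := by
    rw [hX]; exact Subgroup.le_normalizer.trans (char_map_normalizer N (Cfsg.piCore π ↥N))
  have hXπ : ∀ r : ℕ, r.Prime → r ∣ Nat.card ↥X → r ∈ π := by
    rw [hX]; exact piCoreOf_pi π N
  have hcop : (Nat.card ↥X).Coprime (Nat.card ↥A) :=
    Nat.coprime_of_dvd (fun r hr hrd => hπmem r (hXπ r hr hrd))
  have hXA : X ⊓ A = ⊥ := (Subgroup.disjoint_of_coprime_natCard hcop).eq_bot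
  have hXZ : X ≤ centralizer (A : Set G) := by
    intro x hx
    rw [Subgroup.mem_centralizer_iff]
    intro a ha
    have hxN : x ∈ normalizer (A : Set G) := by rw [← hN]; exact hXN hx
    have haX : a ∈ normalizer (X : Set G) := hNX (hAN ha)
    have h1 : ⁅x, a⁆ ∈ X ⊓ A := by
      refine Subgroup.mem_inf.mpr ⟨?_, ?_⟩
      · have h2 : a * x⁻¹ * a⁻¹ ∈ X :=
          (Subgroup.mem_normalizer_iff.mp haX x⁻¹).mp (X.inv_mem hx)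
        have e : ⁅x, a⁆ = x * (a * x⁻¹ * a⁻¹) := by rw [commutatorElement_def]; group
        rw [e]; exact X.mul_mem hx h2
      · have h2 : x * a * x⁻¹ ∈ A := (Subgroup.mem_normalizer_iff.mp hxN a).mp ha
        rw [commutatorElement_def]
        exact A.mul_mem h2 (A.inv_mem ha)
    rw [hXA, Subgroup.mem_bot, commutatorElement_eq_one_iff_mul_comm] at h1
    exact h1.symm
  exact le_piCoreOf hXZ (hZN.trans hNX) hXπ

theorem bg_locconj9 {G : Type u} [Group G] [Finite G] (hG : Cfsg.IsMinSimpleOddOrder G)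
    (A : Subgroup G) (hA : Cfsg.TransitivityHypothesis A) (q : ℕ) [Fact q.Prime]
    (hqA : ¬ q ∣ Nat.card ↥A) (H : Subgroup G) (hH : H ≠ ⊤) (hAH : A ≤ H) :
    LocConj9 A q (Cfsg.piCoreOf (Cfsg.primesNotDvd (Nat.card ↥A)) (centralizer (A : Set G)))
      H := by
  intro S₁ S₂ hS₁H hS₂H hS₁q hS₂q hAS₁ hAS₂
  obtain ⟨π, hπ⟩ : ∃ π : Set ℕ, π = Cfsg.primesNotDvd (Nat.card ↥A) := ⟨_, rfl⟩
  have hπmem : ∀ r : ℕ, r ∈ π → ¬ r ∣ Nat.card ↥A := by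
    intro r hr; rw [hπ] at hr; exact hr.2
  obtain ⟨X, hX⟩ : ∃ X : Subgroup G, X = Cfsg.piCoreOf π H := ⟨_, rfl⟩
  have hqπ : ∀ S : Subgroup G, IsPGroup q ↥S → ∀ r : ℕ, r.Prime → r ∣ Nat.card ↥S →
      ¬ r ∣ Nat.card ↥A := by
    intro S hSq r hr hrd
    have h0 : r = q := primes_of_isPGroup9 S hSq r hr hrd
    rw [h0]; exact hqA
  have hS₁X : S₁ ≤ X := by
    rw [hX, hπ]; exact bg_inv_le_core9 A hA H hH hAH S₁ hS₁H (hqπ S₁ hS₁q) hAS₁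
  have hS₂X : S₂ ≤ X := by
    rw [hX, hπ]; exact bg_inv_le_core9 A hA H hH hAH S₂ hS₂H (hqπ S₂ hS₂q) hAS₂
  have hXH : X ≤ H := by rw [hX]; exact Subgroup.map_subtype_le _
  have hAX : A ≤ normalizer (X : Set G) := by
    rw [hX]
    exact hAH.trans (Subgroup.le_normalizer.trans (char_map_normalizer H (Cfsg.piCore π ↥H)))
  have hXπ : ∀ r : ℕ, r.Prime → r ∣ Nat.card ↥X → r ∈ π := by
    rw [hX]; exact piCoreOf_pi π H
  have hcop : (Nat.card ↥A).Coprime (Nat.card ↥X) :=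
    (Nat.coprime_of_dvd (fun r hr hrd => hπmem r (hXπ r hr hrd))).symm
  have hsolvA : Group.IsSolvable ↥A := hG.2.2.2 A hA.2.1
  obtain ⟨T₁, hT₁X, hT₁c, hS₁T₁, hAT₁⟩ := Cfsg.Agent.Helper1.inv_sylow_ge A X hAX hcop
    (Or.inl hsolvA) q S₁ hS₁X hS₁q hAS₁
  obtain ⟨T₂, hT₂X, hT₂c, hS₂T₂, hAT₂⟩ := Cfsg.Agent.Helper1.inv_sylow_ge A X hAX hcop
    (Or.inl hsolvA) q S₂ hS₂X hS₂q hAS₂
  obtain ⟨c, hcXC, hcT⟩ := inv_sylow_conj q A X T₂ T₁ hAX hcop (Or.inl hsolvA)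
    hT₂X hT₂c hAT₂ hT₁X hT₁c hAT₁
  have hcK : c ∈ Cfsg.piCoreOf (Cfsg.primesNotDvd (Nat.card ↥A)) (centralizer (A : Set G)) := by
    apply bg_core_centralizer_le9 hG A hA H
    rw [← hπ, ← hX]; exact hcXC
  refine ⟨c, hcK, T₁, hT₁X.trans hXH, IsPGroup.of_card hT₁c, hAT₁, hS₁T₁, ?_⟩
  rw [← hcT, Cfsg.Agent.Helper1.conj_smul_eq_map]
  exact Subgroup.map_mono hS₂T₂

theorem bg_trans_72_inv9 {G : Type u} [Group G] [Finite G] (hG : Cfsg.IsMinSimpleOddOrder G)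
    (A : Subgroup G) (hA : Cfsg.TransitivityHypothesis A) (q : ℕ) [Fact q.Prime]
    (hqA : ¬ q ∣ Nat.card ↥A) (Q₁ Q₂ : Subgroup G) (h₁ : IsMaxInv9 A q Q₁)
    (h₂ : IsMaxInv9 A q Q₂) (H : Subgroup G) (hH : H ≠ ⊤) (hAH : A ≤ H)
    (hH₁ : H ⊓ Q₁ ≠ ⊥) (hH₂ : H ⊓ Q₂ ≠ ⊥) :
    ∃ k ∈ Cfsg.piCoreOf (Cfsg.primesNotDvd (Nat.card ↥A)) (centralizer (A : Set G)),
      Q₂ = Q₁.map (MulAut.conj k).toMonoidHom := by
  have hKZ : Cfsg.piCoreOf (Cfsg.primesNotDvd (Nat.card ↥A)) (centralizer (A : Set G)) ≤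
      centralizer (A : Set G) := Subgroup.map_subtype_le _
  exact trans_meet_sub9 A _ q hKZ
    (fun D hD hDq hAD => bg_locconj9 hG A hA q hqA _
      (bg_normalizer_ne_top9 hG A hA.1 q hqA D hD hDq) hAD)
    H (hAH.trans Subgroup.le_normalizer) (bg_locconj9 hG A hA q hqA H hH hAH) Q₁ Q₂ h₁ h₂
    hH₁ hH₂

theorem bg_trans_via_elt9 {G : Type u} [Group G] [Finite G] (hG : Cfsg.IsMinSimpleOddOrder G)
    (A : Subgroup G) (hA : Cfsg.TransitivityHypothesis A) (q : ℕ) [Fact q.Prime]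
    (hqA : ¬ q ∣ Nat.card ↥A) (Q₁ Q₂ : Subgroup G) (h₁ : IsMaxInv9 A q Q₁)
    (h₂ : IsMaxInv9 A q Q₂) (a : G) (ha1 : a ≠ 1) (haZ : a ∈ centralizer (A : Set G))
    (hQ₁a : Q₁ ⊓ centralizer ({a} : Set G) ≠ ⊥) (hQ₂a : Q₂ ⊓ centralizer ({a} : Set G) ≠ ⊥) :
    ∃ k ∈ Cfsg.piCoreOf (Cfsg.primesNotDvd (Nat.card ↥A)) (centralizer (A : Set G)),
      Q₂ = Q₁.map (MulAut.conj k).toMonoidHom := by
  have hAH : A ≤ centralizer ({a} : Set G) := by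
    intro x hx
    rw [Subgroup.mem_centralizer_iff]
    intro h hh
    rw [Set.mem_singleton_iff] at hh
    rw [hh]
    exact (Subgroup.mem_centralizer_iff.mp haZ x hx).symm
  exact bg_trans_72_inv9 hG A hA q hqA Q₁ Q₂ h₁ h₂ _ (bg_centralizer_ne_top9 hG a ha1) hAH
    (by rw [inf_comm]; exact hQ₁a) (by rw [inf_comm]; exact hQ₂a)

theorem bg_trans_72_9 {G : Type u} [Group G] [Finite G] (hG : Cfsg.IsMinSimpleOddOrder G)
    (A : Subgroup G) (hA : Cfsg.TransitivityHypothesis A) (q : ℕ) (hq : q.Prime)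
    (hqA : ¬ q ∣ Nat.card A) (Q₁ Q₂ : Subgroup G) (h₁ : Q₁ ∈ Cfsg.maxInvSubgroups ⊤ A {q})
    (h₂ : Q₂ ∈ Cfsg.maxInvSubgroups ⊤ A {q}) (H : Subgroup G) (hH : H ≠ ⊤) (hAH : A ≤ H)
    (hH₁ : H ⊓ Q₁ ≠ ⊥) (hH₂ : H ⊓ Q₂ ≠ ⊥) :
    ∃ k ∈ Cfsg.piCoreOf (Cfsg.primesNotDvd (Nat.card A)) (Subgroup.centralizer (A : Set G)),
      Q₂ = Q₁.map (MulAut.conj k).toMonoidHom := by
  haveI : Fact q.Prime := ⟨hq⟩
  exact bg_trans_72_inv9 hG A hA q hqA Q₁ Q₂ (maxInv_of_mem9 A Q₁ h₁) (maxInv_of_mem9 A Q₂ h₂)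
    H hH hAH hH₁ hH₂

theorem bg_trans_73_9 {G : Type u} [Group G] [Finite G] (hG : Cfsg.IsMinSimpleOddOrder G)
    (A : Subgroup G) (hA : Cfsg.TransitivityHypothesis A)
    (hZ : ¬ Cfsg.RankLE 2 ↥(A ⊓ Subgroup.centralizer (A : Set G)))
    (q : ℕ) (hq : q.Prime) (hqA : ¬ q ∣ Nat.card A) :
    ∀ Q₁ ∈ Cfsg.maxInvSubgroups ⊤ A {q}, ∀ Q₂ ∈ Cfsg.maxInvSubgroups ⊤ A {q},
      ∃ k ∈ Cfsg.piCoreOf (Cfsg.primesNotDvd (Nat.card A)) (Subgroup.centralizer (A : Set G)),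
        Q₂ = Q₁.map (MulAut.conj k).toMonoidHom := by
  haveI : Fact q.Prime := ⟨hq⟩
  intro Q₁ hQ₁ Q₂ hQ₂
  have h₁ := maxInv_of_mem9 A Q₁ hQ₁
  have h₂ := maxInv_of_mem9 A Q₂ hQ₂
  unfold Cfsg.RankLE at hZ
  push Not at hZ
  obtain ⟨p, hp, hZp⟩ := hZ
  haveI : Fact p.Prime := ⟨hp⟩
  obtain ⟨B, hBZ, hBea, hBcard⟩ :=
    exists_elem_of_not_prankle_gen9 (A ⊓ centralizer (A : Set G)) 2 hZp
  have hBA : B ≤ A := hBZ.trans inf_le_left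
  have hBC : B ≤ centralizer (A : Set G) := hBZ.trans inf_le_right
  obtain ⟨hBp, hpB⟩ := elem_facts9 B hBea 2 hBcard
  have hpA : p ∣ Nat.card ↥A := hpB.trans (Subgroup.card_dvd_of_le hBA)
  have hqp : q ≠ p := fun h => hqA (h ▸ hpA)
  by_cases hQ₁b : Q₁ = ⊥
  · have h0 : Q₂ = Q₁ := h₁.2.2 Q₂ h₂.1 h₂.2.1 (by rw [hQ₁b]; exact bot_le)
    refine ⟨1, Subgroup.one_mem _, ?_⟩
    rw [h0, ← Cfsg.Agent.Helper1.conj_smul_eq_map, map_one, one_smul]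
  by_cases hQ₂b : Q₂ = ⊥
  · have h0 : Q₁ = Q₂ := h₂.2.2 Q₁ h₁.1 h₁.2.1 (by rw [hQ₂b]; exact bot_le)
    refine ⟨1, Subgroup.one_mem _, ?_⟩
    rw [← h0, ← Cfsg.Agent.Helper1.conj_smul_eq_map, map_one, one_smul]
  have hB2 : p ^ 2 ≤ Nat.card ↥B :=
    le_trans (Nat.pow_le_pow_right hp.pos (by norm_num)) hBcard
  obtain ⟨B₁, hB₁B, hB₁r, hB₁D⟩ := exists_hyperplane_centralizer9 hqp B Q₁ ⊥ hBea hB2 h₁.1
    (hBA.trans h₁.2.1) (fun h => hQ₁b (le_bot_iff.mp h))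
  obtain ⟨B₂, hB₂B, hB₂r, hB₂D⟩ := exists_hyperplane_centralizer9 hqp B Q₂ ⊥ hBea hB2 h₂.1
    (hBA.trans h₂.2.1) (fun h => hQ₂b (le_bot_iff.mp h))
  have hBne : B₁ ⊓ B₂ ≠ ⊥ := hyperplanes_meet9 p hp B B₁ B₂ hB₁B hB₁r hB₂r hBcard
  obtain ⟨⟨a, haB⟩, ha1'⟩ := Subgroup.ne_bot_iff_exists_ne_one.mp hBne
  have ha1 : a ≠ 1 := fun h => ha1' (Subtype.ext h)
  obtain ⟨haB₁, haB₂⟩ := Subgroup.mem_inf.mp haB
  have hcentmono : ∀ B₀ : Subgroup G, a ∈ B₀ →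
      centralizer (B₀ : Set G) ≤ centralizer ({a} : Set G) :=
    fun B₀ haB₀ => Subgroup.centralizer_le (Set.singleton_subset_iff.mpr haB₀)
  exact bg_trans_via_elt9 hG A hA q hqA Q₁ Q₂ h₁ h₂ a ha1 (hBC (hB₁B haB₁))
    (fun h => hB₁D ((inf_le_inf_left _ (hcentmono B₁ haB₁)).trans (le_of_eq h)))
    (fun h => hB₂D ((inf_le_inf_left _ (hcentmono B₂ haB₂)).trans (le_of_eq h)))

theorem bg_trans_74_9 {G : Type u} [Group G] [Finite G] (hG : Cfsg.IsMinSimpleOddOrder G)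
    (A : Subgroup G) (hA : Cfsg.TransitivityHypothesis A)
    (hZ : ¬ Cfsg.RankLE 1 ↥(A ⊓ Subgroup.centralizer (A : Set G)))
    (q : ℕ) (hq : q.Prime) (hqA : ¬ q ∣ Nat.card A)
    (hqC : q ∣ Nat.card (Subgroup.centralizer (A : Set G))) :
    ∀ Q₁ ∈ Cfsg.maxInvSubgroups ⊤ A {q}, ∀ Q₂ ∈ Cfsg.maxInvSubgroups ⊤ A {q},
      ∃ k ∈ Cfsg.piCoreOf (Cfsg.primesNotDvd (Nat.card A)) (Subgroup.centralizer (A : Set G)),
        Q₂ = Q₁.map (MulAut.conj k).toMonoidHom := by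
  haveI : Fact q.Prime := ⟨hq⟩
  unfold Cfsg.RankLE at hZ
  push Not at hZ
  obtain ⟨p, hp, hZp⟩ := hZ
  haveI : Fact p.Prime := ⟨hp⟩
  obtain ⟨B, hBZ, hBea, hBcard⟩ :=
    exists_elem_of_not_prankle_gen9 (A ⊓ centralizer (A : Set G)) 1 hZp
  have hBA : B ≤ A := hBZ.trans inf_le_left
  have hBC : B ≤ centralizer (A : Set G) := hBZ.trans inf_le_right
  obtain ⟨hBp, hpB⟩ := elem_facts9 B hBea 1 hBcard
  have hpA : p ∣ Nat.card ↥A := hpB.trans (Subgroup.card_dvd_of_le hBA)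
  have hqp : q ≠ p := fun h => hqA (h ▸ hpA)
  have hB2 : p ^ 2 ≤ Nat.card ↥B := hBcard
  obtain ⟨x, hx⟩ := exists_prime_orderOf_dvd_card' (G := ↥(centralizer (A : Set G))) q hqC
  obtain ⟨x₀, hx₀⟩ : ∃ x₀ : G, x₀ = (x : G) := ⟨_, rfl⟩
  have hx₀Z : x₀ ∈ centralizer (A : Set G) := by rw [hx₀]; exact x.2
  have hx₀q : x₀ ^ q = 1 := by
    have h0 : x ^ q = 1 := by rw [← hx]; exact pow_orderOf_eq_one x
    have h1 := congrArg Subtype.val h0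
    rw [Subgroup.coe_pow, Subgroup.coe_one] at h1
    rw [hx₀]; exact h1
  have hx₀1 : x₀ ≠ 1 := by
    intro h
    have hx1 : x = 1 := Subtype.ext (by rw [← hx₀, h]; rfl)
    rw [hx1, orderOf_one] at hx
    exact hq.one_lt.ne hx
  have hTq : IsPGroup q ↥(zpowers x₀) :=
    zpowers_isPGroup9 q x₀ 1 (by rw [pow_one]; exact hx₀q)
  have hAT : A ≤ normalizer ((zpowers x₀ : Subgroup G) : Set G) := by
    intro a ha
    apply (centralizer_singleton_le_centralizer_zpowers x₀).trans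
      (Subgroup.centralizer_le_normalizer _)
    rw [Subgroup.mem_centralizer_iff]
    intro h hh
    rw [Set.mem_singleton_iff] at hh
    rw [hh]
    exact (Subgroup.mem_centralizer_iff.mp hx₀Z a ha).symm
  obtain ⟨Q₀, hQ₀, hTQ₀⟩ := exists_maxInv_ge9 A q (zpowers x₀) hTq hAT
  have hx₀Q₀ : x₀ ∈ Q₀ := hTQ₀ (Subgroup.mem_zpowers x₀)
  have key : ∀ Q : Subgroup G, IsMaxInv9 A q Q →
      ∃ k ∈ Cfsg.piCoreOf (Cfsg.primesNotDvd (Nat.card ↥A)) (centralizer (A : Set G)),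
        Q = Q₀.map (MulAut.conj k).toMonoidHom := by
    intro Q hQ
    have hQb : Q ≠ ⊥ := by
      intro h
      have h0 := hQ.2.2 (zpowers x₀) hTq hAT (by rw [h]; exact bot_le)
      rw [h] at h0
      exact hx₀1 (Subgroup.zpowers_eq_bot.mp h0)
    obtain ⟨B₀, hB₀B, hB₀r, hB₀D⟩ := exists_hyperplane_centralizer9 hqp B Q ⊥ hBea hB2 hQ.1
      (hBA.trans hQ.2.1) (fun h => hQb (le_bot_iff.mp h))
    have hB₀ne : B₀ ≠ ⊥ := by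
      intro h
      rw [h, Subgroup.relIndex_bot_left] at hB₀r
      have h4 : p < p ^ 2 := by
        calc p = p ^ 1 := (pow_one p).symm
          _ < p ^ 2 := Nat.pow_lt_pow_right hp.one_lt (by norm_num)
      omega
    obtain ⟨⟨a, haB₀⟩, ha1'⟩ := Subgroup.ne_bot_iff_exists_ne_one.mp hB₀ne
    have ha1 : a ≠ 1 := fun h => ha1' (Subtype.ext h)
    have hcent : centralizer (B₀ : Set G) ≤ centralizer ({a} : Set G) :=
      Subgroup.centralizer_le (Set.singleton_subset_iff.mpr haB₀)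
    have haZ : a ∈ centralizer (A : Set G) := hBC (hB₀B haB₀)
    have haA : a ∈ A := hBA (hB₀B haB₀)
    refine bg_trans_via_elt9 hG A hA q hqA Q₀ Q hQ₀ hQ a ha1 haZ ?_
      (fun h => hB₀D ((inf_le_inf_left _ hcent).trans (le_of_eq h)))
    intro h
    have hmem : x₀ ∈ Q₀ ⊓ centralizer ({a} : Set G) := by
      refine Subgroup.mem_inf.mpr ⟨hx₀Q₀, ?_⟩
      rw [Subgroup.mem_centralizer_iff]
      intro h' hh
      rw [Set.mem_singleton_iff] at hh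
      rw [hh]
      exact Subgroup.mem_centralizer_iff.mp hx₀Z a haA
    rw [h, Subgroup.mem_bot] at hmem
    exact hx₀1 hmem
  intro Q₁ hQ₁ Q₂ hQ₂
  obtain ⟨k₁, hk₁, e₁⟩ := key Q₁ (maxInv_of_mem9 A Q₁ hQ₁)
  obtain ⟨k₂, hk₂, e₂⟩ := key Q₂ (maxInv_of_mem9 A Q₂ hQ₂)
  refine ⟨k₂ * k₁⁻¹, Subgroup.mul_mem _ hk₂ (Subgroup.inv_mem _ hk₁), ?_⟩
  rw [e₂, e₁, ← Cfsg.Agent.Helper1.conj_smul_eq_map, ← Cfsg.Agent.Helper1.conj_smul_eq_map,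
    ← Cfsg.Agent.Helper1.conj_smul_eq_map, Cfsg.Agent.Helper1.conj_smul_smul,
    inv_mul_cancel_right]

end Cfsg.Agent.Helper9
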