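import Mathlib
import Cfsg.Prelude.Def_Local
import Cfsg.Prelude.Def_Transfer
import Cfsg.Prelude.Def_CaseTheorems
import Cfsg.Prelude.Def_OddOrder
import Cfsg.Prelude.Def_OddOrderLocal
import Cfsg.Agent.Helper9.Trans4

set_option autoImplicit false

namespace Cfsg.Agent.Helper9

open Subgroup
open scoped commutatorElement Pointwise

universe u

/-- In a `p`-constrained subgroup `X ≥ E`, every `E`-invariant `p'`-subgroup lies in
`O_{p'}(X)`, provided `E` contains the relevant `p`-elements of its centralizer. -/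
theorem local_core_gen9 {G : Type u} [Group G] [Finite G] {p : ℕ} [Fact p.Prime]
    (E : Subgroup G) (hEp : IsPGroup p ↥E) (X : Subgroup G) (hET : E ≤ X)
    (hcon : Cfsg.IsPConstrained p ↥X)
    (hcase : (p ≠ 2 ∧ ∀ x ∈ centralizer (E : Set G), x ^ p = 1 → x ∈ E) ∨
      ((∀ x ∈ centralizer (E : Set G), (∃ j : ℕ, x ^ p ^ j = 1) → x ∈ E) ∧
        ∀ U : Subgroup G, IsPGroup p ↥U → ∀ x ∈ U, ∀ y ∈ U, ∀ z ∈ U,
          z * ⁅x, y⁆ = ⁅x, y⁆ * z))
    (K : Subgroup G) (hKX : K ≤ X) (hKc : (Nat.card ↥K).Coprime p)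
    (hEK : E ≤ normalizer (K : Set G)) :
    K ≤ (Cfsg.pPrimeCore p ↥X).map X.subtype := by
  have hA : IsPGroup p ↥(E.subgroupOf X) := hEp.comap_subtype
  have hQ : (Nat.card ↥(K.subgroupOf X)).Coprime p := by
    rw [Nat.card_congr (Subgroup.subgroupOfEquivOfLe hKX).toEquiv]; exact hKc
  have hAQ : E.subgroupOf X ≤ normalizer ((K.subgroupOf X : Subgroup ↥X) : Set ↥X) := by
    intro x hx
    rw [Subgroup.mem_subgroupOf] at hx
    rw [Subgroup.mem_normalizer_iff]
    intro h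
    rw [Subgroup.mem_subgroupOf, Subgroup.mem_subgroupOf]
    exact Subgroup.mem_normalizer_iff.mp (hEK hx) (h : G)
  have hcentr : ∀ x : ↥X, x ∈ centralizer ((E.subgroupOf X : Subgroup ↥X) : Set ↥X) →
      (x : G) ∈ centralizer (E : Set G) := by
    intro x hx
    rw [Subgroup.mem_centralizer_iff] at hx ⊢
    intro e he
    have h0 := hx ⟨e, hET he⟩ (Subgroup.mem_subgroupOf.mpr he)
    exact congrArg Subtype.val h0
  have hle : K.subgroupOf X ≤ Cfsg.pPrimeCore p ↥X := by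
    rcases hcase with ⟨hp2, hΩ⟩ | ⟨hΩ, hcl⟩
    · refine inv_pprime_le_core_odd9 hp2 hcon (E.subgroupOf X) hA ?_ (K.subgroupOf X) hQ hAQ
      intro x hx hxp
      rw [Subgroup.mem_subgroupOf]
      apply hΩ (x : G) (hcentr x hx)
      have h0 := congrArg Subtype.val hxp
      rw [Subgroup.coe_pow, Subgroup.coe_one] at h0
      exact h0
    · refine inv_pprime_le_core_cl2_9 hcon (E.subgroupOf X) hA ?_ ?_ (K.subgroupOf X) hQ hAQ
      · intro x hx hxp
        rw [Subgroup.mem_subgroupOf]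
        apply hΩ (x : G) (hcentr x hx)
        obtain ⟨j, hj⟩ := hxp
        refine ⟨j, ?_⟩
        have h0 := congrArg Subtype.val hj
        rw [Subgroup.coe_pow, Subgroup.coe_one] at h0
        exact h0
      · intro U hU x hx y hy z hz
        have h0 := hcl (U.map X.subtype) (hU.map _) (x : G) (Subgroup.mem_map_of_mem _ hx)
          (y : G) (Subgroup.mem_map_of_mem _ hy) (z : G) (Subgroup.mem_map_of_mem _ hz)
        apply Subtype.ext
        have e : ((⁅x, y⁆ : ↥X) : G) = ⁅(x : G), (y : G)⁆ :=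
          map_commutatorElement X.subtype x y
        show (z : G) * ((⁅x, y⁆ : ↥X) : G) = ((⁅x, y⁆ : ↥X) : G) * (z : G)
        rw [e]
        exact h0
  intro k hk
  exact ⟨⟨k, hKX hk⟩, hle (Subgroup.mem_subgroupOf.mpr hk), rfl⟩

/-- Criteria for the transitivity hypothesis (Bender–Glauberman 7.6). -/
theorem bg_transitivity_criteria9 {G : Type u} [Group G] [Finite G]
    (hG : Cfsg.IsMinSimpleOddOrder G) (p : ℕ) [Fact p.Prime] (hp : p ∣ Nat.card G)
    (A : Subgroup G) (hAp : IsPGroup p A) (hAc : IsMulCommutative A)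
    (h : (∀ x ∈ Subgroup.centralizer (A : Set G), x ^ p = 1 ↔ x ∈ A) ∧
        (∀ H : Subgroup G, H ≠ ⊤ → Cfsg.PLengthLE p 1 H) ∨
      ∃ P : Sylow p G, Cfsg.IsSCN (P : Subgroup G) A ∧ ¬ Cfsg.PRankLE p 1 A) :
    Cfsg.TransitivityHypothesis A := by
  have hpp : p.Prime := Fact.out
  haveI : IsSimpleGroup G := hG.2.1
  have hp2 : p ≠ 2 := by
    intro h2
    rw [h2] at hp
    exact (Nat.not_even_iff_odd.mpr hG.1) (even_iff_two_dvd.mpr hp)
  have hAcomm : ∀ x ∈ A, ∀ y ∈ A, x * y = y * x := by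
    intro x hx y hy
    have h0 := hAc.is_comm.comm (⟨x, hx⟩ : ↥A) ⟨y, hy⟩
    exact congrArg Subtype.val h0
  have hAtop : A ≠ ⊤ := by
    intro h0
    apply hG.2.2.1
    refine ⟨⟨fun x y => ?_⟩⟩
    exact hAcomm x (by rw [h0]; exact Subgroup.mem_top x) y (by rw [h0]; exact Subgroup.mem_top y)
  have hΩ : ∀ x ∈ centralizer (A : Set G), x ^ p = 1 → x ∈ A := by
    rcases h with ⟨h1, -⟩ | ⟨P, hscn, -⟩
    · intro x hx hxp; exact (h1 x hx).mp hxp
    · intro x hx hxp
      obtain ⟨hAP, hPN, hPC⟩ := hscn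
      refine pelt_centralizer_mem9 P A ?_ hPC x hx 1 (by rw [pow_one]; exact hxp)
      intro g hg b hb
      exact (Subgroup.mem_normalizer_iff.mp (hPN hg) b).mp hb
  have hAbot : A ≠ ⊥ := by
    rcases h with ⟨h1, -⟩ | ⟨P, -, hrk⟩
    · intro h0
      obtain ⟨x, hx⟩ := exists_prime_orderOf_dvd_card' (G := G) p hp
      have hxp : x ^ p = 1 := by rw [← hx]; exact pow_orderOf_eq_one x
      have hxC : x ∈ centralizer (A : Set G) := by
        rw [h0, Subgroup.mem_centralizer_iff]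
        intro y hy
        have hy1 : y = 1 := Subgroup.mem_bot.mp hy
        rw [hy1, one_mul, mul_one]
      have hxA := (h1 x hxC).mp hxp
      rw [h0, Subgroup.mem_bot] at hxA
      rw [hxA, orderOf_one] at hx
      exact hpp.one_lt.ne hx
    · intro h0
      apply hrk
      intro B _ _
      have h1 : Nat.card ↥B ≤ Nat.card ↥A := Subgroup.card_le_card_group B
      have h2 : Nat.card ↥A = 1 := by rw [h0, Subgroup.card_bot]
      have h3 : 1 ≤ p ^ 1 := Nat.one_le_pow _ _ hpp.pos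
      omega
  have hcase : (p ≠ 2 ∧ ∀ x ∈ centralizer (A : Set G), x ^ p = 1 → x ∈ A) ∨
      ((∀ x ∈ centralizer (A : Set G), (∃ j : ℕ, x ^ p ^ j = 1) → x ∈ A) ∧
        ∀ U : Subgroup G, IsPGroup p ↥U → ∀ x ∈ U, ∀ y ∈ U, ∀ z ∈ U,
          z * ⁅x, y⁆ = ⁅x, y⁆ * z) := Or.inl ⟨hp2, hΩ⟩
  refine ⟨hAbot, hAtop, ?_⟩
  intro X hX hAX
  obtain ⟨π, hπ⟩ : ∃ π : Set ℕ, π = Cfsg.primesNotDvd (Nat.card ↥A) := ⟨_, rfl⟩
  rw [← hπ]
  obtain ⟨k, hk⟩ := IsPGroup.iff_card.mp hAp
  have hk0 : k ≠ 0 := by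
    intro h0
    rw [h0, pow_zero] at hk
    exact hAbot (Subgroup.card_eq_one.mp hk)
  have hpA : p ∣ Nat.card ↥A := by rw [hk]; exact dvd_pow_self p hk0
  apply le_antisymm
  · apply sSup_le
    rintro Y ⟨hYX, hYπ, hAY⟩
    have hYc : (Nat.card ↥Y).Coprime p := by
      apply Nat.Coprime.symm
      rw [Nat.Prime.coprime_iff_not_dvd hpp]
      intro hd
      have h5 := hYπ p hpp hd
      rw [hπ] at h5
      exact h5.2 hpA
    have hsolv : Group.IsSolvable ↥X := hG.2.2.2 X hX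
    have hcon : Cfsg.IsPConstrained p ↥X :=
      (pConstrained_iff_pLayer_eq_bot p).mpr (pLayer_eq_bot_of_solvable p hsolv)
    have h1 := local_core_gen9 A hAp X hAX hcon hcase Y hYX hYc hAY
    refine h1.trans ?_
    apply Subgroup.map_mono
    apply le_piCore (inferInstance : (Cfsg.pPrimeCore p ↥X).Normal)
    intro r hr hrd
    rw [hπ]
    refine ⟨hr, ?_⟩
    intro hrA
    rw [hk] at hrA
    have hrp : r = p := (Nat.prime_dvd_prime_iff_eq hr hpp).mp (hr.dvd_of_dvd_pow hrA)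
    rw [hrp] at hrd
    have hc : (Nat.card ↥(Cfsg.pPrimeCore p ↥X)).Coprime p := pPrimeCore_coprime p
    exact hpp.one_lt.ne' (Nat.eq_one_of_dvd_coprimes hc hrd dvd_rfl)
  · apply le_sSup
    refine ⟨Subgroup.map_subtype_le _, piCoreOf_pi π X, ?_⟩
    exact hAX.trans (Subgroup.le_normalizer.trans (char_map_normalizer X (Cfsg.piCore π ↥X)))

end Cfsg.Agent.Helper9
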