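import Mathlib
import Cfsg.Prelude.Def_Local
import Cfsg.Prelude.Def_Transfer
import Cfsg.Prelude.Def_CaseTheorems
import Cfsg.Prelude.Def_OddOrder
import Cfsg.Prelude.Def_OddOrderLocal
import Cfsg.Agent.Helper9.Trans5

set_option autoImplicit false

namespace Cfsg.Agent.Helper9

open Subgroup
open scoped commutatorElement Pointwise

universe u

theorem normalizer_le_normalizer_centralizer9 {G : Type*} [Group G] (P : Subgroup G) :
    normalizer (P : Set G) ≤ normalizer ((centralizer (P : Set G) : Subgroup G) : Set G) := by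
  intro n hn
  rw [Subgroup.mem_normalizer_iff]
  have key : ∀ m ∈ normalizer (P : Set G), ∀ c ∈ centralizer (P : Set G),
      m * c * m⁻¹ ∈ centralizer (P : Set G) := by
    intro m hm c hc
    rw [Subgroup.mem_centralizer_iff] at hc ⊢
    intro a ha
    have ha' : m⁻¹ * a * m ∈ P := by
      have h0 := (Subgroup.mem_normalizer_iff.mp (inv_mem hm) a).mp ha
      rwa [inv_inv] at h0
    have h1 := hc _ ha'
    calc a * (m * c * m⁻¹) = m * ((m⁻¹ * a * m) * c) * m⁻¹ := by group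
      _ = m * (c * (m⁻¹ * a * m)) * m⁻¹ := by rw [h1]
      _ = m * c * m⁻¹ * a := by group
  intro c
  constructor
  · exact key n hn c
  · intro h
    have h2 := key n⁻¹ (inv_mem hn) _ h
    have e : n⁻¹ * (n * c * n⁻¹) * n⁻¹⁻¹ = c := by group
    rwa [e] at h2

theorem commutator_self_le9 {G : Type*} [Group G] (N : Subgroup G) : ⁅N, N⁆ ≤ N := by
  rw [Subgroup.commutator_le]
  intro a ha b hb
  rw [commutatorElement_def]
  exact N.mul_mem (N.mul_mem (N.mul_mem ha hb) (N.inv_mem ha)) (N.inv_mem hb)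

theorem normalizer_conj_of_normalizer9 {G : Type*} [Group G] (E S : Subgroup G) (d : G)
    (hd : d ∈ normalizer (E : Set G)) (hES : E ≤ normalizer (S : Set G)) :
    E ≤ normalizer ((S.map (MulAut.conj d).toMonoidHom : Subgroup G) : Set G) := by
  intro e he
  have he' : d⁻¹ * e * d ∈ E := by
    have h0 := (Subgroup.mem_normalizer_iff.mp (inv_mem hd) e).mp he
    rwa [inv_inv] at h0
  have hed : e * d = d * (d⁻¹ * e * d) := by group
  rw [Cfsg.Agent.Helper1.mem_normalizer_iff_conj_smul, ← Cfsg.Agent.Helper1.conj_smul_eq_map,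
    Cfsg.Agent.Helper1.conj_smul_smul, hed, ← Cfsg.Agent.Helper1.conj_smul_smul,
    Cfsg.Agent.Helper1.mem_normalizer_iff_conj_smul.mp (hES he')]

theorem maxInv_conj_normalizer9 {G : Type u} [Group G] [Finite G] (E : Subgroup G) (q : ℕ)
    (Q : Subgroup G) (hQ : IsMaxInv9 E q Q) (c : G) (hc : c ∈ normalizer (E : Set G)) :
    IsMaxInv9 E q (Q.map (MulAut.conj c).toMonoidHom) := by
  obtain ⟨hQq, hQE, hQmax⟩ := hQ
  refine ⟨hQq.map _, normalizer_conj_of_normalizer9 E Q c hc hQE, ?_⟩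
  intro R hRq hRE hQR
  have hc' : c⁻¹ ∈ normalizer (E : Set G) := inv_mem hc
  have h1 := hQmax (R.map (MulAut.conj c⁻¹).toMonoidHom) (hRq.map _)
    (normalizer_conj_of_normalizer9 E R c⁻¹ hc' hRE) (by
      have h2 : (Q.map (MulAut.conj c).toMonoidHom).map (MulAut.conj c⁻¹).toMonoidHom ≤
          R.map (MulAut.conj c⁻¹).toMonoidHom := Subgroup.map_mono hQR
      rwa [map_conj_inv_map_conj9] at h2)
  rw [← map_conj_map_conj_inv9 R c, h1]

theorem pow_mul_mem9 {G : Type*} [Group G] (D : Subgroup G) (k d : G)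
    (hk : k ∈ normalizer (D : Set G)) (hd : d ∈ D) (m : ℕ) :
    ∃ d' ∈ D, (k * d) ^ m = k ^ m * d' := by
  induction m with
  | zero => exact ⟨1, D.one_mem, by simp⟩
  | succ m ih =>
    obtain ⟨d', hd', e⟩ := ih
    refine ⟨k⁻¹ * d' * k * d, D.mul_mem ?_ hd, ?_⟩
    · have h0 := (Subgroup.mem_normalizer_iff.mp (inv_mem hk) d').mp hd'
      rwa [inv_inv] at h0
    · rw [pow_succ, e, pow_succ]
      simp only [mul_assoc, mul_inv_cancel_left]

/-- Glauberman's lemma, existence of a fixed point (for conjugation of subgroups). -/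
theorem coprime_fixed_conj9 {G : Type u} [Group G] [Finite G] (K P Q : Subgroup G)
    (hPK : P ≤ normalizer (K : Set G)) (hcop : (Nat.card ↥P).Coprime (Nat.card ↥K))
    (hsolv : Group.IsSolvable ↥P)
    (horb : ∀ x ∈ P, ∃ k ∈ K,
      Q.map (MulAut.conj x).toMonoidHom = Q.map (MulAut.conj k).toMonoidHom) :
    ∃ d ∈ K, P ≤ normalizer ((Q.map (MulAut.conj d).toMonoidHom : Subgroup G) : Set G) := by
  obtain ⟨L, hL⟩ : ∃ L : Subgroup G, L = K ⊔ P := ⟨_, rfl⟩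
  have hKL : K ≤ L := by rw [hL]; exact le_sup_left
  have hPL : P ≤ L := by rw [hL]; exact le_sup_right
  have hLN : L ≤ normalizer (K : Set G) := by
    rw [hL]; exact sup_le Subgroup.le_normalizer hPK
  have hKn : (K.subgroupOf L).Normal := Subgroup.normal_subgroupOf_of_le_normalizer hLN
  obtain ⟨K', hK'⟩ : ∃ K' : Subgroup ↥L, K' = K.subgroupOf L := ⟨_, rfl⟩
  obtain ⟨P', hP'⟩ : ∃ P' : Subgroup ↥L, P' = P.subgroupOf L := ⟨_, rfl⟩
  obtain ⟨N', hN'⟩ : ∃ N' : Subgroup ↥L, N' = (normalizer (Q : Set G)).subgroupOf L :=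
    ⟨_, rfl⟩
  haveI : K'.Normal := by rw [hK']; exact hKn
  have hcardK : Nat.card ↥K' = Nat.card ↥K := by
    rw [hK']; exact Nat.card_congr (Subgroup.subgroupOfEquivOfLe hKL).toEquiv
  have hcardP : Nat.card ↥P' = Nat.card ↥P := by
    rw [hP']; exact Nat.card_congr (Subgroup.subgroupOfEquivOfLe hPL).toEquiv
  have hKP' : K' ⊔ P' = ⊤ := by
    rw [hK', hP', ← Subgroup.subgroupOf_sup hKL hPL, ← hL, Subgroup.subgroupOf_self]
  have hcop' : (Nat.card ↥K').Coprime (Nat.card ↥P') := by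
    rw [hcardK, hcardP]; exact hcop.symm
  have hidx : K'.index = Nat.card ↥P' := by
    have h1 : K'.relIndex (P' ⊔ K') = K'.relIndex P' := Subgroup.relIndex_sup_right P' K'
    rw [sup_comm, hKP', Subgroup.relIndex_top_right] at h1
    have h2 : K' ⊓ P' = ⊥ := (Subgroup.disjoint_of_coprime_natCard hcop').eq_bot
    rw [h1, ← Subgroup.inf_relIndex_right, h2, Subgroup.relIndex_bot_left]
  have hNK' : N' ⊔ K' = ⊤ := by
    rw [eq_top_iff, ← hKP']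
    refine sup_le le_sup_right ?_
    intro x' hx'
    have hxP : (x' : G) ∈ P := by
      rw [hP', Subgroup.mem_subgroupOf] at hx'; exact hx'
    obtain ⟨k, hk, hkQ⟩ := horb (x' : G) hxP
    have hn : k⁻¹ * (x' : G) ∈ normalizer (Q : Set G) := by
      rw [Cfsg.Agent.Helper1.mem_normalizer_iff_conj_smul,
        ← Cfsg.Agent.Helper1.conj_smul_smul, Cfsg.Agent.Helper1.conj_smul_eq_map (x' : G),
        hkQ, ← Cfsg.Agent.Helper1.conj_smul_eq_map, Cfsg.Agent.Helper1.conj_smul_smul,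
        inv_mul_cancel, map_one, one_smul]
    have hkL : k ∈ L := hKL hk
    have e : x' = (⟨k, hkL⟩ : ↥L) *
        (⟨k⁻¹ * (x' : G), L.mul_mem (L.inv_mem hkL) x'.2⟩ : ↥L) := by
      apply Subtype.ext
      show (x' : G) = k * (k⁻¹ * (x' : G))
      group
    rw [e]
    apply Subgroup.mul_mem
    · apply Subgroup.mem_sup_right
      rw [hK', Subgroup.mem_subgroupOf]; exact hk
    · apply Subgroup.mem_sup_left
      rw [hN', Subgroup.mem_subgroupOf]; exact hn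
  have hidx2 : (K'.subgroupOf N').index = Nat.card ↥P' := by
    have h1 : K'.relIndex (N' ⊔ K') = K'.relIndex N' := Subgroup.relIndex_sup_right N' K'
    rw [hNK', Subgroup.relIndex_top_right, hidx] at h1
    exact h1.symm
  have hcard2 : Nat.card ↥(K'.subgroupOf N') ∣ Nat.card ↥K' := by
    rw [← Subgroup.card_map_of_injective N'.subtype_injective, Subgroup.subgroupOf_map_subtype]
    exact Subgroup.card_dvd_of_le inf_le_left
  have hcop2 : (Nat.card ↥(K'.subgroupOf N')).Coprime (K'.subgroupOf N').index := by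
    rw [hidx2]
    exact Nat.Coprime.coprime_dvd_left hcard2 hcop'
  obtain ⟨H₁, hH₁⟩ := Subgroup.exists_right_complement'_of_coprime hcop2
  have hcardH₁ : Nat.card ↥H₁ = Nat.card ↥P' := by
    rw [← hidx2]; exact hH₁.symm.index_eq_card.symm
  obtain ⟨P₁, hP₁⟩ : ∃ P₁ : Subgroup ↥L, P₁ = H₁.map N'.subtype := ⟨_, rfl⟩
  have hP₁N : P₁ ≤ N' := by rw [hP₁]; exact Subgroup.map_subtype_le _
  have hcardP₁ : Nat.card ↥P₁ = Nat.card ↥P' := by
    rw [hP₁, Subgroup.card_map_of_injective N'.subtype_injective]; exact hcardH₁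
  haveI := hsolv
  have hsolvP' : Group.IsSolvable ↥P' := by
    rw [hP']
    exact Group.isSolvable_of_isSolvable_injective
      (f := (Subgroup.subgroupOfEquivOfLe hPL).toMonoidHom)
      (Subgroup.subgroupOfEquivOfLe hPL).injective
  obtain ⟨d', hd'K, hd'⟩ := Cfsg.Agent.Helper1.sz2 K' P' P₁
    (by rw [Subgroup.normalizer_eq_top]; exact le_top) (by rw [hKP']; exact le_top) hcardP₁
    hcop'.symm (Or.inl hsolvP')
  refine ⟨(d' : G)⁻¹, K.inv_mem (by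
    rw [hK', Subgroup.mem_subgroupOf] at hd'K; exact hd'K), ?_⟩
  intro x hx
  have hx' : (⟨x, hPL hx⟩ : ↥L) ∈ P' := by rw [hP', Subgroup.mem_subgroupOf]; exact hx
  have h1 : MulAut.conj d' • (⟨x, hPL hx⟩ : ↥L) ∈ MulAut.conj d' • P' :=
    Subgroup.smul_mem_pointwise_smul _ _ _ hx'
  rw [hd'] at h1
  have h2 := hP₁N h1
  rw [hN', Subgroup.mem_subgroupOf] at h2
  have h3 : (d' : G) * x * (d' : G)⁻¹ ∈ normalizer (Q : Set G) := h2
  rw [Cfsg.Agent.Helper1.mem_normalizer_iff_conj_smul] at h3 ⊢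
  rw [← Cfsg.Agent.Helper1.conj_smul_eq_map, Cfsg.Agent.Helper1.conj_smul_smul]
  have e : x * (d' : G)⁻¹ = (d' : G)⁻¹ * ((d' : G) * x * (d' : G)⁻¹) := by group
  rw [e, ← Cfsg.Agent.Helper1.conj_smul_smul, h3]

/-- Glauberman's lemma, transitivity of the centralizer on the fixed points. -/
theorem coprime_fixed_trans9 {G : Type u} [Group G] [Finite G] (K P Q : Subgroup G)
    (hPK : P ≤ normalizer (K : Set G)) (hcop : (Nat.card ↥P).Coprime (Nat.card ↥K))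
    (hsolv : Group.IsSolvable ↥P) (hPQ : P ≤ normalizer (Q : Set G)) (k : G) (hk : k ∈ K)
    (hPQ' : P ≤ normalizer ((Q.map (MulAut.conj k).toMonoidHom : Subgroup G) : Set G)) :
    ∃ c ∈ K ⊓ centralizer (P : Set G),
      Q.map (MulAut.conj c).toMonoidHom = Q.map (MulAut.conj k).toMonoidHom := by
  obtain ⟨D, hD⟩ : ∃ D : Subgroup G, D = K ⊓ normalizer (Q : Set G) := ⟨_, rfl⟩
  have hDK : D ≤ K := by rw [hD]; exact inf_le_left
  have hDN : D ≤ normalizer (Q : Set G) := by rw [hD]; exact inf_le_right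
  have hPD : P ≤ normalizer (D : Set G) := by
    rw [hD]; exact Cfsg.Agent.Helper1.le_normalizer_inf_normalizer P K Q hPK hPQ
  have hB : P.map (MulAut.conj k⁻¹).toMonoidHom ≤ D ⊔ P := by
    rintro _ ⟨x, hx, rfl⟩
    have hxK : x * k * x⁻¹ ∈ K := (Subgroup.mem_normalizer_iff.mp (hPK hx) k).mp hk
    have hy : k⁻¹ * x * k ∈ normalizer (Q : Set G) := by
      have h0 := Cfsg.Agent.Helper1.mem_normalizer_iff_conj_smul.mp (hPQ' hx)
      rw [← Cfsg.Agent.Helper1.conj_smul_eq_map, Cfsg.Agent.Helper1.conj_smul_smul] at h0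
      rw [Cfsg.Agent.Helper1.mem_normalizer_iff_conj_smul]
      have e : k⁻¹ * x * k = k⁻¹ * (x * k) := by group
      rw [e, ← Cfsg.Agent.Helper1.conj_smul_smul, h0, Cfsg.Agent.Helper1.conj_smul_smul,
        inv_mul_cancel, map_one, one_smul]
    have e2 : (MulAut.conj k⁻¹).toMonoidHom x = (k⁻¹ * (x * k * x⁻¹)) * x := by
      show k⁻¹ * x * k⁻¹⁻¹ = (k⁻¹ * (x * k * x⁻¹)) * x
      group
    rw [e2]
    apply Subgroup.mul_mem_sup _ hx
    rw [hD]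
    refine Subgroup.mem_inf.mpr ⟨K.mul_mem (K.inv_mem hk) hxK, ?_⟩
    have e3 : k⁻¹ * (x * k * x⁻¹) = (k⁻¹ * x * k) * x⁻¹ := by group
    rw [e3]
    exact Subgroup.mul_mem _ hy (Subgroup.inv_mem _ (hPQ hx))
  have hcardB : Nat.card ↥(P.map (MulAut.conj k⁻¹).toMonoidHom) = Nat.card ↥P :=
    Subgroup.card_map_of_injective (conj_injective9 k⁻¹)
  have hcopD : (Nat.card ↥P).Coprime (Nat.card ↥D) :=
    Nat.Coprime.coprime_dvd_right (Subgroup.card_dvd_of_le hDK) hcop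
  obtain ⟨d, hdD, hd⟩ := Cfsg.Agent.Helper1.sz2 D P (P.map (MulAut.conj k⁻¹).toMonoidHom)
    hPD hB hcardB hcopD (Or.inl hsolv)
  have hcN : k * d ∈ normalizer (P : Set G) := by
    rw [Cfsg.Agent.Helper1.mem_normalizer_iff_conj_smul, ← Cfsg.Agent.Helper1.conj_smul_smul,
      hd, ← Cfsg.Agent.Helper1.conj_smul_eq_map, Cfsg.Agent.Helper1.conj_smul_smul,
      mul_inv_cancel, map_one, one_smul]
  have hcK : k * d ∈ K := K.mul_mem hk (hDK hdD)
  have hKP : K ⊓ P = ⊥ := (Subgroup.disjoint_of_coprime_natCard hcop.symm).eq_bot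
  have hcC : k * d ∈ centralizer (P : Set G) := by
    rw [Subgroup.mem_centralizer_iff]
    intro x hx
    have h1 : ⁅k * d, x⁆ ∈ K ⊓ P := by
      refine Subgroup.mem_inf.mpr ⟨?_, ?_⟩
      · have h2 : x * (k * d)⁻¹ * x⁻¹ ∈ K :=
          (Subgroup.mem_normalizer_iff.mp (hPK hx) _).mp (K.inv_mem hcK)
        have e : ⁅k * d, x⁆ = (k * d) * (x * (k * d)⁻¹ * x⁻¹) := by
          rw [commutatorElement_def]; group
        rw [e]; exact K.mul_mem hcK h2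
      · have h2 : (k * d) * x * (k * d)⁻¹ ∈ P := (Subgroup.mem_normalizer_iff.mp hcN x).mp hx
        rw [commutatorElement_def]
        exact P.mul_mem h2 (P.inv_mem hx)
    rw [hKP, Subgroup.mem_bot, commutatorElement_eq_one_iff_mul_comm] at h1
    exact h1.symm
  refine ⟨k * d, Subgroup.mem_inf.mpr ⟨hcK, hcC⟩, ?_⟩
  rw [← Cfsg.Agent.Helper1.conj_smul_eq_map, ← Cfsg.Agent.Helper1.conj_smul_eq_map,
    ← Cfsg.Agent.Helper1.conj_smul_smul,
    Cfsg.Agent.Helper1.mem_normalizer_iff_conj_smul.mp (hDN hdD)]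

/-! ### Bender–Glauberman Theorem 7.5 -/

/-- Transitivity of `O_{π(A)'}(C(A))` on the maximal `A`-invariant `q`-subgroups. -/
def Htr9 {G : Type*} [Group G] (A : Subgroup G) (q : ℕ) : Prop :=
  ∀ Q₁ Q₂ : Subgroup G, IsMaxInv9 A q Q₁ → IsMaxInv9 A q Q₂ →
    ∃ k ∈ Cfsg.piCoreOf (Cfsg.primesNotDvd (Nat.card ↥A)) (centralizer (A : Set G)),
      Q₂ = Q₁.map (MulAut.conj k).toMonoidHom

theorem primesNotDvd_eq9 (m n : ℕ) (h1 : ∀ r : ℕ, r.Prime → r ∣ m → r ∣ n)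
    (h2 : ∀ r : ℕ, r.Prime → r ∣ n → r ∣ m) : Cfsg.primesNotDvd m = Cfsg.primesNotDvd n := by
  ext r
  constructor
  · rintro ⟨hr, hnd⟩
    exact ⟨hr, fun h => hnd (h2 r hr h)⟩
  · rintro ⟨hr, hnd⟩
    exact ⟨hr, fun h => hnd (h1 r hr h)⟩

theorem bg_TH_of_le9 {G : Type u} [Group G] [Finite G] (A A₁ : Subgroup G)
    (hA : Cfsg.TransitivityHypothesis A) (hle : A ≤ A₁) (hA₁top : A₁ ≠ ⊤)
    (hπ : Cfsg.primesNotDvd (Nat.card ↥A₁) = Cfsg.primesNotDvd (Nat.card ↥A)) :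
    Cfsg.TransitivityHypothesis A₁ := by
  refine ⟨?_, hA₁top, ?_⟩
  · intro h
    apply hA.1
    rw [eq_bot_iff, ← h]; exact hle
  · intro X hX hA₁X
    rw [hπ]
    apply le_antisymm
    · apply sSup_le
      rintro Y ⟨hYX, hYπ, hA₁Y⟩
      rw [← hA.2.2 X hX (hle.trans hA₁X)]
      exact le_sSup ⟨hYX, hYπ, hle.trans hA₁Y⟩
    · apply le_sSup
      refine ⟨Subgroup.map_subtype_le _, piCoreOf_pi _ X, ?_⟩
      exact hA₁X.trans (Subgroup.le_normalizer.trans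
        (char_map_normalizer X (Cfsg.piCore (Cfsg.primesNotDvd (Nat.card ↥A)) ↥X)))

theorem bg_centralized_le9 {G : Type u} [Group G] [Finite G] (hG : Cfsg.IsMinSimpleOddOrder G)
    (A : Subgroup G) (hA : Cfsg.TransitivityHypothesis A) (Y : Subgroup G)
    (hYZ : Y ≤ centralizer (A : Set G))
    (hYπ : ∀ r : ℕ, r.Prime → r ∣ Nat.card ↥Y → ¬ r ∣ Nat.card ↥A) :
    Y ≤ Cfsg.piCoreOf (Cfsg.primesNotDvd (Nat.card ↥A)) (centralizer (A : Set G)) := by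
  haveI : IsSimpleGroup G := hG.2.1
  obtain ⟨π, hπ⟩ : ∃ π : Set ℕ, π = Cfsg.primesNotDvd (Nat.card ↥A) := ⟨_, rfl⟩
  rw [← hπ]
  have hπmem : ∀ r : ℕ, r ∈ π → ¬ r ∣ Nat.card ↥A := by
    intro r hr; rw [hπ] at hr; exact hr.2
  have hNtop : normalizer (A : Set G) ≠ ⊤ := by
    intro h
    have hn : A.Normal := Subgroup.normalizer_eq_top_iff.mp h
    rcases hn.eq_bot_or_eq_top with h0 | h0
    · exact hA.1 h0
    · exact hA.2.1 h0
  obtain ⟨N, hN⟩ : ∃ N : Subgroup G, N = normalizer (A : Set G) := ⟨_, rfl⟩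
  have hZN : centralizer (A : Set G) ≤ N := by
    rw [hN]; exact Subgroup.centralizer_le_normalizer _
  have hAN : A ≤ N := by rw [hN]; exact Subgroup.le_normalizer
  have hAY : A ≤ normalizer (Y : Set G) := by
    intro a ha
    apply Subgroup.centralizer_le_normalizer
    rw [Subgroup.mem_centralizer_iff]
    intro y hy
    exact (Subgroup.mem_centralizer_iff.mp (hYZ hy) a ha).symm
  have hYX : Y ≤ Cfsg.piCoreOf π N := by
    rw [hπ]
    exact bg_inv_le_core9 A hA N (by rw [hN]; exact hNtop) hAN Y (hYZ.trans hZN) hYπ hAY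
  refine hYX.trans ?_
  obtain ⟨X, hX⟩ : ∃ X : Subgroup G, X = Cfsg.piCoreOf π N := ⟨_, rfl⟩
  rw [← hX]
  have hXN : X ≤ N := by rw [hX]; exact Subgroup.map_subtype_le _
  have hNX : N ≤ normalizer (X : Set G) := by
    rw [hX]; exact Subgroup.le_normalizer.trans (char_map_normalizer N (Cfsg.piCore π ↥N))
  have hXπ : ∀ r : ℕ, r.Prime → r ∣ Nat.card ↥X → r ∈ π := by
    rw [hX]; exact piCoreOf_pi π N
  have hcop : (Nat.card ↥X).Coprime (Nat.card ↥A) :=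
    Nat.coprime_of_dvd (fun r hr hrd => hπmem r (hXπ r hr hrd))
  have hXA : X ⊓ A = ⊥ := (Subgroup.disjoint_of_coprime_natCard hcop).eq_bot
  have hXZ : X ≤ centralizer (A : Set G) := by
    intro x hx
    rw [Subgroup.mem_centralizer_iff]
    intro a ha
    have hxN : x ∈ normalizer (A : Set G) := by rw [← hN]; exact hXN hx
    have haX : a ∈ normalizer (X : Set G) := hNX (hAN ha)
    have h1 : ⁅x, a⁆ ∈ X ⊓ A := by
      refine Subgroup.mem_inf.mpr ⟨?_, ?_⟩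
      · have h2 : a * x⁻¹ * a⁻¹ ∈ X :=
          (Subgroup.mem_normalizer_iff.mp haX x⁻¹).mp (X.inv_mem hx)
        have e : ⁅x, a⁆ = x * (a * x⁻¹ * a⁻¹) := by rw [commutatorElement_def]; group
        rw [e]; exact X.mul_mem hx h2
      · have h2 : x * a * x⁻¹ ∈ A := (Subgroup.mem_normalizer_iff.mp hxN a).mp ha
        rw [commutatorElement_def]
        exact A.mul_mem h2 (A.inv_mem ha)
    rw [hXA, Subgroup.mem_bot, commutatorElement_eq_one_iff_mul_comm] at h1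
    exact h1.symm
  exact le_piCoreOf hXZ (hZN.trans hNX) hXπ

theorem bg75_a9 {G : Type u} [Group G] [Finite G] (hG : Cfsg.IsMinSimpleOddOrder G)
    (A : Subgroup G) (hA : Cfsg.TransitivityHypothesis A) (P : Subgroup G) (hAP : A ≤ P) :
    Cfsg.piCoreOf (Cfsg.primesNotDvd (Nat.card ↥A)) (centralizer (A : Set G)) ⊓
        centralizer (P : Set G) =
      Cfsg.piCoreOf (Cfsg.primesNotDvd (Nat.card ↥A)) (centralizer (P : Set G)) := by
  have hCPA : centralizer (P : Set G) ≤ centralizer (A : Set G) :=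
    Subgroup.centralizer_le (SetLike.coe_subset_coe.mpr hAP)
  apply le_antisymm
  · refine le_piCoreOf inf_le_right ?_ ?_
    · apply le_normalizer_inf9 (centralizer (P : Set G)) _ _ _ Subgroup.le_normalizer
      exact hCPA.trans (Subgroup.le_normalizer.trans
        (char_map_normalizer (centralizer (A : Set G))
          (Cfsg.piCore (Cfsg.primesNotDvd (Nat.card ↥A)) ↥(centralizer (A : Set G)))))
    · intro r hr hrd
      exact piCoreOf_pi _ (centralizer (A : Set G)) r hr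
        (hrd.trans (Subgroup.card_dvd_of_le inf_le_left))
  · refine le_inf ?_ (Subgroup.map_subtype_le _)
    apply bg_centralized_le9 hG A hA
    · exact (Subgroup.map_subtype_le _).trans hCPA
    · intro r hr hrd
      exact (piCoreOf_pi _ (centralizer (P : Set G)) r hr hrd).2

theorem bg75_c_ne_bot9 {G : Type u} [Group G] [Finite G] (hG : Cfsg.IsMinSimpleOddOrder G)
    (A : Subgroup G) (hA : Cfsg.TransitivityHypothesis A) (q : ℕ) [Fact q.Prime]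
    (hqA : ¬ q ∣ Nat.card ↥A) (P : Subgroup G) (hP : P ≠ ⊤)
    (hPπ : ∀ r : ℕ, r.Prime → r ∣ Nat.card ↥P → r ∣ Nat.card ↥A) (hAP : A ≤ P)
    (Q₁ : Subgroup G) (hQ₁ : IsMaxInv9 P q Q₁) (hne : Q₁ ≠ ⊥) : IsMaxInv9 A q Q₁ := by
  have hq : q.Prime := Fact.out
  obtain ⟨hQ₁q, hPQ₁, hQ₁max⟩ := hQ₁
  have hAQ₁ : A ≤ normalizer (Q₁ : Set G) := hAP.trans hPQ₁
  have hH : normalizer (Q₁ : Set G) ≠ ⊤ := bg_normalizer_ne_top9 hG A hA.1 q hqA Q₁ hne hQ₁q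
  obtain ⟨π, hπ⟩ : ∃ π : Set ℕ, π = Cfsg.primesNotDvd (Nat.card ↥A) := ⟨_, rfl⟩
  have hπmem : ∀ r : ℕ, r ∈ π → ¬ r ∣ Nat.card ↥A := by
    intro r hr; rw [hπ] at hr; exact hr.2
  obtain ⟨H, hHdef⟩ : ∃ H : Subgroup G, H = normalizer (Q₁ : Set G) := ⟨_, rfl⟩
  have hH' : H ≠ ⊤ := by rw [hHdef]; exact hH
  have hAH : A ≤ H := by rw [hHdef]; exact hAQ₁
  have hPH : P ≤ H := by rw [hHdef]; exact hPQ₁
  obtain ⟨X, hX⟩ : ∃ X : Subgroup G, X = Cfsg.piCoreOf π H := ⟨_, rfl⟩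
  have hqπ : ∀ S : Subgroup G, IsPGroup q ↥S → ∀ r : ℕ, r.Prime → r ∣ Nat.card ↥S →
      ¬ r ∣ Nat.card ↥A := by
    intro S hSq r hr hrd
    have h0 : r = q := primes_of_isPGroup9 S hSq r hr hrd
    rw [h0]; exact hqA
  have hinvX : ∀ S : Subgroup G, S ≤ H → IsPGroup q ↥S → A ≤ normalizer (S : Set G) →
      S ≤ X := by
    intro S hSH hSq hAS
    rw [hX, hπ]; exact bg_inv_le_core9 A hA H hH' hAH S hSH (hqπ S hSq) hAS
  have hQ₁H : Q₁ ≤ H := by rw [hHdef]; exact Subgroup.le_normalizer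
  have hQ₁X : Q₁ ≤ X := hinvX Q₁ hQ₁H hQ₁q hAQ₁
  have hPX : P ≤ normalizer (X : Set G) := by
    rw [hX]
    exact hPH.trans (Subgroup.le_normalizer.trans (char_map_normalizer H (Cfsg.piCore π ↥H)))
  have hXπ : ∀ r : ℕ, r.Prime → r ∣ Nat.card ↥X → r ∈ π := by
    rw [hX]; exact piCoreOf_pi π H
  have hcop : (Nat.card ↥P).Coprime (Nat.card ↥X) :=
    Nat.coprime_of_dvd (fun r hr hrP hrX => hπmem r (hXπ r hr hrX) (hPπ r hr hrP))
  have hsolvP : Group.IsSolvable ↥P := hG.2.2.2 P hP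
  obtain ⟨T, hTX, hTc, hQ₁T, hPT⟩ := Cfsg.Agent.Helper1.inv_sylow_ge P X hPX hcop
    (Or.inl hsolvP) q Q₁ hQ₁X hQ₁q hPQ₁
  have hTQ₁ : T = Q₁ := hQ₁max T (IsPGroup.of_card hTc) hPT hQ₁T
  rw [hTQ₁] at hTc
  refine ⟨hQ₁q, hAQ₁, ?_⟩
  intro R hRq hAR hQ₁R
  by_contra hRne
  have hlt : Q₁ < R := lt_of_le_of_ne hQ₁R (fun h => hRne h.symm)
  obtain ⟨R₁, hR₁⟩ : ∃ R₁ : Subgroup G, R₁ = R ⊓ normalizer (Q₁ : Set G) := ⟨_, rfl⟩
  have hR₁Q₁ : ¬ R₁ ≤ Q₁ := by rw [hR₁]; exact normalizer_grow9 hRq hlt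
  have hR₁q : IsPGroup q ↥R₁ := hRq.to_le (by rw [hR₁]; exact inf_le_left)
  have hAR₁ : A ≤ normalizer (R₁ : Set G) := by
    rw [hR₁]; exact Cfsg.Agent.Helper1.le_normalizer_inf_normalizer A R Q₁ hAR hAQ₁
  have hR₁N : R₁ ≤ normalizer (Q₁ : Set G) := by rw [hR₁]; exact inf_le_right
  have hR₁X : R₁ ≤ X := hinvX R₁ (by rw [hHdef]; exact hR₁N) hR₁q hAR₁
  have hsupq : IsPGroup q ↥(R₁ ⊔ Q₁) := IsPGroup.to_sup_of_normal_right' hR₁q hQ₁q hR₁N
  obtain ⟨j, hj⟩ := IsPGroup.iff_card.mp hsupq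
  have hsupX : R₁ ⊔ Q₁ ≤ X := sup_le hR₁X hQ₁X
  have hX0 : Nat.card ↥X ≠ 0 := Nat.card_pos.ne'
  have hjle : j ≤ (Nat.card ↥X).factorization q := by
    apply (Nat.Prime.pow_dvd_iff_le_factorization hq hX0).mp
    rw [← hj]; exact Subgroup.card_dvd_of_le hsupX
  have hcardle : Nat.card ↥(R₁ ⊔ Q₁) ≤ Nat.card ↥Q₁ := by
    rw [hj, hTc]; exact Nat.pow_le_pow_right hq.pos hjle
  have heq : Q₁ = R₁ ⊔ Q₁ := Subgroup.eq_of_le_of_card_ge le_sup_right hcardle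
  exact hR₁Q₁ (le_of_le_of_eq le_sup_left heq.symm)

theorem bg75_step9 {G : Type u} [Group G] [Finite G] (hG : Cfsg.IsMinSimpleOddOrder G)
    (A : Subgroup G) (hA : Cfsg.TransitivityHypothesis A) (q : ℕ) [Fact q.Prime]
    (hqA : ¬ q ∣ Nat.card ↥A) (P : Subgroup G) (hP : P ≠ ⊤)
    (hPπ : ∀ r : ℕ, r.Prime → r ∣ Nat.card ↥P → r ∣ Nat.card ↥A) (hAP : A ≤ P)
    (hPN : P ≤ normalizer (A : Set G)) (htr : Htr9 A q) :
    (∀ Q : Subgroup G, IsMaxInv9 P q Q → IsMaxInv9 A q Q) ∧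
    (∀ Q₁ Q₂ : Subgroup G, IsMaxInv9 P q Q₁ → IsMaxInv9 P q Q₂ →
      ∃ k ∈ Cfsg.piCoreOf (Cfsg.primesNotDvd (Nat.card ↥A)) (centralizer (P : Set G)),
        Q₂ = Q₁.map (MulAut.conj k).toMonoidHom) := by
  obtain ⟨K, hK⟩ : ∃ K : Subgroup G,
      K = Cfsg.piCoreOf (Cfsg.primesNotDvd (Nat.card ↥A)) (centralizer (A : Set G)) := ⟨_, rfl⟩
  have hPK : P ≤ normalizer (K : Set G) := by
    rw [hK]
    exact hPN.trans ((normalizer_le_normalizer_centralizer9 A).trans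
      (char_map_normalizer (centralizer (A : Set G))
        (Cfsg.piCore (Cfsg.primesNotDvd (Nat.card ↥A)) ↥(centralizer (A : Set G)))))
  have hKπ : ∀ r : ℕ, r.Prime → r ∣ Nat.card ↥K → ¬ r ∣ Nat.card ↥A := by
    intro r hr hrd
    rw [hK] at hrd
    exact (piCoreOf_pi _ (centralizer (A : Set G)) r hr hrd).2
  have hcop : (Nat.card ↥P).Coprime (Nat.card ↥K) :=
    Nat.coprime_of_dvd (fun r hr hrP hrK => hKπ r hr hrK (hPπ r hr hrP))
  have hsolvP : Group.IsSolvable ↥P := hG.2.2.2 P hP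
  have hc : ∀ Q : Subgroup G, IsMaxInv9 P q Q → IsMaxInv9 A q Q := by
    intro Q hQ
    by_cases hQb : Q = ⊥
    · refine ⟨hQ.1, hAP.trans hQ.2.1, ?_⟩
      intro R hRq hAR _
      obtain ⟨Q', hQ', hRQ'⟩ := exists_maxInv_ge9 A q R hRq hAR
      obtain ⟨d, hdK, hPd⟩ := coprime_fixed_conj9 K P Q' hPK hcop hsolvP (by
        intro x hx
        obtain ⟨k, hk, e⟩ := htr Q' (Q'.map (MulAut.conj x).toMonoidHom) hQ'
          (maxInv_conj_normalizer9 A q Q' hQ' x (hPN hx))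
        exact ⟨k, by rw [hK]; exact hk, e⟩)
      have h0 := hQ.2.2 (Q'.map (MulAut.conj d).toMonoidHom) (hQ'.1.map _) hPd
        (by rw [hQb]; exact bot_le)
      rw [hQb] at h0
      have hQ'b : Q' = ⊥ := (Subgroup.map_eq_bot_iff_of_injective _ (conj_injective9 d)).mp h0
      rw [hQ'b] at hRQ'
      rw [hQb]
      exact le_bot_iff.mp hRQ'
    · exact bg75_c_ne_bot9 hG A hA q hqA P hP hPπ hAP Q hQ hQb
  refine ⟨hc, ?_⟩
  intro Q₁ Q₂ h₁ h₂
  obtain ⟨k, hk, e⟩ := htr Q₁ Q₂ (hc Q₁ h₁) (hc Q₂ h₂)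
  obtain ⟨c, hcKC, hcQ⟩ := coprime_fixed_trans9 K P Q₁ hPK hcop hsolvP h₁.2.1 k
    (by rw [hK]; exact hk) (by rw [← e]; exact h₂.2.1)
  refine ⟨c, ?_, by rw [hcQ]; exact e⟩
  rw [← bg75_a9 hG A hA P hAP, ← hK]
  exact hcKC

theorem bg75_chain9 {G : Type u} [Group G] [Finite G] (hG : Cfsg.IsMinSimpleOddOrder G)
    (q : ℕ) [Fact q.Prime] (P : Subgroup G) (hP : P ≠ ⊤) (H' : Subgroup ↥P)
    (hsn : H'.IsSubnormal) :
    ∀ A : Subgroup G, A = H'.map P.subtype → Cfsg.TransitivityHypothesis A →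
      ¬ q ∣ Nat.card ↥A → (∀ r : ℕ, r.Prime → r ∣ Nat.card ↥P → r ∣ Nat.card ↥A) →
      Htr9 A q →
      (∀ Q : Subgroup G, IsMaxInv9 P q Q → IsMaxInv9 A q Q) ∧
      (∀ Q₁ Q₂ : Subgroup G, IsMaxInv9 P q Q₁ → IsMaxInv9 P q Q₂ →
        ∃ k ∈ Cfsg.piCoreOf (Cfsg.primesNotDvd (Nat.card ↥A)) (centralizer (P : Set G)),
          Q₂ = Q₁.map (MulAut.conj k).toMonoidHom) := by
  induction hsn with
  | top =>
    intro A hAe hA hqA hPπ htr
    have hAP : A = P := by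
      rw [hAe, ← MonoidHom.range_eq_map, Subgroup.range_subtype]
    rw [hAP] at htr ⊢
    exact ⟨fun Q h => h, fun Q₁ Q₂ h₁ h₂ => htr Q₁ Q₂ h₁ h₂⟩
  | step H' K' h_le hK hN ih =>
    intro A hAe hA hqA hPπ htr
    have hq : q.Prime := Fact.out
    obtain ⟨A₁, hA₁⟩ : ∃ A₁ : Subgroup G, A₁ = K'.map P.subtype := ⟨_, rfl⟩
    have hAA₁ : A ≤ A₁ := by rw [hAe, hA₁]; exact Subgroup.map_mono h_le
    have hA₁P : A₁ ≤ P := by rw [hA₁]; exact Subgroup.map_subtype_le _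
    have hnorm : ∀ k ∈ K', ∀ h ∈ H', k * h * k⁻¹ ∈ H' := by
      intro k hk h hh
      have h1 := hN.conj_mem (⟨h, h_le hh⟩ : ↥K') (Subgroup.mem_subgroupOf.mpr hh) ⟨k, hk⟩
      rw [Subgroup.mem_subgroupOf] at h1
      exact h1
    have hA₁N : A₁ ≤ normalizer (A : Set G) := by
      rw [hA₁, hAe]
      rintro _ ⟨k, hk, rfl⟩
      rw [Subgroup.mem_normalizer_iff]
      intro g
      constructor
      · rintro ⟨h, hh, rfl⟩
        exact ⟨k * h * k⁻¹, hnorm k hk h hh, rfl⟩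
      · rintro ⟨h, hh, hhe⟩
        refine ⟨k⁻¹ * h * k, ?_, ?_⟩
        · have h1 := hnorm k⁻¹ (inv_mem hk) h hh
          rwa [inv_inv] at h1
        · have e : (h : G) = (k : G) * g * (k : G)⁻¹ := hhe
          show (k : G)⁻¹ * (h : G) * (k : G) = g
          rw [e]; group
    have hA₁top : A₁ ≠ ⊤ := by
      intro h
      apply hP
      rw [eq_top_iff, ← h]; exact hA₁P
    have hA₁π : ∀ r : ℕ, r.Prime → r ∣ Nat.card ↥A₁ → r ∣ Nat.card ↥A :=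
      fun r hr hd => hPπ r hr (hd.trans (Subgroup.card_dvd_of_le hA₁P))
    obtain ⟨hc1, ht1⟩ := bg75_step9 hG A hA q hqA A₁ hA₁top hA₁π hAA₁ hA₁N htr
    have hπeq : Cfsg.primesNotDvd (Nat.card ↥A₁) = Cfsg.primesNotDvd (Nat.card ↥A) :=
      primesNotDvd_eq9 _ _ hA₁π (fun r _ hd => hd.trans (Subgroup.card_dvd_of_le hAA₁))
    have hTH₁ : Cfsg.TransitivityHypothesis A₁ := bg_TH_of_le9 A A₁ hA hAA₁ hA₁top hπeq
    have hqA₁ : ¬ q ∣ Nat.card ↥A₁ := fun h => hqA (hA₁π q hq h)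
    have hPπ₁ : ∀ r : ℕ, r.Prime → r ∣ Nat.card ↥P → r ∣ Nat.card ↥A₁ :=
      fun r hr hd => (hPπ r hr hd).trans (Subgroup.card_dvd_of_le hAA₁)
    have htr₁ : Htr9 A₁ q := by
      unfold Htr9
      rw [hπeq]
      exact ht1
    obtain ⟨hc2, ht2⟩ := ih A₁ hA₁ hTH₁ hqA₁ hPπ₁ htr₁
    refine ⟨fun Q hQ => hc1 Q (hc2 Q hQ), ?_⟩
    intro Q₁ Q₂ h₁ h₂
    rw [← hπeq]
    exact ht2 Q₁ Q₂ h₁ h₂

theorem bg75_d9 {G : Type u} [Group G] [Finite G] (P K₁ : Subgroup G) (q : ℕ)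
    (hK₁C : K₁ ≤ centralizer (P : Set G))
    (hNK₁ : normalizer (P : Set G) ≤ normalizer (K₁ : Set G))
    (hcop : (Nat.card ↥K₁).Coprime (Nat.card ↥P))
    (ht : ∀ Q₁ Q₂ : Subgroup G, IsMaxInv9 P q Q₁ → IsMaxInv9 P q Q₂ →
      ∃ k ∈ K₁, Q₂ = Q₁.map (MulAut.conj k).toMonoidHom)
    (Q : Subgroup G) (hQ : IsMaxInv9 P q Q) :
    P ⊓ ⁅normalizer (P : Set G), normalizer (P : Set G)⁆ ≤
        ⁅normalizer (Q : Set G), normalizer (Q : Set G)⁆ ∧
    normalizer (P : Set G) = K₁ ⊔ (normalizer (P : Set G) ⊓ normalizer (Q : Set G)) := by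
  have hK₁N : K₁ ≤ normalizer (P : Set G) :=
    hK₁C.trans (Subgroup.centralizer_le_normalizer _)
  obtain ⟨N₁, hN₁⟩ : ∃ N₁ : Subgroup G,
      N₁ = normalizer (P : Set G) ⊓ normalizer (Q : Set G) := ⟨_, rfl⟩
  rw [← hN₁]
  have hN₁N : N₁ ≤ normalizer (P : Set G) := by rw [hN₁]; exact inf_le_left
  have hN₁Q : N₁ ≤ normalizer (Q : Set G) := by rw [hN₁]; exact inf_le_right
  have hdec : ∀ n ∈ normalizer (P : Set G), ∃ k ∈ K₁, ∃ n₁ ∈ N₁, n = k * n₁ := by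
    intro n hn
    obtain ⟨k, hk, e⟩ := ht Q (Q.map (MulAut.conj n).toMonoidHom) hQ
      (maxInv_conj_normalizer9 P q Q hQ n hn)
    have hkn : k⁻¹ * n ∈ normalizer (Q : Set G) := by
      rw [Cfsg.Agent.Helper1.mem_normalizer_iff_conj_smul,
        ← Cfsg.Agent.Helper1.conj_smul_smul, Cfsg.Agent.Helper1.conj_smul_eq_map n, e,
        ← Cfsg.Agent.Helper1.conj_smul_eq_map, Cfsg.Agent.Helper1.conj_smul_smul,
        inv_mul_cancel, map_one, one_smul]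
    refine ⟨k, hk, k⁻¹ * n, ?_, by group⟩
    rw [hN₁]
    exact Subgroup.mem_inf.mpr
      ⟨Subgroup.mul_mem _ (Subgroup.inv_mem _ (hK₁N hk)) hn, hkn⟩
  have hd1 : normalizer (P : Set G) = K₁ ⊔ N₁ := by
    apply le_antisymm
    · intro n hn
      obtain ⟨k, hk, n₁, hn₁, e⟩ := hdec n hn
      rw [e]
      exact Subgroup.mul_mem_sup hk hn₁
    · exact sup_le hK₁N hN₁N
  refine ⟨?_, hd1⟩
  obtain ⟨D, hD⟩ : ∃ D : Subgroup G, D = ⁅N₁, N₁⁆ := ⟨_, rfl⟩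
  have hDN₁ : D ≤ N₁ := by rw [hD]; exact commutator_self_le9 N₁
  have hN₁D : N₁ ≤ normalizer (D : Set G) := by
    intro n hn
    rw [Cfsg.Agent.Helper1.mem_normalizer_iff_conj_smul, Cfsg.Agent.Helper1.conj_smul_eq_map,
      hD, Subgroup.map_commutator]
    have h0 : N₁.map (MulAut.conj n).toMonoidHom = N₁ := by
      rw [← Cfsg.Agent.Helper1.conj_smul_eq_map]
      exact Cfsg.Agent.Helper1.mem_normalizer_iff_conj_smul.mp (Subgroup.le_normalizer hn)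
    rw [h0]
  have hA : ⁅normalizer (P : Set G), normalizer (P : Set G)⁆ ≤ K₁ ⊔ D := by
    rw [Subgroup.commutator_le]
    intro a ha b hb
    obtain ⟨k₁, hk₁, n₁, hn₁, rfl⟩ := hdec a ha
    obtain ⟨k₂, hk₂, n₂, hn₂, rfl⟩ := hdec b hb
    have hn₁N := hNK₁ (hN₁N hn₁)
    have e : ⁅k₁ * n₁, k₂ * n₂⁆ = k₁ * (n₁ * k₂ * n₁⁻¹) *
        ((n₁ * n₂ * n₁⁻¹) * k₁⁻¹ * (n₁ * n₂ * n₁⁻¹)⁻¹) * ⁅n₁, n₂⁆ * k₂⁻¹ := by
      rw [commutatorElement_def, commutatorElement_def]; group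
    rw [e]
    have m1 : n₁ * k₂ * n₁⁻¹ ∈ K₁ := (Subgroup.mem_normalizer_iff.mp hn₁N k₂).mp hk₂
    have hn12 : n₁ * n₂ * n₁⁻¹ ∈ normalizer (K₁ : Set G) :=
      hNK₁ (hN₁N (N₁.mul_mem (N₁.mul_mem hn₁ hn₂) (N₁.inv_mem hn₁)))
    have m2 : (n₁ * n₂ * n₁⁻¹) * k₁⁻¹ * (n₁ * n₂ * n₁⁻¹)⁻¹ ∈ K₁ :=
      (Subgroup.mem_normalizer_iff.mp hn12 k₁⁻¹).mp (K₁.inv_mem hk₁)
    have m3 : ⁅n₁, n₂⁆ ∈ D := by rw [hD]; exact Subgroup.commutator_mem_commutator hn₁ hn₂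
    exact Subgroup.mul_mem _ (Subgroup.mul_mem _
      (Subgroup.mem_sup_left (K₁.mul_mem (K₁.mul_mem hk₁ m1) m2)) (Subgroup.mem_sup_right m3))
      (Subgroup.mem_sup_left (K₁.inv_mem hk₂))
  intro x hx
  obtain ⟨hxP, hxN'⟩ := Subgroup.mem_inf.mp hx
  have hxKD := hA hxN'
  have hDK₁ : D ≤ normalizer (K₁ : Set G) := hDN₁.trans (hN₁N.trans hNK₁)
  obtain ⟨k, hk, d, hd, e⟩ := exists_mul_of_mem_sup_normalizer hDK₁ hxKD
  have hPN₁ : P ≤ N₁ := by rw [hN₁]; exact le_inf Subgroup.le_normalizer hQ.2.1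
  have hkN₁ : k ∈ N₁ := by
    have e2 : k = x * d⁻¹ := by rw [e]; group
    rw [e2]; exact N₁.mul_mem (hPN₁ hxP) (N₁.inv_mem (hDN₁ hd))
  obtain ⟨d', hd', e3⟩ := pow_mul_mem9 D k d (hN₁D hkN₁) hd (Nat.card ↥K₁)
  have hk1 : k ^ Nat.card ↥K₁ = 1 := by
    have h0 : (⟨k, hk⟩ : ↥K₁) ^ Nat.card ↥K₁ = 1 := pow_card_eq_one'
    have h1 := congrArg Subtype.val h0
    rw [Subgroup.coe_pow, Subgroup.coe_one] at h1
    exact h1
  have hx1 : x ^ Nat.card ↥P = 1 := by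
    have h0 : (⟨x, hxP⟩ : ↥P) ^ Nat.card ↥P = 1 := pow_card_eq_one'
    have h1 := congrArg Subtype.val h0
    rw [Subgroup.coe_pow, Subgroup.coe_one] at h1
    exact h1
  have hxm : x ^ Nat.card ↥K₁ ∈ D := by
    have e5 : x ^ Nat.card ↥K₁ = d' := by rw [e, e3, hk1, one_mul]
    rw [e5]; exact hd'
  have hbez := Nat.gcd_eq_gcd_ab (Nat.card ↥K₁) (Nat.card ↥P)
  have hg : Nat.gcd (Nat.card ↥K₁) (Nat.card ↥P) = 1 := hcop
  rw [hg] at hbez
  have e4 : x = (x ^ Nat.card ↥K₁) ^ (Nat.gcdA (Nat.card ↥K₁) (Nat.card ↥P)) *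
      (x ^ Nat.card ↥P) ^ (Nat.gcdB (Nat.card ↥K₁) (Nat.card ↥P)) := by
    rw [← zpow_natCast x (Nat.card ↥K₁), ← zpow_natCast x (Nat.card ↥P), ← zpow_mul,
      ← zpow_mul, ← zpow_add, ← hbez]
    simp
  have hxD : x ∈ D := by
    rw [e4, hx1, one_zpow, mul_one]
    exact D.zpow_mem hxm _
  have hDle : D ≤ ⁅normalizer (Q : Set G), normalizer (Q : Set G)⁆ := by
    rw [hD]; exact Subgroup.commutator_mono hN₁Q hN₁Q
  exact hDle hxD

theorem bg_trans_75_9 {G : Type u} [Group G] [Finite G] (hG : Cfsg.IsMinSimpleOddOrder G)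
    (A : Subgroup G) (hA : Cfsg.TransitivityHypothesis A) (q : ℕ) (hq : q.Prime)
    (hqA : ¬ q ∣ Nat.card A) (P : Subgroup G) (hP : P ≠ ⊤)
    (hPπ : (∀ r : ℕ, r.Prime → r ∣ Nat.card P → r ∣ Nat.card A)) (hAP : A ≤ P)
    (hsn : (A.subgroupOf P).IsSubnormal)
    (htr : ∀ Q₁ ∈ Cfsg.maxInvSubgroups ⊤ A {q}, ∀ Q₂ ∈ Cfsg.maxInvSubgroups ⊤ A {q},
      ∃ k ∈ Cfsg.piCoreOf (Cfsg.primesNotDvd (Nat.card A)) (Subgroup.centralizer (A : Set G)),
        Q₂ = Q₁.map (MulAut.conj k).toMonoidHom) :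
    Cfsg.piCoreOf (Cfsg.primesNotDvd (Nat.card A)) (Subgroup.centralizer (A : Set G)) ⊓
        Subgroup.centralizer (P : Set G) =
      Cfsg.piCoreOf (Cfsg.primesNotDvd (Nat.card A)) (Subgroup.centralizer (P : Set G)) ∧
      (∀ Q₁ ∈ Cfsg.maxInvSubgroups ⊤ P {q}, ∀ Q₂ ∈ Cfsg.maxInvSubgroups ⊤ P {q},
        ∃ k ∈ Cfsg.piCoreOf (Cfsg.primesNotDvd (Nat.card A)) (Subgroup.centralizer (P : Set G)),
          Q₂ = Q₁.map (MulAut.conj k).toMonoidHom) ∧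
      Cfsg.maxInvSubgroups ⊤ P {q} ⊆ Cfsg.maxInvSubgroups ⊤ A {q} ∧
      ∀ Q ∈ Cfsg.maxInvSubgroups ⊤ P {q},
        P ⊓ ⁅Subgroup.normalizer (P : Set G), Subgroup.normalizer (P : Set G)⁆ ≤
            ⁅Subgroup.normalizer (Q : Set G), Subgroup.normalizer (Q : Set G)⁆ ∧
        Subgroup.normalizer (P : Set G) =
          Cfsg.piCoreOf (Cfsg.primesNotDvd (Nat.card A)) (Subgroup.centralizer (P : Set G)) ⊔
            (Subgroup.normalizer (P : Set G) ⊓ Subgroup.normalizer (Q : Set G)) := by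
  haveI : Fact q.Prime := ⟨hq⟩
  have hmap : A = (A.subgroupOf P).map P.subtype := (Subgroup.map_subgroupOf_eq_of_le hAP).symm
  have htr' : Htr9 A q := fun Q₁ Q₂ h₁ h₂ =>
    htr Q₁ (mem_maxInv_of9 A Q₁ h₁) Q₂ (mem_maxInv_of9 A Q₂ h₂)
  obtain ⟨hc, ht⟩ := bg75_chain9 hG q P hP (A.subgroupOf P) hsn A hmap hA hqA hPπ htr'
  obtain ⟨K₁, hK₁⟩ : ∃ K₁ : Subgroup G,
      K₁ = Cfsg.piCoreOf (Cfsg.primesNotDvd (Nat.card ↥A)) (centralizer (P : Set G)) := ⟨_, rfl⟩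
  have hK₁C : K₁ ≤ centralizer (P : Set G) := by rw [hK₁]; exact Subgroup.map_subtype_le _
  have hNK₁ : normalizer (P : Set G) ≤ normalizer (K₁ : Set G) := by
    rw [hK₁]
    exact (normalizer_le_normalizer_centralizer9 P).trans
      (char_map_normalizer (centralizer (P : Set G))
        (Cfsg.piCore (Cfsg.primesNotDvd (Nat.card ↥A)) ↥(centralizer (P : Set G))))
  have hcop : (Nat.card ↥K₁).Coprime (Nat.card ↥P) := by
    apply Nat.coprime_of_dvd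
    intro r hr hrK hrP
    rw [hK₁] at hrK
    exact (piCoreOf_pi _ (centralizer (P : Set G)) r hr hrK).2 (hPπ r hr hrP)
  refine ⟨bg75_a9 hG A hA P hAP, ?_, ?_, ?_⟩
  · intro Q₁ hQ₁ Q₂ hQ₂
    exact ht Q₁ Q₂ (maxInv_of_mem9 P Q₁ hQ₁) (maxInv_of_mem9 P Q₂ hQ₂)
  · intro Q hQ
    exact mem_maxInv_of9 A Q (hc Q (maxInv_of_mem9 P Q hQ))
  · intro Q hQ
    rw [← hK₁]
    exact bg75_d9 P K₁ q hK₁C hNK₁ hcop
      (fun Q₁ Q₂ h₁ h₂ => by rw [hK₁]; exact ht Q₁ Q₂ h₁ h₂) Q (maxInv_of_mem9 P Q hQ)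

end Cfsg.Agent.Helper9
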